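import Cfsg.Agent.H14.Bender.Defs
import Cfsg.Agent.H28.StronglyEmbedded
import Cfsg.Agent.H28.TwoRankOne
import Cfsg.Agent.H50.StronglyEmbedded
import Cfsg.Agent.H19.Cores
import Cfsg.Prelude.Def_CaseTheorems

/-!
S1220 and S1223 from the theorem `Conc` for rich settings: the coset action, the case without
commuting involutions, and the reduction modulo the core.
-/

set_option autoImplicit false

namespace Cfsg.Agent.H14.Bender

universe u

open Cfsg.Agent.H50 (inv_mul_self inv_eq_self orderOf_conj orderOf_eq_two)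

/-- The main theorem for every finite rich setting, as a hypothesis. -/
def AllConc : Prop :=
  ∀ (K Δ : Type u) [Group K] [MulAction K Δ] [Finite K] [Finite Δ],
    Setting K Δ → Rich Δ (⊤ : Subgroup K) → Conc K Δ

namespace Assembly

set_option linter.unusedSectionVars false
set_option linter.style.haveILetI false

variable {G : Type u} [Group G] [Finite G]

/-- An element of odd order which inverts `j`: `j` squares to one. -/
theorem mul_self_eq_one_of_inverting {g j : G} (hg : Odd (orderOf g)) (h : g * j * g⁻¹ = j⁻¹) :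
    j * j = 1 := by
  have key : ∀ k : ℕ, g ^ (2 * k) * j * (g ^ (2 * k))⁻¹ = j := by
    intro k
    induction k with
    | zero => simp
    | succ k ih =>
      calc g ^ (2 * (k + 1)) * j * (g ^ (2 * (k + 1)))⁻¹
          = g * (g * (g ^ (2 * k) * j * (g ^ (2 * k))⁻¹) * g⁻¹) * g⁻¹ := by
            rw [show 2 * (k + 1) = 2 * k + 1 + 1 by ring, pow_succ', pow_succ']; group
        _ = j := by rw [ih, h, ← conj_inv, h, inv_inv]
  obtain ⟨n, hn⟩ := hg
  have h1 : g ^ (2 * n + 1) * j * (g ^ (2 * n + 1))⁻¹ = j⁻¹ := by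
    calc g ^ (2 * n + 1) * j * (g ^ (2 * n + 1))⁻¹
        = g * (g ^ (2 * n) * j * (g ^ (2 * n))⁻¹) * g⁻¹ := by rw [pow_succ']; group
      _ = j⁻¹ := by rw [key, h]
  rw [← hn, pow_orderOf_eq_one, one_mul, inv_one, mul_one] at h1
  nth_rewrite 1 [h1]
  exact inv_mul_cancel j

theorem eq_one_of_odd {j : G} (hj : Odd (orderOf j)) (h : j * j = 1) : j = 1 := by
  have h2 : orderOf j ∣ 2 := orderOf_dvd_of_pow_eq_one (by rw [pow_two]; exact h)
  rcases (Nat.dvd_prime Nat.prime_two).1 h2 with h1 | h1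
  · exact orderOf_eq_one_iff.1 h1
  · rw [h1] at hj; exact absurd hj (by decide)

/-- No two distinct commuting involutions. -/
def NoPairs (G : Type u) [Group G] : Prop :=
  ∀ s t : G, orderOf s = 2 → orderOf t = 2 → Commute s t → s = t

theorem odd_mul_of_noPairs (hG : NoPairs G) {s t : G} (hs : orderOf s = 2) (ht : orderOf t = 2) :
    Odd (orderOf (s * t)) := by
  rcases Nat.even_or_odd (orderOf (s * t)) with h | h
  · obtain ⟨m, hm, hw, hcs, hct, -⟩ := H50.central_involution_spec hs ht h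
    obtain rfl := (hG s _ hs hw hcs).trans (hG t _ ht hw hct).symm
    rw [inv_mul_self hs, orderOf_one] at hm
    omega
  · exact h

variable {H : Subgroup G}

/-- The coset action of a strongly embedded subgroup: transitive, two cosets, fixed points. -/
theorem exists_fix (hH : Cfsg.IsStronglyEmbedded H) {t : G} (ht : orderOf t = 2) :
    ∃ x : G ⧸ H, t • x = x := by
  obtain ⟨s, hs, hs1⟩ := H50.se_exists_fixer hH ((1 : G) : G ⧸ H)
  obtain ⟨g, rfl⟩ := isConj_iff.1 (H50.se_isConj hH hs ht)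
  exact ⟨g • ((1 : G) : G ⧸ H), by rw [mul_smul, mul_smul, inv_smul_smul, hs1]⟩

theorem exists_ne (hH : Cfsg.IsStronglyEmbedded H) (x : G ⧸ H) : ∃ y : G ⧸ H, y ≠ x := by
  obtain ⟨g, hg⟩ := SetLike.exists_of_lt (lt_top_iff_ne_top.2 hH.1)
  obtain ⟨k, rfl⟩ := QuotientGroup.mk_surjective x
  refine ⟨((k * g : G) : G ⧸ H), fun h => hg.2 ?_⟩
  rw [QuotientGroup.eq, mul_inv_rev, inv_mul_cancel_right] at h
  exact inv_mem_iff.1 h

theorem smul_self_mem (g : G) {x : G ⧸ H} (hx : x = ((1 : G) : G ⧸ H)) :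
    g • x = x ↔ g ∈ H := by subst hx; exact H50.smul_one_coset_eq_iff

theorem odd_card_normalCore (hH : Cfsg.IsStronglyEmbedded H) : Odd (Nat.card H.normalCore) := by
  obtain ⟨g, hg⟩ := SetLike.exists_of_lt (lt_top_iff_ne_top.2 hH.1)
  refine (hH.2.2 g hg.2).of_dvd_nat (Subgroup.card_dvd_of_le fun n hn => ⟨?_, ?_⟩)
  · exact Subgroup.normalCore_le H hn
  · exact H28.mem_map_conj_iff.2 (by simpa using hn g⁻¹)

theorem toPerm_eq_one_iff {g : G} :
    MulAction.toPermHom G (G ⧸ H) g = 1 ↔ g ∈ H.normalCore := by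
  rw [Subgroup.normalCore_eq_ker, MonoidHom.mem_ker]

/-- The image of `G` in the permutations of the cosets. -/
abbrev Im (H : Subgroup G) : Subgroup (Equiv.Perm (G ⧸ H)) := (MulAction.toPermHom G (G ⧸ H)).range

theorem map_involution (hH : Cfsg.IsStronglyEmbedded H) {t : G} (ht : orderOf t = 2) :
    orderOf ((MulAction.toPermHom G (G ⧸ H)).rangeRestrict t) = 2 := by
  refine orderOf_eq_prime (by rw [← map_pow, ← ht, pow_orderOf_eq_one, map_one]) fun h => ?_
  have h1 : t ∈ H.normalCore := toPerm_eq_one_iff.1 (congrArg Subtype.val h)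
  have := Subgroup.orderOf_dvd_natCard _ h1
  rw [ht] at this
  exact Nat.not_even_iff_odd.2 (odd_card_normalCore hH) (even_iff_two_dvd.2 this)

theorem exists_lift (hH : Cfsg.IsStronglyEmbedded H) {k : Im H} (hk : orderOf k = 2) :
    ∃ t : G, orderOf t = 2 ∧ (MulAction.toPermHom G (G ⧸ H)).rangeRestrict t = k := by
  obtain ⟨m, hm⟩ := (MulAction.toPermHom G (G ⧸ H)).rangeRestrict_surjective k
  obtain ⟨a, b, hb, hab⟩ := Nat.exists_eq_two_pow_mul_odd (orderOf_pos m).ne'
  have hkk : k * k = 1 := inv_mul_self hk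
  have hk1 : k ≠ 1 := fun h => by simp [h] at hk
  obtain ⟨c, hc⟩ := hb
  have him : (MulAction.toPermHom G (G ⧸ H)).rangeRestrict (m ^ b) = k := by
    rw [map_pow, hm, hc, pow_succ, pow_mul, pow_two, hkk, one_pow, one_mul]
  refine ⟨m ^ b, ?_, him⟩
  have hsq : (m ^ b) ^ 2 ∈ H.normalCore := by
    refine toPerm_eq_one_iff.1 ?_
    have : (MulAction.toPermHom G (G ⧸ H)).rangeRestrict ((m ^ b) ^ 2) = 1 := by
      rw [map_pow, him, pow_two, hkk]
    exact congrArg Subtype.val this
  have h1 : orderOf ((m ^ b) ^ 2) ∣ 2 ^ a :=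
    orderOf_dvd_of_pow_eq_one (by
      rw [← pow_mul, mul_comm 2, pow_mul, ← pow_mul m, mul_comm b, ← hab, pow_orderOf_eq_one,
        one_pow])
  have h2 : (m ^ b) ^ 2 = 1 := by
    refine orderOf_eq_one_iff.1 (Nat.eq_one_of_dvd_coprimes ?_ h1
      (Subgroup.orderOf_dvd_natCard _ hsq))
    exact Nat.Coprime.pow_left a (Nat.coprime_two_left.2 (odd_card_normalCore hH))
  refine orderOf_eq_prime h2 fun h => hk1 ?_
  rw [← him, h, map_one]

theorem setting_image (hH : Cfsg.IsStronglyEmbedded H) : Setting (Im H) (G ⧸ H) where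
  exists_smul x y := by
    obtain ⟨g, hg⟩ := MulAction.exists_smul_eq G x y
    exact ⟨(MulAction.toPermHom G (G ⧸ H)).rangeRestrict g, hg⟩
  faithful k hk := Subtype.ext (Equiv.ext hk)
  exists_ne := exists_ne hH
  exists_fix k hk := by
    obtain ⟨t, ht, rfl⟩ := exists_lift hH hk
    obtain ⟨x, hx⟩ := exists_fix hH ht
    exact ⟨x, hx⟩
  fix_unique k hk x y hx hy := by
    obtain ⟨t, ht, rfl⟩ := exists_lift hH hk
    exact H50.se_fix_unique hH ht hx hy

theorem rich_image (hH : Cfsg.IsStronglyEmbedded H) (hP : ¬ NoPairs G) :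
    Rich (G ⧸ H) (⊤ : Subgroup (Im H)) := by
  unfold NoPairs at hP
  push Not at hP
  obtain ⟨s, t, hs, ht, hc, hne⟩ := hP
  set φ := (MulAction.toPermHom G (G ⧸ H)).rangeRestrict with hφ
  refine ⟨⟨φ s, Subgroup.mem_top _, φ t, Subgroup.mem_top _, map_involution hH hs,
    map_involution hH ht, fun h => ?_, hc.map φ⟩, ?_⟩
  · have hst : orderOf (s * t) = 2 := by
      refine orderOf_eq_two ?_ fun h1 => hne ?_
      · rw [← mul_assoc, mul_assoc s t s, ← hc.eq, ← mul_assoc, inv_mul_self hs, one_mul,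
          inv_mul_self ht]
      · rw [eq_inv_of_mul_eq_one_left h1, inv_eq_self ht]
    have := map_involution hH hst
    rw [← hφ, map_mul, h, ← map_mul, inv_mul_self ht, map_one, orderOf_one] at this
    norm_num at this
  · have hall : ∀ x : G ⧸ H, x ∈ apexSet (⊤ : Subgroup (Im H)) := fun x => by
      obtain ⟨r, hr, hrx⟩ := H50.se_exists_fixer hH x
      exact ⟨φ r, Subgroup.mem_top _, map_involution hH hr, hrx⟩
    obtain ⟨y, hy⟩ := exists_ne hH ((1 : G) : G ⧸ H)
    exact ⟨y, hall y, _, hall _, hy⟩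

theorem dichotomy (hAll : AllConc.{u}) (hH : Cfsg.IsStronglyEmbedded H) :
    (∀ g₁ g₂ : G, g₁ ∉ H → g₂ ∉ H → ∃ h ∈ H, g₂⁻¹ * (h * g₁) ∈ H) ∨
      ((∀ S : Sylow 2 G, IsCyclic S ∨ ∃ m : ℕ, 1 ≤ m ∧
          Nonempty ((S : Subgroup G) ≃* QuaternionGroup (2 ^ m))) ∧ Cfsg.oddCore G ⊔ H = ⊤) := by
  by_cases hP : NoPairs G
  · right
    constructor
    · intro S
      haveI := Fact.mk Nat.prime_two
      by_cases hS : (S : Subgroup G) = ⊥
      · left
        rw [hS]
        infer_instance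
      obtain ⟨z, hz, hz2⟩ := H28.exists_involution_of_isPGroup S.isPGroup' hS
      have huniq : ∀ x ∈ (S : Subgroup G), orderOf x = 2 → x = z := by
        -- a central involution of `S` equals every involution of `S`
        have : Nontrivial (S : Subgroup G) := (Subgroup.nontrivial_iff_ne_bot _).2 hS
        have hcen : Subgroup.center (S : Subgroup G) ≠ ⊥ := by
          have := S.isPGroup'.center_nontrivial
          exact (Subgroup.nontrivial_iff_ne_bot _).1 this
        obtain ⟨w, hwc, hw2⟩ := H28.exists_involution_of_isPGroup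
          (S.isPGroup'.to_subgroup (Subgroup.center (S : Subgroup G))) hcen
        have hw2' : orderOf (w : G) = 2 := by rw [Subgroup.orderOf_coe, hw2]
        have key : ∀ x ∈ (S : Subgroup G), orderOf x = 2 → x = (w : G) := fun x hx hx2 =>
          hP x w hx2 hw2' (congrArg Subtype.val (Subgroup.mem_center_iff.1 hwc ⟨x, hx⟩))
        exact fun x hx hx2 => (key x hx hx2).trans (key z hz hz2).symm
      rcases H28.cyclic_or_quat_of_unique S.isPGroup' huniq with h | ⟨n, hn⟩
      · exact Or.inl h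
      · exact Or.inr ⟨n + 1, by omega, hn⟩
    · haveI := Fact.mk Nat.prime_two
      obtain ⟨z, hzH, hz⟩ := H28.exists_involution_mem hH.2.1
      obtain ⟨P, hzP⟩ := (IsPGroup.of_card (n := 1)
        (by rw [Nat.card_zpowers, hz, pow_one]) :
          IsPGroup 2 (Subgroup.zpowers z)).exists_le_sylow
      have hzP' : z ∈ (P : Subgroup G) := hzP (Subgroup.mem_zpowers z)
      have huniq : ∀ x ∈ (P : Subgroup G), orderOf x = 2 → x = z := by
        intro x hx hx2
        have : Nontrivial (P : Subgroup G) :=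
          ⟨⟨z, hzP'⟩, 1, fun h => by
            have hz1 : z = 1 := congrArg Subtype.val h
            simp [hz1] at hz⟩
        have hcen : Subgroup.center (P : Subgroup G) ≠ ⊥ :=
          (Subgroup.nontrivial_iff_ne_bot _).1 P.isPGroup'.center_nontrivial
        obtain ⟨w, hwc, hw2⟩ := H28.exists_involution_of_isPGroup
          (P.isPGroup'.to_subgroup (Subgroup.center (P : Subgroup G))) hcen
        have hw2' : orderOf (w : G) = 2 := by rw [Subgroup.orderOf_coe, hw2]
        have key : ∀ y ∈ (P : Subgroup G), orderOf y = 2 → y = (w : G) := fun y hy hy2 =>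
          hP y w hy2 hw2' (congrArg Subtype.val (Subgroup.mem_center_iff.1 hwc ⟨y, hy⟩))
        exact (key x hx hx2).trans (key z hzP' hz).symm
      have hO : (Cfsg.oddCore G).Normal := H19.pPrimeCore_normal 2 G
      rw [eq_top_iff]
      intro g _
      have hcore := H28.central_mod_core_of_unique_involution P hz hzP' huniq g
      obtain ⟨i, hi⟩ := H50.exists_conj_of_odd hz (by rw [orderOf_conj, hz] : orderOf (g * z * g⁻¹) = 2)
        (odd_mul_of_noPairs hP hz (by rw [orderOf_conj, hz]))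
      have hzg : z * (g * z * g⁻¹) ∈ Cfsg.oddCore G := by
        have : z * (g * z * g⁻¹) = z * g * z⁻¹ * g⁻¹ := by rw [inv_eq_self hz]; group
        rw [this]
        exact hcore
      set o := (z * (g * z * g⁻¹)) ^ i with ho
      have hoO : o ∈ Cfsg.oddCore G := pow_mem hzg i
      have hcm : o⁻¹ * g ∈ Subgroup.centralizer ({z} : Set G) := by
        rw [Subgroup.mem_centralizer_singleton_iff]
        calc o⁻¹ * g * z = o⁻¹ * (g * z * g⁻¹) * g := by group
          _ = o⁻¹ * (o * z * o⁻¹) * g := by rw [ho, hi]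
          _ = z * (o⁻¹ * g) := by group
      have hgH : o⁻¹ * g ∈ H :=
        ((H28.isStronglyEmbedded_iff_centralizer_fusion hH.1 hH.2.1).1 hH).1 z hzH hz hcm
      rw [show g = o * (o⁻¹ * g) by group]
      exact mul_mem (Subgroup.mem_sup_left hoO) (Subgroup.mem_sup_right hgH)
  · left
    intro g₁ g₂ h₁ h₂
    obtain ⟨-, h2⟩ := hAll (Im H) (G ⧸ H) (setting_image hH) (rich_image hH hP)
    have hne : ∀ g : G, g ∉ H → ((1 : G) : G ⧸ H) ≠ (g : G ⧸ H) := fun g hg h =>
      hg (by simpa using QuotientGroup.eq.1 h)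
    obtain ⟨k, -, hk1, hk2⟩ := h2 _ (Set.mem_univ _) _ (Set.mem_univ _) _ (Set.mem_univ _) _
      (Set.mem_univ _) (hne g₁ h₁) (hne g₂ h₂)
    obtain ⟨g, rfl⟩ := (MulAction.toPermHom G (G ⧸ H)).rangeRestrict_surjective k
    refine ⟨g, H50.smul_one_coset_eq_iff.1 hk1, ?_⟩
    have hk2' : ((g * g₁ : G) : G ⧸ H) = (g₂ : G ⧸ H) := hk2
    exact QuotientGroup.eq.1 hk2'.symm

theorem setting_coset (hH : Cfsg.IsStronglyEmbedded H) (hcore : H.normalCore = ⊥) :
    Setting G (G ⧸ H) where
  exists_smul := MulAction.exists_smul_eq G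
  faithful g hg := by
    have : g ∈ H.normalCore := toPerm_eq_one_iff.1 (Equiv.ext hg)
    rwa [hcore, Subgroup.mem_bot] at this
  exists_ne := exists_ne hH
  exists_fix t ht := exists_fix hH ht
  fix_unique t ht x y hx hy := H50.se_fix_unique hH ht hx hy

theorem odd_centralizer (hAll : AllConc.{u}) (hH : Cfsg.IsStronglyEmbedded H)
    (hcore : H.normalCore = ⊥) (u : G) (hu : orderOf u = 2) (huH : u ∉ H) (j : G)
    (hj : j ∈ (H ⊓ H.map (MulAut.conj u).toMonoidHom)) (hj1 : j ≠ 1)
    (hinv : u * j * u⁻¹ = j⁻¹) : Odd (Nat.card (Subgroup.centralizer ({j} : Set G))) := by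
  by_contra hcon
  rw [Nat.not_odd_iff_even] at hcon
  obtain ⟨t, htC, ht⟩ := H28.exists_involution_mem hcon
  have hjt : Commute j t := (Subgroup.mem_centralizer_singleton_iff.1 htC).symm
  have hodd : Odd (orderOf j) :=
    (hH.2.2 u huH).of_dvd_nat (Subgroup.orderOf_dvd_natCard _ hj)
  have hnot : ∀ v : G, Odd (orderOf v) → v * j * v⁻¹ ≠ j⁻¹ := fun v hv h =>
    hj1 (eq_one_of_odd hodd (mul_self_eq_one_of_inverting hv h))
  have hut : ¬ Odd (orderOf (u * t)) := fun h => hnot _ h (by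
    rw [show u * t * j * (u * t)⁻¹ = u * (t * j * t⁻¹) * u⁻¹ by group,
      mul_inv_eq_iff_eq_mul.2 hjt.eq.symm, hinv])
  obtain ⟨d, hd⟩ := exists_fix hH hu
  obtain ⟨e, he⟩ := exists_fix hH ht
  have hed : e = d := by
    by_contra hne
    exact hut (H50.se_odd hH hu ht hd fun h => hne (H50.se_fix_unique hH ht he h))
  have hjd : j • d = d := by
    rw [← hed]
    exact H50.se_centralizer_fix hH ht hjt he
  have hja : j • ((1 : G) : G ⧸ H) = ((1 : G) : G ⧸ H) := H50.smul_one_coset_eq_iff.2 hj.1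
  have hda : ((1 : G) : G ⧸ H) ≠ d := fun h => huH (H50.smul_one_coset_eq_iff.1 (h ▸ hd))
  by_cases hP : NoPairs G
  · exact hut (odd_mul_of_noPairs hP hu ht)
  · have hS := setting_coset hH hcore
    have hR : Rich (G ⧸ H) (⊤ : Subgroup G) := by
      unfold NoPairs at hP
      push Not at hP
      obtain ⟨s, t, hs, ht, hc, hne⟩ := hP
      refine ⟨⟨s, Subgroup.mem_top _, t, Subgroup.mem_top _, hs, ht, hne, hc⟩, ?_⟩
      have hall : ∀ x : G ⧸ H, x ∈ apexSet (⊤ : Subgroup G) := fun x => by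
        obtain ⟨r, hr, hrx⟩ := H50.se_exists_fixer hH x
        exact ⟨r, Subgroup.mem_top _, hr, hrx⟩
      obtain ⟨y, hy⟩ := exists_ne hH ((1 : G) : G ⧸ H)
      exact ⟨y, hall y, _, hall _, hy⟩
    obtain ⟨hJ, -⟩ := hAll G (G ⧸ H) hS hR
    exact hj1 (hJ u d _ ⟨hu, hd⟩ hda j ⟨hjd, hja, hinv⟩)

end Assembly

end Cfsg.Agent.H14.Bender
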