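import Cfsg.Prelude.Def_Amalgam
import Cfsg.Agent.H19.Fitting
import Cfsg.Agent.H20.Sylow
import Cfsg.Agent.H71.TwoSetAction
import Cfsg.Agent.H25.PF14.Solvable
import Mathlib

/-!
An involution `u` acting on a subgroup of odd order: fixed elements in invariant cosets, invariant
Sylow subgroups, inverted elements, and Thompson's lemma on centralising `p'`-elements
(see `PLAN.md` in this folder).
-/

set_option autoImplicit false

open Subgroup

namespace Cfsg.Agent.H14.Bender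

variable {G : Type*} [Group G] [Finite G] {u : G}

omit [Finite G] in
/-- Conjugating twice by an involution does nothing. -/
theorem conj_conj_involution (hu : orderOf u = 2) (y : G) : u * (u * y * u⁻¹) * u⁻¹ = y := by
  have huu : u * u = 1 := by rw [← pow_two, ← hu, pow_orderOf_eq_one]
  have hinv : u⁻¹ = u := inv_eq_of_mul_eq_one_right huu
  rw [hinv]
  simp only [mul_assoc]
  rw [huu, mul_one, ← mul_assoc, huu, one_mul]

omit [Finite G] in
/-- An element of odd order is a power of its square. -/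
theorem exists_sq_eq_of_odd {x : G} (h : Odd (orderOf x)) : ∃ n : ℕ, (x ^ n) * (x ^ n) = x := by
  obtain ⟨k, hk⟩ := h
  refine ⟨k + 1, ?_⟩
  rw [← pow_add, show k + 1 + (k + 1) = orderOf x + 1 by omega, pow_succ, pow_orderOf_eq_one,
    one_mul]

omit [Finite G] in
/-- An element of a subgroup of odd order has odd order. -/
theorem odd_orderOf_of_mem {D : Subgroup G} (hD : Odd (Nat.card D)) {x : G} (hx : x ∈ D) :
    Odd (orderOf x) := by
  rw [← Subgroup.orderOf_mk x hx]
  exact hD.of_dvd_nat (orderOf_dvd_natCard _)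

/-- A fixed element in every coset on which an `s`-group acts, the subgroup having order prime to
`s`. -/
theorem exists_fixed_in_section {s : ℕ} [Fact s.Prime] {Φ A₀ : Subgroup G} (hΦ : IsPGroup s Φ)
    (hn : Φ ≤ normalizer (A₀ : Set G)) (hA : ¬ s ∣ Nat.card A₀) {y : G}
    (hy : ∀ φ ∈ Φ, y⁻¹ * (φ * y * φ⁻¹) ∈ A₀) :
    ∃ c : G, y⁻¹ * c ∈ A₀ ∧ ∀ φ ∈ Φ, φ * c * φ⁻¹ = c := by
  let C := {c : G // y⁻¹ * c ∈ A₀}
  have hmem : ∀ (φ : Φ) (c : C), y⁻¹ * ((φ : G) * c.1 * (φ : G)⁻¹) ∈ A₀ := fun φ c => by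
    have e : y⁻¹ * ((φ : G) * c.1 * (φ : G)⁻¹) =
        (y⁻¹ * ((φ : G) * y * (φ : G)⁻¹)) * ((φ : G) * (y⁻¹ * c.1) * (φ : G)⁻¹) := by group
    rw [e]
    exact mul_mem (hy _ φ.2) ((mem_normalizer_iff.1 (hn φ.2) _).1 c.2)
  letI : MulAction Φ C :=
    { smul := fun φ c => ⟨(φ : G) * c.1 * (φ : G)⁻¹, hmem φ c⟩
      one_smul := fun c => Subtype.ext (show ((1 : Φ) : G) * c.1 * ((1 : Φ) : G)⁻¹ = c.1 by simp)
      mul_smul := fun φ ψ c => Subtype.ext (show ((φ * ψ : Φ) : G) * c.1 * ((φ * ψ : Φ) : G)⁻¹ =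
        (φ : G) * ((ψ : G) * c.1 * (ψ : G)⁻¹) * (φ : G)⁻¹ by simp [mul_assoc]) }
  have hcard : Nat.card C = Nat.card A₀ := Nat.card_congr
    ⟨fun c => ⟨y⁻¹ * c.1, c.2⟩, fun a => ⟨y * a.1, by simp⟩,
      fun c => Subtype.ext (mul_inv_cancel_left y c.1),
      fun a => Subtype.ext (inv_mul_cancel_left y a.1)⟩
  obtain ⟨c, hc⟩ := hΦ.nonempty_fixed_point_of_prime_not_dvd_card C (by rwa [hcard])
  exact ⟨c.1, c.2, fun φ hφ => congrArg Subtype.val (hc ⟨φ, hφ⟩)⟩

/-- An invariant coset of an invariant subgroup of odd order contains an element fixed by the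
involution. -/
theorem exists_fixed_in_coset (hu : orderOf u = 2) {A₀ : Subgroup G} (hA : Odd (Nat.card A₀))
    (hn : u ∈ normalizer (A₀ : Set G)) {y : G} (hy : y⁻¹ * (u * y * u⁻¹) ∈ A₀) :
    ∃ c : G, y⁻¹ * c ∈ A₀ ∧ u * c * u⁻¹ = c := by
  haveI : Fact (Nat.Prime 2) := ⟨Nat.prime_two⟩
  have hU : IsPGroup 2 (zpowers u) := IsPGroup.of_card (n := 1) (by rw [Nat.card_zpowers, hu, pow_one])
  obtain ⟨c, hc, hfix⟩ := exists_fixed_in_section hU (zpowers_le.2 hn) hA.not_two_dvd_nat (y := y)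
    (fun φ hφ => by
      obtain ⟨k, rfl⟩ := mem_zpowers_iff.1 hφ
      rw [← zpow_mod_orderOf, hu]
      rcases Int.emod_two_eq_zero_or_one k with h | h
      · rw [show (k % ((2 : ℕ) : ℤ)) = 0 by simpa using h]; simp
      · rw [show (k % ((2 : ℕ) : ℤ)) = 1 by simpa using h]; simpa using hy)
  exact ⟨c, hc, hfix u (mem_zpowers u)⟩

omit [Finite G] in
/-- The centraliser of an involution as that of the group it generates. -/
theorem centralizer_zpowers_eq (u : G) :
    centralizer ((zpowers u : Subgroup G) : Set G) = centralizer ({u} : Set G) := by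
  rw [zpowers_eq_closure, centralizer_closure]

omit [Finite G] in
/-- Membership in the centraliser, in conjugation form. -/
theorem mem_centralizer_iff_conj {y : G} :
    y ∈ centralizer ({u} : Set G) ↔ u * y * u⁻¹ = y := by
  rw [mem_centralizer_singleton_iff, mul_inv_eq_iff_eq_mul]
  exact eq_comm

omit [Finite G] in
/-- The hypotheses of the coprime action library. -/
theorem coprime_zpowers (hu : orderOf u = 2) {D : Subgroup G} (hD : Odd (Nat.card D)) :
    (Nat.card (zpowers u)).Coprime (Nat.card D) := by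
  rw [Nat.card_zpowers, hu]
  exact hD.coprime_two_left

/-- The fixed points in an invariant Sylow subgroup form a Sylow subgroup of the fixed points. -/
theorem card_inf_centralizer_invariant_sylow (hu : orderOf u = 2) {D : Subgroup G}
    (hD : Odd (Nat.card D)) (hn : u ∈ normalizer (D : Set G)) {p : ℕ} [Fact p.Prime]
    {S : Subgroup G} (hSD : S ≤ D) (hSu : u ∈ normalizer (S : Set G))
    (hS : Nat.card S = p ^ (Nat.card D).factorization p) :
    Nat.card ↥(S ⊓ centralizer ({u} : Set G)) =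
      p ^ (Nat.card ↥(D ⊓ centralizer ({u} : Set G))).factorization p := by
  rw [← centralizer_zpowers_eq]
  exact H71.card_inf_centralizer_of_invariant_sylow (zpowers_le.2 hn) (coprime_zpowers hu hD) hSD
    (IsPGroup.of_card hS) hS (zpowers_le.2 hSu)

/-- An invariant `p`-subgroup lies in an invariant Sylow subgroup. -/
theorem exists_invariant_sylow (hu : orderOf u = 2) {D : Subgroup G} (hD : Odd (Nat.card D))
    (hn : u ∈ normalizer (D : Set G)) (p : ℕ) [Fact p.Prime] {R : Subgroup G} (hRD : R ≤ D)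
    (hR : IsPGroup p R) (hRu : u ∈ normalizer (R : Set G)) :
    ∃ S : Subgroup G, R ≤ S ∧ S ≤ D ∧ u ∈ normalizer (S : Set G) ∧ IsPGroup p S ∧
      Nat.card S = p ^ (Nat.card D).factorization p ∧
      Nat.card ↥(S ⊓ centralizer ({u} : Set G)) =
        p ^ (Nat.card ↥(D ⊓ centralizer ({u} : Set G))).factorization p := by
  obtain ⟨P, hRP, hP⟩ := H20.exists_invariant_sylow_ge (zpowers_le.2 hn) (coprime_zpowers hu hD)
    (Or.inl (H20.isSolvable_of_isMulCommutative (zpowers u))) p hRD hR (zpowers_le.2 hRu)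
  exact ⟨_, hRP, map_subtype_le _, zpowers_le.1 hP, H20.isPGroup_map_sylow P,
    H20.card_map_sylow P, card_inf_centralizer_invariant_sylow hu hD hn (map_subtype_le _)
      (zpowers_le.1 hP) (H20.card_map_sylow P)⟩

/-- Every element is a fixed element times an inverted one. -/
theorem exists_fixed_mul_inverted (hu : orderOf u = 2) {D : Subgroup G} (hD : Odd (Nat.card D))
    (hn : u ∈ normalizer (D : Set G)) {y : G} (hy : y ∈ D) :
    ∃ f ∈ D, ∃ i ∈ D, u * f * u⁻¹ = f ∧ u * i * u⁻¹ = i⁻¹ ∧ y = f * i := by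
  set e := (u * y * u⁻¹)⁻¹ * y with he
  have heD : e ∈ D := mul_mem (inv_mem ((mem_normalizer_iff.1 hn y).1 hy)) hy
  have heu : u * e * u⁻¹ = e⁻¹ := by
    rw [he, ← conj_mul, ← conj_inv, conj_conj_involution hu]
    group
  obtain ⟨n, hn2⟩ := exists_sq_eq_of_odd (odd_orderOf_of_mem hD heD)
  have hku : u * e ^ n * u⁻¹ = (e ^ n)⁻¹ := by rw [← conj_pow, heu, inv_pow]
  refine ⟨y * (e ^ n)⁻¹, mul_mem hy (inv_mem (pow_mem heD n)), e ^ n, pow_mem heD n, ?_, hku,
    by group⟩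
  have h1 : u * y * u⁻¹ = y * e⁻¹ := by rw [he]; group
  rw [← conj_mul, ← conj_inv, hku, inv_inv, h1]
  nth_rw 1 [← hn2]
  group

/-- The inverted elements are counted by the index of the fixed elements. -/
theorem ncard_inverted (hu : orderOf u = 2) {D : Subgroup G} (hD : Odd (Nat.card D))
    (hn : u ∈ normalizer (D : Set G)) :
    {j | j ∈ D ∧ u * j * u⁻¹ = j⁻¹}.ncard = (centralizer ({u} : Set G)).relIndex D := by
  rw [← Nat.card_coe_set_eq, relIndex, index]
  refine (Nat.card_congr ?_).symm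
  let g : D → G := fun y => (y : G) * (u * (y : G)⁻¹ * u⁻¹)
  have hg : ∀ a b : D, g a = g b ↔ a⁻¹ * b ∈ (centralizer ({u} : Set G)).subgroupOf D := by
    intro a b
    rw [mem_subgroupOf, mem_centralizer_iff_conj]
    simp only [Subgroup.coe_mul, InvMemClass.coe_inv, g]
    constructor
    · intro h
      calc u * ((a : G)⁻¹ * b) * u⁻¹
          = (a : G)⁻¹ * ((a : G) * (u * (a : G)⁻¹ * u⁻¹)) * (u * (b : G) * u⁻¹) := by group
        _ = (a : G)⁻¹ * ((b : G) * (u * (b : G)⁻¹ * u⁻¹)) * (u * (b : G) * u⁻¹) := by rw [h]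
        _ = (a : G)⁻¹ * b := by group
    · intro h
      calc (a : G) * (u * (a : G)⁻¹ * u⁻¹)
          = (a : G) * (u * ((a : G)⁻¹ * b) * u⁻¹) * (u * (b : G)⁻¹ * u⁻¹) := by group
        _ = (a : G) * ((a : G)⁻¹ * b) * (u * (b : G)⁻¹ * u⁻¹) := by rw [h]
        _ = (b : G) * (u * (b : G)⁻¹ * u⁻¹) := by group
  have hmem : ∀ a : D, g a ∈ {j | j ∈ D ∧ u * j * u⁻¹ = j⁻¹} := by
    intro a
    refine ⟨mul_mem a.2 ((mem_normalizer_iff.1 hn _).1 (inv_mem a.2)), ?_⟩
    simp only [g]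
    rw [← conj_mul, conj_conj_involution hu, mul_inv_rev, ← conj_inv, inv_inv]
  refine Equiv.ofBijective (Quotient.lift (fun a => (⟨g a, hmem a⟩ :
    ({j | j ∈ D ∧ u * j * u⁻¹ = j⁻¹} : Set G))) (fun a b hab => Subtype.ext ((hg a b).2
      (QuotientGroup.leftRel_apply.1 hab)))) ⟨?_, ?_⟩
  · rintro ⟨a⟩ ⟨b⟩ hab
    exact Quotient.sound (QuotientGroup.leftRel_apply.2 ((hg a b).1 (congrArg Subtype.val hab)))
  · rintro ⟨j, hjD, hju⟩
    obtain ⟨n, hn2⟩ := exists_sq_eq_of_odd (odd_orderOf_of_mem hD hjD)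
    refine ⟨Quotient.mk'' ⟨j ^ n, pow_mem hjD n⟩, Subtype.ext ?_⟩
    show j ^ n * (u * (j ^ n)⁻¹ * u⁻¹) = j
    rw [← conj_inv, ← conj_pow, hju, inv_pow, inv_inv, hn2]

/-- The inverted elements of an invariant Sylow subgroup. -/
theorem ncard_inverted_sylow (hu : orderOf u = 2) {D : Subgroup G} (hD : Odd (Nat.card D))
    (hn : u ∈ normalizer (D : Set G)) {p : ℕ} [Fact p.Prime]
    {S : Subgroup G} (hSD : S ≤ D) (hSu : u ∈ normalizer (S : Set G))
    (hS : Nat.card S = p ^ (Nat.card D).factorization p) :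
    {j | j ∈ S ∧ u * j * u⁻¹ = j⁻¹}.ncard =
      p ^ ((centralizer ({u} : Set G)).relIndex D).factorization p := by
  have hp : p.Prime := Fact.out
  set C := centralizer ({u} : Set G)
  rw [ncard_inverted hu (hD.of_dvd_nat (card_dvd_of_le hSD)) hSu]
  have key : ∀ H : Subgroup G, Nat.card ↥(H ⊓ C) * C.relIndex H = Nat.card H := fun H => by
    rw [inf_comm, ← inf_relIndex_right, ← relIndex_bot_left, ← relIndex_bot_left]
    exact relIndex_mul_relIndex _ _ _ bot_le inf_le_right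
  have h1 := key S
  rw [card_inf_centralizer_invariant_sylow hu hD hn hSD hSu hS, hS] at h1
  have h2 : (Nat.card D).factorization p =
      (Nat.card ↥(D ⊓ C)).factorization p + (C.relIndex D).factorization p := by
    conv_lhs => rw [← key D]
    rw [Nat.factorization_mul Nat.card_pos.ne' (by
      intro h0
      have := key D
      rw [h0, mul_zero] at this
      exact Nat.card_pos.ne' this.symm)]
    rfl
  rw [h2, pow_add] at h1
  exact Nat.eq_of_mul_eq_mul_left (pow_pos hp.pos _) h1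

/-- The group generated by the inverted elements is normal. -/
theorem le_normalizer_closure_inverted (hu : orderOf u = 2) {D : Subgroup G}
    (hD : Odd (Nat.card D)) (hn : u ∈ normalizer (D : Set G)) :
    D ≤ normalizer
      ((Subgroup.closure {j | j ∈ D ∧ u * j * u⁻¹ = j⁻¹} : Subgroup G) : Set G) := by
  intro y hy
  obtain ⟨f, hf, i, hi, hfu, hiu, rfl⟩ := exists_fixed_mul_inverted hu hD hn hy
  refine mul_mem ?_ (le_normalizer (subset_closure ⟨hi, hiu⟩))
  set K := Subgroup.closure {j | j ∈ D ∧ u * j * u⁻¹ = j⁻¹}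
  have key : ∀ g ∈ D, u * g * u⁻¹ = g → ∀ z ∈ K, g * z * g⁻¹ ∈ K := by
    intro g hg hgu z hz
    induction hz using closure_induction with
    | mem z hz =>
      refine subset_closure ⟨mul_mem (mul_mem hg hz.1) (inv_mem hg), ?_⟩
      rw [← conj_mul, ← conj_mul, ← conj_inv, hgu, hz.2]
      group
    | one => simpa using K.one_mem
    | mul a b _ _ iha ihb => rw [← conj_mul]; exact mul_mem iha ihb
    | inv a _ iha => rw [← conj_inv]; exact inv_mem iha
  refine mem_normalizer_iff.2 fun z => ⟨key f hf hfu z, fun h => ?_⟩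
  have := key f⁻¹ (inv_mem hf) (by rw [← conj_inv, hfu]) _ h
  simpa [mul_assoc] using this

/-- Thompson's lemma: a `p'`-element centralising `A` centralises `P` if `C_P(A) ≤ A`. -/
theorem commute_of_centralizer_le {s : ℕ} [Fact s.Prime] {P A : Subgroup G} (hP : IsPGroup s P)
    (hAP : A ≤ P) {x : G} (hx : ¬ s ∣ orderOf x) (hxP : x ∈ normalizer (P : Set G))
    (hxA : ∀ a ∈ A, x * a = a * x) (hC : P ⊓ centralizer (A : Set G) ≤ A) :
    ∀ y ∈ P, x * y = y * x := by
  set F := P ⊓ centralizer ({x} : Set G) with hF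
  suffices h : P ≤ F from fun y hy => (mem_centralizer_singleton_iff.1 (h hy).2).symm
  by_contra hne
  haveI : Group.IsNilpotent P := hP.isNilpotent
  have hlt : F.subgroupOf P < ⊤ := lt_top_iff_ne_top.2 fun h => hne (subgroupOf_eq_top.1 h)
  obtain ⟨⟨y, hy⟩, hyN, hyF⟩ :=
    SetLike.exists_of_lt (Group.normalizerCondition_of_isNilpotent _ hlt)
  apply hyF
  rw [mem_subgroupOf]
  refine ⟨hy, mem_centralizer_singleton_iff.2 ?_⟩
  set z := y⁻¹ * (x * y * x⁻¹) with hz
  have hzP : z ∈ P := mul_mem (inv_mem hy) ((mem_normalizer_iff.1 hxP y).1 hy)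
  have hzA : z ∈ centralizer (A : Set G) := by
    rw [mem_centralizer_iff]
    intro a ha
    have haF : a ∈ F := ⟨hAP ha, mem_centralizer_singleton_iff.2 (hxA a ha).symm⟩
    have hyaF : y * a * y⁻¹ ∈ F := (mem_normalizer_iff.1 hyN ⟨a, hAP ha⟩).1 haF
    have e1 : x * a * x⁻¹ = a := by rw [hxA a ha, mul_inv_cancel_right]
    have e2 : x * (y * a * y⁻¹) * x⁻¹ = y * a * y⁻¹ := by
      rw [← mem_centralizer_singleton_iff.1 hyaF.2, mul_inv_cancel_right]
    have e3 : z * a * z⁻¹ = a := by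
      calc z * a * z⁻¹ = y⁻¹ * (x * (y * (x⁻¹ * a * x) * y⁻¹) * x⁻¹) * y := by rw [hz]; group
        _ = y⁻¹ * (x * (y * a * y⁻¹) * x⁻¹) * y := by
          rw [show x⁻¹ * a * x = a by rw [mul_assoc, ← hxA a ha, inv_mul_cancel_left]]
        _ = a := by rw [e2]; group
    exact (mul_inv_eq_iff_eq_mul.1 e3).symm
  have hzF : x * z = z * x := hxA z (hC ⟨hzP, hzA⟩)
  have hpow : ∀ n : ℕ, x ^ n * y * (x ^ n)⁻¹ = y * z ^ n := by
    intro n
    induction n with
    | zero => simp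
    | succ n ih =>
      have hcom : x * z ^ n * x⁻¹ = z ^ n := by
        rw [(Commute.pow_right hzF n).eq, mul_inv_cancel_right]
      calc x ^ (n + 1) * y * (x ^ (n + 1))⁻¹ = x * (x ^ n * y * (x ^ n)⁻¹) * x⁻¹ := by
            rw [pow_succ', mul_inv_rev]; simp [mul_assoc]
        _ = (x * y * x⁻¹) * (x * z ^ n * x⁻¹) := by rw [ih]; group
        _ = y * z ^ (n + 1) := by
          rw [hcom, show x * y * x⁻¹ = y * z by rw [hz]; group, pow_succ', mul_assoc]
  have hz1 : z ^ orderOf x = 1 := by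
    have := hpow (orderOf x)
    rw [pow_orderOf_eq_one, one_mul, inv_one, mul_one] at this
    exact mul_left_cancel (a := y) (by rw [mul_one]; exact this.symm)
  obtain ⟨k, hk⟩ := hP ⟨z, hzP⟩
  have hz2 : z ^ s ^ k = 1 := by simpa [Subtype.ext_iff] using hk
  have hz0 : z = 1 := orderOf_eq_one_iff.1 (Nat.eq_one_of_dvd_coprimes
    (((Nat.Prime.coprime_iff_not_dvd Fact.out).2 hx).pow_left k)
    (orderOf_dvd_of_pow_eq_one hz2) (orderOf_dvd_of_pow_eq_one hz1))
  rw [hz, inv_mul_eq_one] at hz0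
  exact (mul_inv_eq_iff_eq_mul.1 hz0.symm).symm

/-- An element of odd order inverted by an involution centralises a section inverted by it. -/
theorem inverted_centralizes_section {A₁ A₀ : Subgroup G} {k : G} (hk : u * k * u⁻¹ = k⁻¹)
    (hko : Odd (orderOf k)) (hk₁ : k ∈ normalizer (A₁ : Set G))
    (hk₀ : k ∈ normalizer (A₀ : Set G)) (hsec : ∀ a ∈ A₁, u * a * u⁻¹ * a ∈ A₀) :
    ∀ a ∈ A₁, a⁻¹ * (k * a * k⁻¹) ∈ A₀ := by
  have hsq : ∀ a ∈ A₁, a⁻¹ * ((k * k) * a * (k * k)⁻¹) ∈ A₀ := by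
    intro a ha
    have h1 := hsec _ ((mem_normalizer_iff.1 hk₁ a).1 ha)
    rw [← conj_mul, ← conj_mul, ← conj_inv, hk, inv_inv] at h1
    have h2 := (mem_normalizer_iff''.1 hk₀ _).1 (hsec a ha)
    have h3 := mul_mem (inv_mem h2) h1
    have h4 := (mem_normalizer_iff.1 hk₀ _).1 h3
    have e : k * ((k⁻¹ * (u * a * u⁻¹ * a) * k)⁻¹ *
        (k⁻¹ * (u * a * u⁻¹) * k * (k * a * k⁻¹))) * k⁻¹ =
        a⁻¹ * ((k * k) * a * (k * k)⁻¹) := by group
    rwa [e] at h4
  obtain ⟨n, hn⟩ := exists_sq_eq_of_odd hko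
  have hpow : ∀ m : ℕ, ∀ a ∈ A₁, a⁻¹ * ((k * k) ^ m * a * ((k * k) ^ m)⁻¹) ∈ A₀ := by
    intro m
    induction m with
    | zero => intro a _; simp
    | succ m ih =>
      intro a ha
      have hm0 : (k * k) ^ m ∈ normalizer (A₀ : Set G) := pow_mem (mul_mem hk₀ hk₀) m
      have e : a⁻¹ * ((k * k) ^ (m + 1) * a * ((k * k) ^ (m + 1))⁻¹) =
          (a⁻¹ * ((k * k) ^ m * a * ((k * k) ^ m)⁻¹)) *
          ((k * k) ^ m * (a⁻¹ * ((k * k) * a * (k * k)⁻¹)) * ((k * k) ^ m)⁻¹) := by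
        rw [pow_succ]; group
      rw [e]
      exact mul_mem (ih a ha) ((mem_normalizer_iff.1 hm0 _).1 (hsq a ha))
  intro a ha
  have := hpow n a ha
  rwa [(Commute.refl k).mul_pow, hn] at this

/-- An involution fixing every `O_s(D)` fixes `D`, `D` of odd order. -/
theorem fixes_of_fixes_pCoreOf (hu : orderOf u = 2) {D : Subgroup G} (hD : Odd (Nat.card D))
    (hn : u ∈ normalizer (D : Set G))
    (h : ∀ s : ℕ, s.Prime → ∀ y ∈ Cfsg.pCoreOf s D, u * y * u⁻¹ = y) :
    ∀ y ∈ D, u * y * u⁻¹ = y := by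
  haveI : Group.IsSolvable D := H25.PF14.odd_solvable _ hD
  intro y hy
  obtain ⟨f, -, i, hi, hfu, hiu, rfl⟩ := exists_fixed_mul_inverted hu hD hn hy
  suffices hi1 : i = 1 by rw [hi1, mul_one, hfu]
  have hfix : ∀ z ∈ (Cfsg.fittingSubgroup D).map D.subtype, u * z * u⁻¹ = z := by
    have hle : (Cfsg.fittingSubgroup D).map D.subtype ≤ centralizer ({u} : Set G) := by
      rw [H19.fitting_eq_iSup_pCore, Subgroup.map_iSup]
      exact iSup_le fun s z hz => mem_centralizer_iff_conj.2 (h s s.2 z hz)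
    exact fun z hz => mem_centralizer_iff_conj.1 (hle hz)
  have hiF : (⟨i, hi⟩ : D) ∈ Cfsg.fittingSubgroup D := by
    refine H19.centralizer_fitting_le ?_
    rw [mem_centralizer_iff]
    intro z hz
    have hz1 : u * (z : G) * u⁻¹ = z := hfix _ (mem_map_of_mem _ hz)
    have hz2 : u * (i * (z : G) * i⁻¹) * u⁻¹ = i * (z : G) * i⁻¹ :=
      hfix _ ⟨⟨i, hi⟩ * z * ⟨i, hi⟩⁻¹, (H19.fitting_normal D).conj_mem z hz ⟨i, hi⟩, rfl⟩
    rw [← conj_mul, ← conj_mul, ← conj_inv, hiu, hz1, inv_inv] at hz2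
    have hcom : Commute (i * i) (z : G) := by
      show i * i * z = z * (i * i)
      calc i * i * (z : G) = i * (i * z * i⁻¹) * i := by group
        _ = i * (i⁻¹ * z * i) * i := by rw [hz2]
        _ = z * (i * i) := by group
    obtain ⟨n, hn2⟩ := exists_sq_eq_of_odd (odd_orderOf_of_mem hD hi)
    have := hcom.pow_left n
    rw [(Commute.refl i).mul_pow, hn2] at this
    exact Subtype.ext this.eq.symm
  have hii : i = i⁻¹ := by
    rw [← hiu]
    exact (hfix i ⟨_, hiF, rfl⟩).symm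
  have h2 : orderOf i ∣ 2 := orderOf_dvd_of_pow_eq_one (by rw [pow_two]; nth_rw 2 [hii]; simp)
  rw [← orderOf_eq_one_iff]
  exact Nat.eq_one_of_dvd_coprimes (odd_orderOf_of_mem hD hi).coprime_two_left h2 dvd_rfl

end Cfsg.Agent.H14.Bender
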