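import Cfsg.Prelude.Def_Involutions
import Cfsg.Prelude.Def_Solvable
import Cfsg.Prelude.Def_Transfer
import Mathlib

/-!
Definitions for the proof of S1220 (see `PLAN.md` in this folder): groups acting transitively with
every involution fixing exactly one point.
-/

set_option autoImplicit false

namespace Cfsg.Agent.H14.Bender

universe u

variable {G : Type u} [Group G] {Ω : Type u} [MulAction G Ω]

/-- `t` is an involution fixing `c` (its apex). -/
def InvAt (t : G) (c : Ω) : Prop := orderOf t = 2 ∧ t • c = c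

/-- A transitive faithful action on at least two points in which every involution fixes exactly
one point. -/
structure Setting (G Ω : Type u) [Group G] [MulAction G Ω] : Prop where
  exists_smul : ∀ x y : Ω, ∃ g : G, g • x = y
  faithful : ∀ g : G, (∀ x : Ω, g • x = x) → g = 1
  exists_ne : ∀ x : Ω, ∃ y : Ω, y ≠ x
  exists_fix : ∀ t : G, orderOf t = 2 → ∃ x : Ω, t • x = x
  fix_unique : ∀ t : G, orderOf t = 2 → ∀ x y : Ω, t • x = x → t • y = y → x = y

/-- The apexes of the involutions of `M`. -/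
def apexSet (M : Subgroup G) : Set Ω := {x | ∃ t ∈ M, InvAt t x}

/-- `M` contains a pair of distinct commuting involutions and involutions with two apexes. -/
def Rich (Ω : Type u) [MulAction G Ω] (M : Subgroup G) : Prop :=
  (∃ s ∈ M, ∃ t ∈ M, orderOf s = 2 ∧ orderOf t = 2 ∧ s ≠ t ∧ Commute s t) ∧
    (apexSet M : Set Ω).Nontrivial

/-- The two-point stabiliser. -/
def pairStab (x y : Ω) : Subgroup G := MulAction.stabilizer G x ⊓ MulAction.stabilizer G y

/-- The pointwise stabiliser of a set of points. -/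
def fixTo (Λ : Set Ω) : Subgroup G where
  carrier := {g | ∀ x ∈ Λ, g • x = x}
  one_mem' := fun x _ => one_smul G x
  mul_mem' := fun {g h} hg hh x hx => by rw [mul_smul, hh x hx, hg x hx]
  inv_mem' := fun {g} hg x hx => by rw [inv_smul_eq_iff, hg x hx]

/-- The setwise stabiliser of a set of points. -/
def setStab (Λ : Set Ω) : Subgroup G where
  carrier := {g | ∀ x, g • x ∈ Λ ↔ x ∈ Λ}
  one_mem' := fun x => by rw [one_smul]
  mul_mem' := fun {g h} hg hh x => by rw [mul_smul, hg, hh]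
  inv_mem' := fun {g} hg x => by rw [← hg (g⁻¹ • x), smul_inv_smul]

/-- The points of `Λ` fixed by every element of `Q`. -/
def fixedOn (Q : Subgroup G) (Λ : Set Ω) : Set Ω := {x ∈ Λ | ∀ q ∈ Q, q • x = x}

/-- The elements fixing `c` and `z` which are inverted by `u`. -/
def J (u : G) (c z : Ω) : Set G := {j | j • c = c ∧ j • z = z ∧ u * j * u⁻¹ = j⁻¹}

/-- `(c, z)` carries as many inverted elements as any pair. -/
def IsMaxJ (u : G) (c z : Ω) : Prop :=
  InvAt u c ∧ z ≠ c ∧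
    ∀ (u' : G) (c' z' : Ω), InvAt u' c' → z' ≠ c' → (J u' c' z').ncard ≤ (J u c z).ncard

/-- No nontrivial element fixing `c`, `z` is inverted by an involution with apex `c`. -/
def NoJ (G Ω : Type u) [Group G] [MulAction G Ω] : Prop :=
  ∀ (u : G) (c z : Ω), InvAt u c → z ≠ c → ∀ j ∈ J u c z, j = 1

/-- `M` moves every ordered pair of distinct points of `Λ` to every other. -/
def TwoTrans (M : Subgroup G) (Λ : Set Ω) : Prop :=
  ∀ x ∈ Λ, ∀ y ∈ Λ, ∀ x' ∈ Λ, ∀ y' ∈ Λ, x ≠ y → x' ≠ y' → ∃ g ∈ M, g • x = x' ∧ g • y = y'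

/-- The conclusion for a rich setting. -/
def Conc (G Ω : Type u) [Group G] [MulAction G Ω] : Prop :=
  NoJ G Ω ∧ TwoTrans (⊤ : Subgroup G) (Set.univ : Set Ω)

/-- The induction hypothesis on the group order. -/
def IH (n : ℕ) : Prop :=
  ∀ (K Δ : Type u) [Group K] [MulAction K Δ] [Finite K] [Finite Δ],
    Nat.card K < n → Setting K Δ → Rich Δ (⊤ : Subgroup K) → Conc K Δ

/-- A proper rich subgroup which is the full setwise stabiliser of its set of apexes. -/
structure Config (M : Subgroup G) (Λ : Set Ω) : Prop where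
  rich : Rich Ω M
  apex : apexSet M = Λ
  stab : setStab Λ = M
  proper : M ≠ ⊤

/-- A configuration containing a largest nontrivial set `J`. -/
def IsJConfig (M : Subgroup G) (Λ : Set Ω) : Prop :=
  Config M Λ ∧ ∃ (u : G) (c z : Ω), u ∈ M ∧ z ∈ Λ ∧ IsMaxJ u c z ∧ 1 < (J u c z).ncard ∧
    J u c z ⊆ (M : Set G)

/-- A configuration with an involution inverting a nontrivial `r`-element fixing all its apexes. -/
def IsWeakConfig (r : ℕ) (M : Subgroup G) (Λ : Set Ω) : Prop :=
  Config M Λ ∧ ∃ j ∈ fixTo (G := G) Λ, ∃ t ∈ M, orderOf t = 2 ∧ j ≠ 1 ∧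
    t * j * t⁻¹ = j⁻¹ ∧ ∃ k : ℕ, j ^ r ^ k = 1

/-- Every involution exchanging `c` and `z` centralises `O_{r'}(G_{cz})`. -/
def SwapCentral (r : ℕ) (c z : Ω) : Prop :=
  ∀ w : G, orderOf w = 2 → w • c = z →
    ∀ g ∈ (Cfsg.pPrimeCore r ↥(pairStab (G := G) c z)).map (pairStab (G := G) c z).subtype,
      Commute w g

/-- A proper rich subgroup containing all involutions at `c`, and a second apex `z` with a largest
nontrivial `J`. -/
def Full (G Ω : Type u) [Group G] [MulAction G Ω] : Prop :=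
  ∃ (M : Subgroup G) (u : G) (c z : Ω), Rich Ω M ∧ M ≠ ⊤ ∧ z ∈ apexSet M ∧ IsMaxJ u c z ∧
    1 < (J u c z).ncard ∧ ∀ t : G, InvAt t c → t ∈ M

/-- The elements of `N` whose action on `Λ` commutes with that of every element of `Q`. -/
def centOn (N : Subgroup G) (Λ : Set Ω) (Q : Subgroup G) : Subgroup G where
  carrier := {g | g ∈ N ⊓ setStab Λ ∧ ∀ q ∈ Q, ∀ y ∈ Λ, g • q • y = q • g • y}
  one_mem' := ⟨one_mem _, fun q _ y _ => by simp⟩
  mul_mem' := fun {g h} hg hh => ⟨mul_mem hg.1 hh.1, fun q hq y hy => by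
    rw [mul_smul, hh.2 q hq y hy, hg.2 q hq (h • y) ((hh.1.2 y).2 hy), mul_smul]⟩
  inv_mem' := fun {g} hg => ⟨inv_mem hg.1, fun q hq y hy => by
    have h1 : g⁻¹ • y ∈ Λ := ((inv_mem hg.1 : g⁻¹ ∈ N ⊓ setStab Λ).2 y).2 hy
    rw [inv_smul_eq_iff, hg.2 q hq _ h1, smul_inv_smul]⟩

/-- A configuration in which every involution exchanging two apexes centralises the relevant core. -/
def Part2Output (G Ω : Type u) [Group G] [MulAction G Ω] : Prop :=
  Full G Ω ∨ ∃ r : ℕ, r.Prime ∧ r ≠ 2 ∧ ∃ (M : Subgroup G) (Λ : Set Ω) (u : G) (c z : Ω),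
    IsWeakConfig r M Λ ∧ c ∈ Λ ∧ z ∈ Λ ∧ IsMaxJ u c z ∧ 1 < (J u c z).ncard ∧ SwapCentral (G := G) r c z

@[simp] theorem mem_pairStab {g : G} {x y : Ω} : g ∈ pairStab x y ↔ g • x = x ∧ g • y = y :=
  Iff.rfl

@[simp] theorem mem_fixTo {g : G} {Λ : Set Ω} : g ∈ fixTo Λ ↔ ∀ x ∈ Λ, g • x = x :=
  Iff.rfl

@[simp] theorem mem_setStab {g : G} {Λ : Set Ω} :
    g ∈ setStab Λ ↔ ∀ x, g • x ∈ Λ ↔ x ∈ Λ :=
  Iff.rfl

theorem mem_apexSet {M : Subgroup G} {x : Ω} : x ∈ apexSet M ↔ ∃ t ∈ M, InvAt t x :=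
  Iff.rfl

end Cfsg.Agent.H14.Bender
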