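import Cfsg.Agent.H14.Bender.Defs
import Cfsg.Agent.H28.Dihedral
import Cfsg.Agent.H53.ZJOddSolvable
import Cfsg.Agent.H23.GlaubermanThompson
import Cfsg.Agent.S0205

/-!
Endgame of PLAN sec. 5: a non-trivial `Z ≤ G_{cz}` normalised by involutions at `c` and at `z` and factorising
`G_{cz}` over `O_{r'}(G_{cz})` gives `Full`; the criterion with `Z(J(S))`, `S` a Sylow subgroup of `G_{cz}`.
-/

set_option autoImplicit false
set_option linter.style.haveILetI false
set_option linter.unusedSectionVars false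

namespace Cfsg.Agent.H14.Bender

universe u

open Subgroup

variable {G : Type u} [Group G] {Ω : Type u} [MulAction G Ω] [Finite G] [Finite Ω]

namespace PartE

theorem mul_self_inv {t : G} (ht : orderOf t = 2) : t * t = 1 := H28.mul_self_of_orderOf_two ht

theorem smul_smul_self {t : G} (ht : orderOf t = 2) (x : Ω) : t • t • x = x := by
  rw [← mul_smul, mul_self_inv ht, one_smul]

theorem pairStab_odd (hS : Setting G Ω) {c z : Ω} (hcz : c ≠ z) :
    Odd (Nat.card (pairStab (G := G) c z)) := by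
  rw [← Nat.not_even_iff_odd, even_iff_two_dvd]
  intro h
  obtain ⟨x, hx⟩ := exists_prime_orderOf_dvd_card' 2 h (hp := ⟨Nat.prime_two⟩)
  have h' : orderOf (x : G) = 2 := by rw [Subgroup.orderOf_coe]; exact hx
  exact hcz (hS.fix_unique _ h' c z x.2.1 x.2.2)

theorem invAt_conj {t : G} {x : Ω} (ht : InvAt t x) (g : G) : InvAt (g * t * g⁻¹) (g • x) :=
  ⟨by rw [H28.orderOf_conj_eq]; exact ht.1, by rw [mul_smul, mul_smul, inv_smul_smul, ht.2]⟩

theorem invAt_unique (hS : Setting G Ω) {t : G} {x y : Ω} (hx : InvAt t x) (hy : InvAt t y) : x = y :=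
  hS.fix_unique t hx.1 x y hx.2 hy.2

/-- Involutions with different apexes are exchanged by an involution of the group they generate. -/
theorem exists_middle (hS : Setting G Ω) {s t : G} {x y : Ω} (hs : InvAt s x) (ht : InvAt t y)
    (hxy : x ≠ y) : ∃ i ∈ closure ({s, t} : Set G), orderOf i = 2 ∧ i * s * i⁻¹ = t ∧ i • x = y := by
  have hss := mul_self_inv hs.1
  have htt := mul_self_inv ht.1
  set d := s * t with hd
  have hodd : Odd (orderOf d) := by
    rw [← Nat.not_even_iff_odd, even_iff_two_dvd]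
    intro h
    have hz := orderOf_pow_orderOf_div (orderOf_pos d).ne' h
    set e := d ^ (orderOf d / 2) with he
    have hee := mul_self_inv hz
    have hinv : ∀ a : G, a * d * a = d⁻¹ → a * a = 1 → a * e * a = e := fun a ha haa => by
      have h1 : a * e * a⁻¹ = (a * d * a⁻¹) ^ (orderOf d / 2) := by rw [conj_pow]
      rw [inv_eq_of_mul_eq_one_right haa, ha, inv_pow, ← he] at h1
      rw [h1, inv_eq_of_mul_eq_one_right hee]
    have h1 : s * e * s = e := hinv s (by rw [hd]; exact H28.conj_mul_eq_inv hss htt) hss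
    have h2 : t * e * t = e := hinv t (by rw [hd]; exact H28.conj_mul_eq_inv' hss htt) htt
    obtain ⟨w, hw⟩ := hS.exists_fix e hz
    have key : ∀ (a : G) (q : Ω), InvAt a q → a * e * a = e → q = w := fun a q ha hae => by
      have h3 : e • a • w = a • w := by
        have h4 : e * a = a * e := by
          calc e * a = a * e * a * a := by rw [hae]
            _ = a * e := by rw [mul_assoc, mul_self_inv ha.1, mul_one]
        rw [← mul_smul, h4, mul_smul, hw]
      exact hS.fix_unique a ha.1 q w ha.2 (hS.fix_unique e hz _ _ h3 hw)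
    exact hxy ((key s x hs h1).trans (key t y ht h2).symm)
  obtain ⟨n, hn⟩ := hodd
  set e := d ^ (n + 1) with he
  have hee : e * e = d := by
    rw [he, ← pow_add, show n + 1 + (n + 1) = orderOf d + 1 by omega, pow_succ, pow_orderOf_eq_one, one_mul]
  have hse : s * e * s = e⁻¹ := by
    have h1 : s * d * s⁻¹ = d⁻¹ := by
      rw [inv_eq_of_mul_eq_one_right hss, hd]; exact H28.conj_mul_eq_inv hss htt
    have h2 : s * e * s⁻¹ = (s * d * s⁻¹) ^ (n + 1) := by rw [conj_pow]
    rw [h1, inv_pow, inv_eq_of_mul_eq_one_right hss, ← he] at h2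
    exact h2
  have hii : (s * e) * (s * e) = 1 := by
    rw [← mul_assoc, hse, inv_mul_cancel]
  have hist : (s * e) * s * (s * e)⁻¹ = t := by
    rw [inv_eq_of_mul_eq_one_right hii, hse, ← mul_assoc]
    calc e⁻¹ * s * e = (s * e * s) * s * e := by rw [hse]
      _ = s * (e * e) := by simp only [mul_assoc]; rw [← mul_assoc s s, hss, one_mul]
      _ = t := by rw [hee, hd, ← mul_assoc, hss, one_mul]
  have hne : s * e ≠ 1 := by
    intro h
    rw [h, one_mul, inv_one, mul_one] at hist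
    exact hxy (invAt_unique hS hs (hist ▸ ht))
  refine ⟨s * e, mul_mem (subset_closure (by simp)) (pow_mem (mul_mem (subset_closure (by simp))
    (subset_closure (by simp))) _), H28.orderOf_two_of_mul_self hii hne, hist, ?_⟩
  have := invAt_conj hs (s * e)
  rw [hist] at this
  exact invAt_unique hS this ht

/-- An element of a subgroup whose square lies in a second subgroup lies there, in odd order. -/
theorem mem_of_sq_mem {K : Subgroup G} {g : G} (hodd : Odd (orderOf g)) (h : g * g ∈ K) : g ∈ K := by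
  obtain ⟨n, hn⟩ := hodd
  have : g = (g * g) ^ (n + 1) := by
    rw [← pow_two, ← pow_mul, show 2 * (n + 1) = orderOf g + 1 by omega, pow_succ, pow_orderOf_eq_one, one_mul]
  rw [this]
  exact pow_mem h _

/-- All involutions exchanging `c` and `z` are conjugate under the pair stabiliser. -/
theorem swappers_conj (hS : Setting G Ω) {c z : Ω} (hcz : c ≠ z) {w w' : G} (hw : orderOf w = 2)
    (hwc : w • c = z) (hw' : orderOf w' = 2) (hwc' : w' • c = z) :
    ∃ k ∈ pairStab (G := G) c z, k⁻¹ * w * k = w' := by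
  set j := w * w' with hj
  have hwz : w • z = c := by rw [← hwc, smul_smul_self hw]
  have hwz' : w' • z = c := by rw [← hwc', smul_smul_self hw']
  have hjX : j ∈ pairStab (G := G) c z := by
    rw [mem_pairStab, hj, mul_smul, mul_smul, hwc', hwz', hwz, hwc]
    exact ⟨rfl, rfl⟩
  obtain ⟨n, hn⟩ : Odd (orderOf j) := (pairStab_odd hS hcz).of_dvd_nat
    ((Subgroup.orderOf_mk j hjX) ▸ orderOf_dvd_natCard _)
  refine ⟨j ^ (n + 1), pow_mem hjX _, ?_⟩
  have hww := mul_self_inv hw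
  have h1 : w * j ^ (n + 1) * w⁻¹ = (j ^ (n + 1))⁻¹ := by
    rw [← conj_pow, ← inv_pow]
    congr 1
    rw [inv_eq_of_mul_eq_one_right hww, hj]
    exact H28.conj_mul_eq_inv hww (mul_self_inv hw')
  rw [← h1, inv_eq_of_mul_eq_one_right hww]
  calc w * j ^ (n + 1) * w * w * j ^ (n + 1)
      = w * (j ^ (n + 1) * j ^ (n + 1)) := by simp only [mul_assoc]; rw [← mul_assoc w w, hww, one_mul]
    _ = w * j := by rw [← pow_add, show n + 1 + (n + 1) = orderOf j + 1 by omega, pow_succ,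
        pow_orderOf_eq_one, one_mul]
    _ = w' := by rw [hj, ← mul_assoc, hww, one_mul]

theorem rich_point (hS : Setting G Ω) (hR : Rich Ω (⊤ : Subgroup G)) (c : Ω) :
    ∃ s t : G, InvAt s c ∧ InvAt t c ∧ s ≠ t ∧ Commute s t := by
  obtain ⟨⟨s, -, t, -, hs, ht, hne, hc⟩, -⟩ := hR
  obtain ⟨x, hx⟩ := hS.exists_fix s hs
  have htx : t • x = x := hS.fix_unique s hs _ _ (by rw [← mul_smul, hc.eq, mul_smul, hx]) hx
  obtain ⟨g, rfl⟩ := hS.exists_smul x c
  exact ⟨g * s * g⁻¹, g * t * g⁻¹, invAt_conj ⟨hs, hx⟩ g, invAt_conj ⟨ht, htx⟩ g,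
    fun e => hne (mul_left_cancel (mul_right_cancel e)),
    (Commute.map hc (MulAut.conj g).toMonoidHom)⟩

/-- Endgame: `Z` normalised by involutions at `c` and at `z` with `G_{cz} = O_{r'}·N(Z)`. -/
theorem full_of_normalizer (hS : Setting G Ω) (hR : Rich Ω (⊤ : Subgroup G)) {r : ℕ} {u : G} {c z : Ω}
    (hu : IsMaxJ u c z) (hq : 1 < (J u c z).ncard) (hsw : SwapCentral (G := G) r c z)
    {Z : Subgroup G} (hZne : Z ≠ ⊥) (hZX : Z ≤ pairStab c z)
    (hfact : ∀ x ∈ pairStab (G := G) c z,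
      ∃ n ∈ (Cfsg.pPrimeCore r ↥(pairStab (G := G) c z)).map (pairStab (G := G) c z).subtype,
        ∃ a ∈ pairStab (G := G) c z, a ∈ normalizer (Z : Set G) ∧ x = n * a)
    {s t : G} (hs : InvAt s c) (hsN : s ∈ normalizer (Z : Set G)) (ht : InvAt t z)
    (htN : t ∈ normalizer (Z : Set G)) : Full G Ω := by
  have hcz : c ≠ z := hu.2.1.symm
  obtain ⟨w₀, hw₀mem, hw₀, -, hw₀c⟩ := exists_middle hS hs ht hcz
  have hw₀N : w₀ ∈ normalizer (Z : Set G) := (closure_le _).2 (by
    rintro g (rfl | rfl)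
    exacts [hsN, htN]) hw₀mem
  have hall : ∀ w : G, orderOf w = 2 → w • c = z → w ∈ normalizer (Z : Set G) := by
    intro w hw hwc
    obtain ⟨k, hk, rfl⟩ := swappers_conj hS hcz hw₀ hw₀c hw hwc
    obtain ⟨n, hn, a, -, haN, rfl⟩ := hfact k hk
    have hnw := hsw w₀ hw₀ hw₀c n hn
    rw [show (n * a)⁻¹ * w₀ * (n * a) = a⁻¹ * (n⁻¹ * (w₀ * n)) * a by group, hnw.eq, inv_mul_cancel_left]
    exact mul_mem (mul_mem (inv_mem haN) hw₀N) haN
  have hallc : ∀ t' : G, InvAt t' c → t' ∈ normalizer (Z : Set G) := by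
    intro t' ht'
    obtain ⟨i, -, hi, hit, hic⟩ := exists_middle hS ht' ht hcz
    have hiN := hall i hi hic
    rw [show t' = i⁻¹ * t * i by rw [← hit]; group]
    exact mul_mem (mul_mem (inv_mem hiN) htN) hiN
  refine ⟨normalizer (Z : Set G), u, c, z, ⟨?_, ?_⟩, ?_, ⟨t, htN, ht⟩, hu, hq, hallc⟩
  · obtain ⟨a, b, ha, hb, hne, hab⟩ := rich_point hS hR c
    exact ⟨a, hallc a ha, b, hallc b hb, ha.1, hb.1, hne, hab⟩
  · exact ⟨c, ⟨s, hsN, hs⟩, z, ⟨t, htN, ht⟩, hcz⟩
  · intro htop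
    haveI : Z.Normal := normalizer_eq_top_iff.1 htop
    refine hZne ((eq_bot_iff_forall _).2 fun q hq => hS.faithful q fun x => ?_)
    obtain ⟨g, rfl⟩ := hS.exists_smul c x
    have h1 : g⁻¹ * q * g⁻¹⁻¹ ∈ Z := Normal.conj_mem inferInstance q hq g⁻¹
    have h2 := (hZX h1).1
    rw [inv_inv] at h2
    have h3 : g⁻¹ • q • g • c = c := by rw [← mul_smul, ← mul_smul, mul_assoc]; exact mul_assoc g⁻¹ q g ▸ h2
    exact inv_smul_eq_iff.1 h3

/-- Conjugacy of equal-order complements of a normal subgroup of coprime order. -/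
theorem exists_conj_of_le_sup {H : Type*} [Group H] [Finite H] {r : ℕ} [Fact r.Prime] {Z Z' K : Subgroup H}
    [K.Normal] (hZ : IsPGroup r Z) (hZ' : IsPGroup r Z') (hcard : Nat.card Z' = Nat.card Z)
    (hK : (Nat.card K).Coprime r) (hle : Z' ≤ Z ⊔ K) :
    ∃ n ∈ K, Z.map (MulAut.conj n).toMonoidHom = Z' := by
  obtain ⟨e, he⟩ := hZ.exists_card_eq
  have hrel : Nat.card ↥(Z ⊔ K : Subgroup H) = Nat.card K * Nat.card Z := by
    have h1 : K ⊓ Z = ⊥ := (disjoint_of_coprime_natCard (by rw [he]; exact hK.pow_right e)).eq_bot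
    have h2 : Nat.card (K.subgroupOf Z) * (K.subgroupOf Z).index = Nat.card Z := card_mul_index _
    have h3 : Nat.card (K.subgroupOf (Z ⊔ K)) * (K.subgroupOf (Z ⊔ K)).index = Nat.card ↥(Z ⊔ K : Subgroup H) :=
      card_mul_index _
    have h4 : K.subgroupOf Z = ⊥ := by rw [subgroupOf_eq_bot]; exact disjoint_iff.2 h1
    rw [h4, card_bot, one_mul] at h2
    have h5 : K.relIndex (Z ⊔ K) = Nat.card Z := by
      rw [relIndex_sup_right, relIndex, h4]; exact h2
    rw [← h3, Nat.card_congr (subgroupOfEquivOfLe (show K ≤ Z ⊔ K from le_sup_right)).toEquiv]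
    exact congrArg _ h5
  have hfac : (Nat.card ↥(Z ⊔ K : Subgroup H)).factorization r = e := by
    rw [hrel, Nat.factorization_mul Nat.card_pos.ne' Nat.card_pos.ne', Finsupp.add_apply, he,
      Nat.factorization_eq_zero_of_not_dvd
        ((Nat.Prime.coprime_iff_not_dvd (Fact.out : r.Prime)).1 hK.symm),
      (Fact.out : r.Prime).factorization_pow, Finsupp.single_eq_same, zero_add]
  let S₁ : Sylow r ↥(Z ⊔ K : Subgroup H) := Sylow.ofCard (Z.subgroupOf (Z ⊔ K)) (by
    rw [Nat.card_congr (subgroupOfEquivOfLe (show Z ≤ Z ⊔ K from le_sup_left)).toEquiv, he, hfac])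
  let S₂ : Sylow r ↥(Z ⊔ K : Subgroup H) := Sylow.ofCard (Z'.subgroupOf (Z ⊔ K)) (by
    rw [Nat.card_congr (subgroupOfEquivOfLe hle).toEquiv, hcard, he, hfac])
  obtain ⟨l, hl⟩ := MulAction.exists_smul_eq ↥(Z ⊔ K : Subgroup H) S₁ S₂
  have hl' : (Z.subgroupOf (Z ⊔ K)).map (MulAut.conj l).toMonoidHom = Z'.subgroupOf (Z ⊔ K) :=
    congrArg Sylow.toSubgroup hl
  have hl'' : Z.map (MulAut.conj (l : H)).toMonoidHom = Z' := by
    have := congrArg (Subgroup.map (Z ⊔ K).subtype) hl'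
    rw [map_map, map_subgroupOf_eq_of_le hle] at this
    rw [← this, show (Z ⊔ K).subtype.comp (MulAut.conj l).toMonoidHom =
      (MulAut.conj (l : H)).toMonoidHom.comp (Z ⊔ K).subtype from MonoidHom.ext fun x => rfl,
      ← map_map, map_subgroupOf_eq_of_le le_sup_left]
  have hlmem : (l : H) ∈ ((K ⊔ Z : Subgroup H) : Set H) := (le_of_eq (sup_comm Z K)) l.2
  rw [normal_mul] at hlmem
  obtain ⟨n, hn, a, ha, hna⟩ := hlmem
  refine ⟨n, hn, ?_⟩
  rw [← hl'', ← hna]
  ext g
  constructor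
  · rintro ⟨q, hq, rfl⟩
    exact ⟨a⁻¹ * q * a, mul_mem (mul_mem (inv_mem ha) hq) ha, by simp [mul_assoc]⟩
  · rintro ⟨q, hq, rfl⟩
    exact ⟨a * q * a⁻¹, mul_mem (mul_mem ha hq) (inv_mem ha), by simp [mul_assoc]⟩

/-- In an odd pair stabiliser, conjugates of `Z(J(S))` differ by an element of `O_{r'}`. -/
theorem exists_core_conj (hS : Setting G Ω) {r : ℕ} [Fact r.Prime] {c z : Ω} (hcz : c ≠ z)
    {S : Subgroup G} (hSX : S ≤ pairStab c z) (hSr : IsPGroup r S)
    (hScard : Nat.card S = r ^ (Nat.card (pairStab (G := G) c z)).factorization r)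
    {g : G} (hg : g ∈ normalizer (pairStab (G := G) c z : Set G)) :
    ∃ n ∈ (Cfsg.pPrimeCore r ↥(pairStab (G := G) c z)).map (pairStab (G := G) c z).subtype,
      n⁻¹ * g ∈ normalizer (Cfsg.centerThompsonOf r S : Set G) := by
  set X := pairStab (G := G) c z with hX
  have hodd := pairStab_odd hS hcz
  haveI : Group.IsSolvable ↥X := S0205.result hodd
  let SX : Sylow r ↥X := Sylow.ofCard (S.subgroupOf X) (by
    rw [Nat.card_congr (subgroupOfEquivOfLe hSX).toEquiv, hScard])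
  have hn := H53.centerThompsonOf_sup_pPrimeCore_normal hodd SX
  haveI : (Cfsg.pPrimeCore r ↥X).Normal := H19.pPrimeCore_normal r ↥X
  -- conjugation by `g` as an automorphism of `X`
  let φ : ↥X ≃* ↥X :=
    { toFun := fun x => ⟨g * x * g⁻¹, (mem_normalizer_iff.1 hg x).1 x.2⟩
      invFun := fun x => ⟨g⁻¹ * x * g⁻¹⁻¹, (mem_normalizer_iff.1 (inv_mem hg) x).1 x.2⟩
      left_inv := fun x => Subtype.ext (by simp [mul_assoc])
      right_inv := fun x => Subtype.ext (by simp [mul_assoc])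
      map_mul' := fun x y => Subtype.ext (by simp [mul_assoc]) }
  let SX' : Sylow r ↥X := Sylow.ofCard ((SX : Subgroup ↥X).map φ.toMonoidHom) (by
    rw [← Nat.card_congr ((SX : Subgroup ↥X).equivMapOfInjective φ.toMonoidHom φ.injective).toEquiv,
      SX.card_eq_multiplicity])
  obtain ⟨x, hx⟩ := MulAction.exists_smul_eq ↥X SX SX'
  have hx' : (SX : Subgroup ↥X).map (MulAut.conj x).toMonoidHom = (SX : Subgroup ↥X).map φ.toMonoidHom :=
    congrArg (fun S : Sylow r ↥X => (S : Subgroup ↥X)) hx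
  set Z := Cfsg.centerThompsonOf r (SX : Subgroup ↥X) with hZ
  set K := Cfsg.pPrimeCore r ↥X with hK
  have hZx : Z.map φ.toMonoidHom = Z.map (MulAut.conj x).toMonoidHom := by
    rw [hZ, H23.map_centerThompsonOf _ _ φ.injective.injOn,
      H23.map_centerThompsonOf _ _ (MulAut.conj x).injective.injOn, hx']
  have hle : Z.map φ.toMonoidHom ≤ Z ⊔ K := by
    rw [hZx]
    rintro _ ⟨q, hq, rfl⟩
    exact hn.conj_mem q (mem_sup_left hq) x
  have hZr : IsPGroup r Z := SX.isPGroup'.to_le (H23.centerThompsonOf_le _)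
  obtain ⟨n, hnK, hn'⟩ := exists_conj_of_le_sup (K := K) hZr (hZr.map _)
    (Nat.card_congr (Z.equivMapOfInjective φ.toMonoidHom φ.injective).toEquiv).symm
    (H19.pPrimeCore_coprime (G := ↥X) r) hle
  refine ⟨n, mem_map_of_mem _ hnK, ?_⟩
  have hZS : Z.map X.subtype = Cfsg.centerThompsonOf r S := by
    rw [hZ, H23.map_centerThompsonOf _ _ X.subtype_injective.injOn]
    exact congrArg _ (map_subgroupOf_eq_of_le hSX)
  rw [← hZS]
  have key : ∀ q : G, q ∈ Z.map X.subtype → ((n : G)⁻¹ * g) * q * ((n : G)⁻¹ * g)⁻¹ ∈ Z.map X.subtype := by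
    rintro _ ⟨q, hq, rfl⟩
    obtain ⟨q', hq', hqq⟩ : φ q ∈ Z.map (MulAut.conj n).toMonoidHom := hn' ▸ mem_map_of_mem _ hq
    refine ⟨q', hq', ?_⟩
    have h1 : (n : G) * q' * (n : G)⁻¹ = g * q * g⁻¹ := congrArg Subtype.val hqq
    show (q' : G) = ((n : G)⁻¹ * g) * (q : G) * ((n : G)⁻¹ * g)⁻¹
    rw [show ((n : G)⁻¹ * g) * (q : G) * ((n : G)⁻¹ * g)⁻¹ = (n : G)⁻¹ * (g * q * g⁻¹) * n by group, ← h1]
    group
  refine mem_normalizer_iff.2 fun q => ⟨key q, fun hq => ?_⟩
  have heq : (Z.map X.subtype).map (MulAut.conj ((n : G)⁻¹ * g)).toMonoidHom = Z.map X.subtype := by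
    refine eq_of_le_of_card_ge ?_ ?_
    · rintro _ ⟨q, hq, rfl⟩
      exact key q hq
    · rw [← Nat.card_congr ((Z.map X.subtype).equivMapOfInjective _ (MulAut.conj _).injective).toEquiv]
  rw [← heq] at hq
  obtain ⟨q₀, hq₀, e⟩ := hq
  exact (MulAut.conj ((n : G)⁻¹ * g)).injective e ▸ hq₀

/-- `Full` from one involution at `c` normalising `Z(J(S))`, `S` a Sylow subgroup of `G_{cz}`. -/
theorem full_of_zj (hS : Setting G Ω) (hR : Rich Ω (⊤ : Subgroup G)) {r : ℕ} [Fact r.Prime] {u : G}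
    {c z : Ω} (hu : IsMaxJ u c z) (hq : 1 < (J u c z).ncard) (hsw : SwapCentral (G := G) r c z)
    {S : Subgroup G} (hSX : S ≤ pairStab c z) (hSr : IsPGroup r S)
    (hScard : Nat.card S = r ^ (Nat.card (pairStab (G := G) c z)).factorization r) (hSne : S ≠ ⊥)
    {s : G} (hs : InvAt s c) (hsN : s ∈ normalizer (Cfsg.centerThompsonOf r S : Set G)) : Full G Ω := by
  have hcz : c ≠ z := hu.2.1.symm
  set X := pairStab (G := G) c z with hX
  set Zs := Cfsg.centerThompsonOf r S with hZs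
  obtain ⟨g, hg⟩ := hS.exists_smul c z
  obtain ⟨w, -, hw, -, hwc⟩ := exists_middle hS hs (hg ▸ invAt_conj hs g) hcz
  have hwz : w • z = c := by rw [← hwc, smul_smul_self hw]
  have hwinv : w⁻¹ = w := H28.inv_eq_self_of_orderOf_two hw
  have hwX : w ∈ normalizer (X : Set G) := by
    have key : ∀ x : G, x ∈ X → w * x * w⁻¹ ∈ X := fun x hx => by
      rw [hwinv, mem_pairStab, mul_smul, mul_smul, mul_smul, mul_smul, hwc, hwz, hx.1, hx.2, hwc, hwz]
      exact ⟨rfl, rfl⟩
    refine mem_normalizer_iff.2 fun x => ⟨key x, fun hx => ?_⟩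
    have := key _ hx
    rwa [show w * (w * x * w⁻¹) * w⁻¹ = (w * w) * x * (w * w)⁻¹ by group, mul_self_inv hw, one_mul,
      inv_one, mul_one] at this
  have hwN : w ∈ normalizer (Zs : Set G) := by
    obtain ⟨n, hn, hnN⟩ := exists_core_conj hS hcz hSX hSr hScard hwX
    have hc : Commute w n := hsw w hw hwc n hn
    have hsq : n⁻¹ * n⁻¹ ∈ normalizer (Zs : Set G) := by
      have h2 : n⁻¹ * w * (n⁻¹ * w) = n⁻¹ * n⁻¹ := by
        calc n⁻¹ * w * (n⁻¹ * w) = n⁻¹ * (w * n⁻¹) * w := by group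
          _ = n⁻¹ * (n⁻¹ * w) * w := by rw [hc.inv_right.eq]
          _ = n⁻¹ * n⁻¹ := by rw [mul_assoc, mul_assoc, mul_self_inv hw, mul_one]
      exact h2 ▸ mul_mem hnN hnN
    have hn' : n ∈ X := map_subtype_le _ hn
    have hdvd : orderOf n ∣ Nat.card ↥X := (Subgroup.orderOf_mk n hn') ▸ orderOf_dvd_natCard _
    have hodd' : Odd (orderOf n⁻¹) := by rw [orderOf_inv]; exact (pairStab_odd hS hcz).of_dvd_nat hdvd
    have hni : n⁻¹ ∈ normalizer (Zs : Set G) := mem_of_sq_mem hodd' hsq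
    have := mul_mem (inv_mem hni) hnN
    rwa [inv_inv, mul_inv_cancel_left] at this
  refine full_of_normalizer hS hR hu hq hsw (H23.centerThompsonOf_ne_bot hSr hSne)
    ((H23.centerThompsonOf_le _).trans hSX) (fun x hx => ?_) hs hsN (t := w * s * w⁻¹)
    (hwc ▸ invAt_conj hs w) (mul_mem (mul_mem hwN hsN) (inv_mem hwN))
  obtain ⟨n, hn, hnN⟩ := exists_core_conj hS hcz hSX hSr hScard (le_normalizer hx)
  exact ⟨n, hn, n⁻¹ * x, mul_mem (inv_mem (map_subtype_le _ hn)) hx, hnN, (mul_inv_cancel_left n x).symm⟩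

end PartE

end Cfsg.Agent.H14.Bender
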