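import Cfsg.Agent.H14.Bender.PartEAux
import Cfsg.Agent.H14.Bender.Coprime
import Cfsg.Agent.H23.SylowIn
import Cfsg.Agent.H28.ZStar
import Cfsg.Agent.H28.Dihedral
import Cfsg.Agent.H19.Cores

/-!
PLAN sec. 6: a pair with the largest `p`-part all of whose Sylow subgroups avoid the involutions at
the first point forces 2-transitivity.
-/

set_option autoImplicit false
set_option linter.style.haveILetI false
set_option linter.unusedSectionVars false

namespace Cfsg.Agent.H14.Bender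

universe u

open Subgroup
open scoped Pointwise

variable {G : Type u} [Group G] {Ω : Type u} [MulAction G Ω] [Finite G] [Finite Ω]

namespace KT

/-- the common fixed points -/
def fixPts (Y : Subgroup G) : Set Ω := {x | ∀ q ∈ Y, q • x = x}

/-- the orbit of a subgroup -/
def orb (H : Subgroup G) (x : Ω) : Set Ω := {y | ∃ h ∈ H, h • x = y}

/-- a conjugate subgroup -/
abbrev cj (g : G) (A : Subgroup G) : Subgroup G := A.map (MulAut.conj g).toMonoidHom

theorem mem_cj {g x : G} {A : Subgroup G} : x ∈ cj g A ↔ g⁻¹ * x * g ∈ A := by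
  rw [Subgroup.mem_map_equiv, MulAut.conj_symm_apply]

theorem card_cj (g : G) (A : Subgroup G) : Nat.card (cj g A) = Nat.card A :=
  Subgroup.card_map_of_injective (MulAut.conj g).injective

theorem cj_pairStab (g : G) (x y : Ω) : cj g (pairStab x y) = pairStab (g • x) (g • y) := by
  ext h
  simp only [mem_cj, mem_pairStab, mul_smul, inv_smul_eq_iff]

theorem le_pairStab_iff {Y : Subgroup G} {x y : Ω} :
    Y ≤ pairStab x y ↔ x ∈ fixPts Y ∧ y ∈ fixPts Y :=
  ⟨fun h => ⟨fun q hq => (h hq).1, fun q hq => (h hq).2⟩, fun h q hq => ⟨h.1 q hq, h.2 q hq⟩⟩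

theorem smul_fixPts {Y : Subgroup G} {g : G} (hg : g ∈ normalizer (Y : Set G)) {x : Ω}
    (hx : x ∈ fixPts Y) : g • x ∈ fixPts Y := by
  intro q hq
  have h := hx _ ((mem_normalizer_iff.1 (inv_mem hg) q).1 hq)
  rw [inv_inv, mul_smul, mul_smul, inv_smul_eq_iff] at h
  exact h

/-- the exponent of `p` in the order of a pair stabiliser -/
noncomputable def pe (G : Type u) [Group G] {Ω : Type u} [MulAction G Ω] (p : ℕ) (x y : Ω) : ℕ :=
  (Nat.card (pairStab (G := G) x y)).factorization p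

theorem pe_smul (p : ℕ) (g : G) (x y : Ω) : pe G p (g • x) (g • y) = pe G p x y := by
  unfold pe
  rw [← cj_pairStab, card_cj]

theorem pe_comm (p : ℕ) (x y : Ω) : pe G p x y = pe G p y x := by
  unfold pe pairStab
  rw [inf_comm]

theorem exists_invAt (hS : Setting G Ω) (hR : Rich Ω (⊤ : Subgroup G)) (x : Ω) :
    ∃ t : G, InvAt t x := by
  obtain ⟨s, t, hs, -⟩ := PartE.rich_point hS hR x
  exact ⟨s, hs⟩

theorem exists_swap (hS : Setting G Ω) (hR : Rich Ω (⊤ : Subgroup G)) {x y : Ω} (hxy : x ≠ y) :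
    ∃ w : G, orderOf w = 2 ∧ w • x = y := by
  obtain ⟨s, hs⟩ := exists_invAt hS hR x
  obtain ⟨t, ht⟩ := exists_invAt hS hR y
  obtain ⟨i, -, hi, -, hix⟩ := PartE.exists_middle hS hs ht hxy
  exact ⟨i, hi, hix⟩

theorem swap_back {w : G} (hw : orderOf w = 2) {x y : Ω} (h : w • x = y) : w • y = x := by
  rw [← h, PartE.smul_smul_self hw]

theorem swap_mem_normalizer {w : G} (hw : orderOf w = 2) {x y : Ω} (h : w • x = y) :
    w ∈ normalizer (pairStab (G := G) x y : Set G) := by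
  refine mem_normalizer_fintype fun q hq => ?_
  have h' := swap_back hw h
  have hi : w⁻¹ = w := H28.inv_eq_self_of_orderOf_two hw
  rw [SetLike.mem_coe, mem_pairStab, hi, mul_smul, mul_smul, mul_smul, mul_smul]
  rw [SetLike.mem_coe, mem_pairStab] at hq
  rw [h, hq.2, h', hq.1, h]
  exact ⟨rfl, rfl⟩

/-- `m`: the number of involutions with a given apex -/
theorem ncard_inverted_swap (hS : Setting G Ω) (hR : Rich Ω (⊤ : Subgroup G)) {x y : Ω}
    (hxy : x ≠ y) {w : G} (hw : orderOf w = 2) (hwx : w • x = y) :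
    {j | j ∈ pairStab (G := G) x y ∧ w * j * w⁻¹ = j⁻¹}.ncard = {t : G | InvAt t x}.ncard := by
  obtain ⟨t, ht⟩ := exists_invAt hS hR y
  have hi : w⁻¹ = w := H28.inv_eq_self_of_orderOf_two hw
  have hww := PartE.mul_self_inv hw
  let f : G → G := fun j => w * j * t * (w * j)⁻¹
  have hsw : ∀ j ∈ pairStab (G := G) x y, w * j * w⁻¹ = j⁻¹ → orderOf (w * j) = 2 ∧ (w * j) • x = y := by
    intro j hj hinv
    refine ⟨H28.orderOf_two_of_mul_self ?_ fun h1 => hxy ?_, by rw [mul_smul, hj.1, hwx]⟩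
    · rw [hi] at hinv
      rw [← mul_assoc, hinv, inv_mul_cancel]
    · calc x = (w * j) • x := by rw [h1, one_smul]
        _ = y := by rw [mul_smul, hj.1, hwx]
  refine Set.ncard_congr (fun j _ => f j) ?_ ?_ ?_
  · rintro j ⟨hj, hinv⟩
    obtain ⟨h1, h2⟩ := hsw j hj hinv
    have := PartE.invAt_conj ht (w * j)
    rwa [swap_back h1 h2] at this
  · rintro j j' ⟨hj, hinv⟩ ⟨hj', hinv'⟩ he
    obtain ⟨a1, a2⟩ := hsw j hj hinv
    obtain ⟨b1, b2⟩ := hsw j' hj' hinv'
    have hjX : j⁻¹ * j' ∈ pairStab (G := G) x y := mul_mem (inv_mem hj) hj'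
    have hkey : (w * j)⁻¹ * (w * j') = j⁻¹ * j' := by group
    obtain ⟨d, hd⟩ := hS.exists_fix _ a1
    have hdy : d ≠ y := by
      intro e
      subst e
      exact hxy ((swap_back a1 a2).symm.trans hd)
    have hcomm : Commute t (j⁻¹ * j') := by
      have he' : w * j * t * (w * j)⁻¹ = w * j' * t * (w * j')⁻¹ := he
      calc t * (j⁻¹ * j') = (w * j)⁻¹ * (w * j * t * (w * j)⁻¹) * (w * j') := by group
        _ = (w * j)⁻¹ * (w * j' * t * (w * j')⁻¹) * (w * j') := by rw [he']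
        _ = j⁻¹ * j' * t := by rw [← hkey]; group
    have hone := PartE.rigid hS (i := w * j) ⟨a1, hd⟩ ht hdy
      ((PartE.pairStab_odd hS hxy).of_dvd_nat (Subgroup.orderOf_mk _ hjX ▸ orderOf_dvd_natCard _))
      (by
        have ha := H28.inv_eq_self_of_orderOf_two a1
        have hb := H28.inv_eq_self_of_orderOf_two b1
        rw [← hkey]
        calc w * j * ((w * j)⁻¹ * (w * j')) * (w * j)⁻¹ = w * j' * (w * j)⁻¹ := by group
          _ = (w * j')⁻¹ * (w * j) := by rw [hb, ha]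
          _ = _ := by group) hcomm
    exact inv_mul_eq_one.1 hone
  · intro s hs
    obtain ⟨i, -, hi2, his, hiy⟩ := PartE.exists_middle hS ht hs (Ne.symm hxy)
    have hix := swap_back hi2 hiy
    refine ⟨w * i, ⟨?_, ?_⟩, ?_⟩
    · exact mem_pairStab.2 ⟨by rw [mul_smul, hix, swap_back hw hwx], by rw [mul_smul, hiy, hwx]⟩
    · rw [hi, mul_inv_rev, hi, H28.inv_eq_self_of_orderOf_two hi2, ← mul_assoc w w i, hww, one_mul]
    · simp only [f]
      rw [← mul_assoc, hww, one_mul, his]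

theorem card_inf_mul (H C : Subgroup G) : Nat.card ↥(H ⊓ C) * C.relIndex H = Nat.card H := by
  rw [inf_comm, ← inf_relIndex_right, ← relIndex_bot_left, ← relIndex_bot_left]
  exact relIndex_mul_relIndex _ _ _ bot_le inf_le_right

theorem relIndex_swap (hS : Setting G Ω) (hR : Rich Ω (⊤ : Subgroup G)) {x y : Ω}
    (hxy : x ≠ y) {w : G} (hw : orderOf w = 2) (hwx : w • x = y) :
    (centralizer ({w} : Set G)).relIndex (pairStab (G := G) x y) = {t : G | InvAt t x}.ncard := by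
  rw [← ncard_inverted hw (PartE.pairStab_odd hS hxy) (swap_mem_normalizer hw hwx)]
  exact ncard_inverted_swap hS hR hxy hw hwx

/-- `G_{xy}` is transitive on the involutions at `x`. -/
theorem relIndex_invAt (hS : Setting G Ω) (hR : Rich Ω (⊤ : Subgroup G)) {x y : Ω}
    (hxy : x ≠ y) {t : G} (ht : InvAt t x) :
    (centralizer ({t} : Set G)).relIndex (pairStab (G := G) x y) = {s : G | InvAt s x}.ncard := by
  obtain ⟨t₀, ht₀⟩ := exists_invAt hS hR y
  set X := pairStab (G := G) x y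
  set C := centralizer ({t} : Set G)
  rw [relIndex, index, ← Nat.card_coe_set_eq]
  let g : X → G := fun k => (k : G) * t * (k : G)⁻¹
  have hmem : ∀ k : X, g k ∈ {s : G | InvAt s x} := fun k => by
    have := PartE.invAt_conj ht (k : G)
    rwa [k.2.1] at this
  have hg : ∀ a b : X, g a = g b ↔ a⁻¹ * b ∈ C.subgroupOf X := by
    intro a b
    rw [mem_subgroupOf, mem_centralizer_singleton_iff]
    simp only [Subgroup.coe_mul, InvMemClass.coe_inv, g]
    constructor
    · intro h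
      calc (a : G)⁻¹ * b * t = (a : G)⁻¹ * ((b : G) * t * (b : G)⁻¹) * b := by group
        _ = (a : G)⁻¹ * ((a : G) * t * (a : G)⁻¹) * b := by rw [h]
        _ = t * ((a : G)⁻¹ * b) := by group
    · intro h
      calc (a : G) * t * (a : G)⁻¹ = (a : G) * (t * ((a : G)⁻¹ * b)) * (b : G)⁻¹ := by group
        _ = (a : G) * ((a : G)⁻¹ * b * t) * (b : G)⁻¹ := by rw [h]
        _ = (b : G) * t * (b : G)⁻¹ := by group
  refine Nat.card_congr (Equiv.ofBijective (Quotient.lift (fun k => (⟨g k, hmem k⟩ :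
    ({s : G | InvAt s x} : Set G))) (fun a b hab => Subtype.ext ((hg a b).2
      (QuotientGroup.leftRel_apply.1 hab)))) ⟨?_, ?_⟩)
  · rintro ⟨a⟩ ⟨b⟩ hab
    exact Quotient.sound (QuotientGroup.leftRel_apply.2 ((hg a b).1 (congrArg Subtype.val hab)))
  · rintro ⟨s, hs⟩
    obtain ⟨i, -, hi, hit, hix⟩ := PartE.exists_middle hS ht ht₀ hxy
    obtain ⟨i', -, hi', hit', hiy⟩ := PartE.exists_middle hS ht₀ hs hxy.symm
    have hk : i' * i ∈ X := mem_pairStab.2 ⟨by rw [mul_smul, hix, hiy],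
      by rw [mul_smul, swap_back hi hix, swap_back hi' hiy]⟩
    refine ⟨Quotient.mk'' ⟨i' * i, hk⟩, Subtype.ext ?_⟩
    show i' * i * t * (i' * i)⁻¹ = s
    rw [← hit', ← hit]; group

/-- the `p`-part of `m` -/
noncomputable def em (G : Type u) [Group G] {Ω : Type u} [MulAction G Ω] (p : ℕ) (x : Ω) : ℕ :=
  ({t : G | InvAt t x}.ncard).factorization p

theorem ncard_invAt_eq (hS : Setting G Ω) (x y : Ω) :
    {t : G | InvAt t x}.ncard = {t : G | InvAt t y}.ncard := by
  obtain ⟨g, rfl⟩ := hS.exists_smul x y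
  refine Set.ncard_congr (fun t _ => g * t * g⁻¹) (fun t ht => PartE.invAt_conj ht g)
    (fun s t _ _ h => mul_left_cancel (mul_right_cancel h)) fun t ht => ⟨g⁻¹ * t * g, ?_, by group⟩
  have := PartE.invAt_conj ht g⁻¹
  rwa [inv_inv, inv_smul_smul] at this

theorem em_eq (hS : Setting G Ω) (p : ℕ) (x y : Ω) : em G p x = em G p y := by
  unfold em; rw [ncard_invAt_eq hS x y]

theorem fac_inf {p : ℕ} (H C : Subgroup G) : (Nat.card H).factorization p =
    (Nat.card ↥(H ⊓ C)).factorization p + (C.relIndex H).factorization p := by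
  conv_lhs => rw [← card_inf_mul H C]
  rw [Nat.factorization_mul Nat.card_pos.ne' (by
    intro h0
    have := card_inf_mul H C
    rw [h0, mul_zero] at this
    exact Nat.card_pos.ne' this.symm)]
  rfl

variable {p : ℕ} [Fact p.Prime]

theorem card_le_pow {A H : Subgroup G} (hA : IsPGroup p A) (hAH : A ≤ H) :
    Nat.card A ≤ p ^ (Nat.card H).factorization p := by
  obtain ⟨k, hk⟩ := hA.exists_card_eq
  rw [hk]
  refine Nat.pow_le_pow_right (Fact.out (p := p.Prime)).pos ?_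
  exact ((Fact.out (p := p.Prime)).pow_dvd_iff_le_factorization Nat.card_pos.ne').1
    (hk ▸ card_dvd_of_le hAH)

theorem card_inf_mul_le (hS : Setting G Ω) (hR : Rich Ω (⊤ : Subgroup G)) {x y : Ω} (hxy : x ≠ y)
    {t : G} (ht : InvAt t x) {A : Subgroup G} (hA : IsPGroup p A) (hAX : A ≤ pairStab x y)
    (hAc : Nat.card A = p ^ pe G p x y) :
    Nat.card ↥(A ⊓ centralizer ({t} : Set G)) * p ^ em G p x ≤ Nat.card A := by
  have h1 := card_le_pow (p := p) (hA.to_le (inf_le_left : A ⊓ centralizer ({t} : Set G) ≤ A))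
    (inf_le_inf_right (centralizer ({t} : Set G)) hAX)
  have h2 := fac_inf (p := p) (pairStab (G := G) x y) (centralizer ({t} : Set G))
  rw [relIndex_invAt hS hR hxy ht] at h2
  rw [hAc, pe, h2, pow_add]
  exact Nat.mul_le_mul_right _ h1

theorem exists_syl {H L : Subgroup G} (hLH : L ≤ H) (hL : IsPGroup p L) :
    ∃ K : Subgroup G, L ≤ K ∧ K ≤ H ∧ IsPGroup p K ∧
      Nat.card K = p ^ (Nat.card H).factorization p := by
  obtain ⟨S, hS⟩ := (hL.of_equiv (Subgroup.subgroupOfEquivOfLe hLH).symm :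
    IsPGroup p (L.subgroupOf H)).exists_le_sylow
  exact ⟨(S : Subgroup H).map H.subtype, fun q hq => ⟨⟨q, hLH hq⟩, hS hq, rfl⟩,
    map_subtype_le _, S.2.map _, H20.card_map_sylow S⟩

theorem exists_cj {H K L : Subgroup G} (hK : K ≤ H) (hL : L ≤ H)
    (hKc : Nat.card K = p ^ (Nat.card H).factorization p)
    (hLc : Nat.card L = p ^ (Nat.card H).factorization p) : ∃ h ∈ H, cj h K = L := by
  let SK : Sylow p H := Sylow.ofCard (K.subgroupOf H)
    (by rw [Nat.card_congr (subgroupOfEquivOfLe hK).toEquiv]; exact hKc)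
  let SL : Sylow p H := Sylow.ofCard (L.subgroupOf H)
    (by rw [Nat.card_congr (subgroupOfEquivOfLe hL).toEquiv]; exact hLc)
  obtain ⟨m, hm⟩ := MulAction.exists_smul_eq H SK SL
  refine ⟨m, m.2, ?_⟩
  have h'' : MulAut.conj m • K.subgroupOf H = L.subgroupOf H := by
    have := congrArg (fun S : Sylow p H => (S : Subgroup H)) hm
    simpa [SK, SL, Sylow.coe_subgroup_smul] using this
  have hsub : cj (m : G) K ≤ L := by
    intro z hz
    rw [mem_cj] at hz
    have hzH : z ∈ H := by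
      have := mul_mem (mul_mem m.2 (hK hz)) (inv_mem m.2)
      simpa [mul_assoc] using this
    have : (⟨z, hzH⟩ : H) ∈ MulAut.conj m • K.subgroupOf H := by
      rw [mem_pointwise_smul_iff_inv_smul_mem]
      simpa [mem_subgroupOf] using hz
    rw [h''] at this
    exact this
  exact Subgroup.eq_of_le_of_card_ge hsub (by rw [card_cj, hKc, hLc])

/-- A swapper of a pair normalising a given Sylow subgroup of the pair stabiliser. -/
theorem exists_swap_normalizing (hS : Setting G Ω) (hR : Rich Ω (⊤ : Subgroup G)) {x y : Ω}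
    (hxy : x ≠ y) {A : Subgroup G} (hAX : A ≤ pairStab x y) (hAc : Nat.card A = p ^ pe G p x y) :
    ∃ w : G, orderOf w = 2 ∧ w • x = y ∧ w ∈ normalizer (A : Set G) ∧
      Nat.card ↥(A ⊓ centralizer ({w} : Set G)) * p ^ em G p x = Nat.card A := by
  obtain ⟨u, hu, hux⟩ := exists_swap hS hR hxy
  obtain ⟨S', -, hS'X, hS'u, -, hS'c, -⟩ := exists_invariant_sylow hu (PartE.pairStab_odd hS hxy)
    (swap_mem_normalizer hu hux) p (R := ⊥) bot_le IsPGroup.of_bot (mem_normalizer_fintype fun q hq => by simp_all)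
  obtain ⟨h, hhX, hh⟩ := exists_cj hS'X hAX hS'c hAc
  have hw : orderOf (h * u * h⁻¹) = 2 := by rw [H28.orderOf_conj_eq]; exact hu
  have hwx : (h * u * h⁻¹) • x = y := by
    rw [mul_smul, mul_smul, inv_smul_eq_iff.2 hhX.1.symm, hux, hhX.2]
  have hwn : h * u * h⁻¹ ∈ normalizer (A : Set G) := by
    refine mem_normalizer_fintype fun q hq => ?_
    rw [SetLike.mem_coe, ← hh, mem_cj] at hq ⊢
    have := (mem_normalizer_iff.1 hS'u _).1 hq
    simpa [mul_assoc] using this
  refine ⟨h * u * h⁻¹, hw, hwx, hwn, ?_⟩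
  have hn := ncard_inverted_sylow hw (PartE.pairStab_odd hS hxy) (swap_mem_normalizer hw hwx) hAX hwn hAc
  rw [relIndex_swap hS hR hxy hw hwx,
    ncard_inverted hw ((PartE.pairStab_odd hS hxy).of_dvd_nat (card_dvd_of_le hAX)) hwn] at hn
  rw [em, ← hn, card_inf_mul]

theorem modEq_fixed {P : Subgroup G} (hP : IsPGroup p P) {Λ : Set Ω}
    (hinv : ∀ q ∈ P, ∀ x ∈ Λ, q • x ∈ Λ) :
    Λ.ncard ≡ {x ∈ Λ | ∀ q ∈ P, q • x = x}.ncard [MOD p] := by
  letI : MulAction P Λ :=
    { smul := fun q x => ⟨(q : G) • (x : Ω), hinv q q.2 x x.2⟩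
      one_smul := fun x => Subtype.ext (one_smul G (x : Ω))
      mul_smul := fun q r x => Subtype.ext (mul_smul (q : G) (r : G) (x : Ω)) }
  have h := hP.card_modEq_card_fixedPoints Λ
  rw [Nat.card_coe_set_eq] at h
  refine h.trans (congrArg (fun n => n % p) ?_)
  rw [← Nat.card_coe_set_eq]
  refine Nat.card_congr ⟨fun x => ⟨x.1.1, x.1.2, fun q hq => congrArg Subtype.val (x.2 ⟨q, hq⟩)⟩,
    fun x => ⟨⟨x.1, x.2.1⟩, fun q => Subtype.ext (x.2.2 q q.2)⟩, fun x => rfl, fun x => rfl⟩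

/-- Local fixed-point control gives transitivity. -/
theorem trans_of_local {H : Subgroup G} {F : Set Ω} (hF : ∀ h ∈ H, ∀ x ∈ F, h • x ∈ F)
    (hloc : ∀ x ∈ F, ∃ P : Subgroup G, P ≤ H ∧ IsPGroup p P ∧ (∀ q ∈ P, q • x = x) ∧
      ∀ y ∈ F, (∀ q ∈ P, q • y = y) → y = x) :
    ∀ x ∈ F, ∀ y ∈ F, ∃ h ∈ H, h • x = y := by
  intro x hx y hy
  by_contra hno
  push_neg at hno
  have horbF : ∀ z ∈ F, orb H z ⊆ F := by
    rintro z hz _ ⟨h, hh, rfl⟩; exact hF h hh z hz
  have hinv : ∀ (P : Subgroup G), P ≤ H → ∀ z : Ω, ∀ q ∈ P, ∀ v ∈ orb H z, q • v ∈ orb H z := by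
    rintro P hPH z q hq _ ⟨h, hh, rfl⟩
    exact ⟨q * h, mul_mem (hPH hq) hh, mul_smul q h z⟩
  obtain ⟨P, hPH, hPp, hPx, hPu⟩ := hloc x hx
  obtain ⟨Q, hQH, hQp, hQy, hQu⟩ := hloc y hy
  have h1 := modEq_fixed hPp (hinv P hPH y)
  have e1 : {z ∈ orb H y | ∀ q ∈ P, q • z = z} = ∅ := by
    rw [Set.eq_empty_iff_forall_notMem]
    rintro z ⟨⟨h, hh, rfl⟩, hz⟩
    have := hPu _ (hF h hh y hy) hz
    exact hno h⁻¹ (inv_mem hh) (inv_smul_eq_iff.2 this.symm)
  have h2 := modEq_fixed hQp (hinv Q hQH y)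
  have e2 : {z ∈ orb H y | ∀ q ∈ Q, q • z = z} = {y} := by
    ext z
    constructor
    · rintro ⟨hz, hzq⟩; exact hQu z (horbF y hy hz) hzq
    · rintro rfl; exact ⟨⟨1, one_mem _, one_smul G z⟩, hQy⟩
  rw [e1, Set.ncard_empty] at h1
  rw [e2, Set.ncard_singleton] at h2
  have h01 : 0 ≡ 1 [MOD p] := h1.symm.trans h2
  exact Nat.one_ne_zero (Nat.ModEq.eq_of_lt_of_lt h01.symm (Fact.out (p := p.Prime)).one_lt
    (Fact.out (p := p.Prime)).pos)

theorem involution_of_swap {H : Subgroup G} {h : G} (hh : h ∈ H) {x y : Ω} (hxy : x ≠ y)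
    (h1 : h • x = y) (h2 : h • y = x) : ∃ t ∈ H, orderOf t = 2 := by
  have he : 2 ∣ orderOf h := by
    rw [← even_iff_two_dvd, ← Nat.not_odd_iff_even]
    intro hodd
    have := PartE.mem_of_sq_mem (K := MulAction.stabilizer G x) hodd
      (by rw [MulAction.mem_stabilizer_iff, mul_smul, h1, h2])
    exact hxy (by rw [← h1, MulAction.mem_stabilizer_iff.1 this])
  exact ⟨h ^ (orderOf h / 2), pow_mem hh _, orderOf_pow_orderOf_div (orderOf_pos h).ne' he⟩

theorem exists_fix_mem {t : G} (ht : orderOf t = 2) {Λ : Set Ω} (hinv : ∀ y ∈ Λ, t • y ∈ Λ)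
    (hodd : Odd Λ.ncard) : ∃ y ∈ Λ, t • y = y := by
  haveI : Fintype Λ := Fintype.ofFinite Λ
  haveI : Fact (Nat.Prime 2) := ⟨Nat.prime_two⟩
  let σ : Equiv.Perm Λ := ⟨fun y => ⟨t • (y : Ω), hinv y y.2⟩, fun y => ⟨t • (y : Ω), hinv y y.2⟩,
    fun y => Subtype.ext (PartE.smul_smul_self ht _), fun y => Subtype.ext (PartE.smul_smul_self ht _)⟩
  obtain ⟨y, hy⟩ := Equiv.Perm.exists_fixed_point_of_prime (p := 2) (n := 1) (σ := σ)
    (by
      intro h
      rw [← Nat.card_eq_fintype_card, Nat.card_coe_set_eq] at h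
      exact (Nat.not_even_iff_odd.2 hodd) (even_iff_two_dvd.2 h))
    (Equiv.ext fun y => Subtype.ext (PartE.smul_smul_self ht _))
  exact ⟨y, y.2, congrArg Subtype.val hy⟩

theorem orb_odd {O : Subgroup G} (hO : Odd (Nat.card O)) (x : Ω) : Odd (orb O x).ncard := by
  have e : orb O x = MulAction.orbit O x := by
    ext y
    exact ⟨fun ⟨h, hh, e⟩ => ⟨⟨h, hh⟩, e⟩, fun ⟨h, e⟩ => ⟨h, h.2, e⟩⟩
  rw [e, ← Nat.card_coe_set_eq, Nat.card_congr (MulAction.orbitEquivQuotientStabilizer O x),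
    ← Subgroup.index_eq_card]
  exact hO.of_dvd_nat (Subgroup.index_dvd_card _)

theorem orb_smul {O : Subgroup G} {g : G} (hg : ∀ o ∈ O, g * o * g⁻¹ ∈ O) {x z : Ω}
    (hz : z ∈ orb O x) : g • z ∈ orb O (g • x) := by
  obtain ⟨o, ho, rfl⟩ := hz
  exact ⟨g * o * g⁻¹, hg o ho, by rw [mul_smul, mul_smul, inv_smul_smul]⟩

theorem orb_eq {O : Subgroup G} {x z : Ω} (hz : z ∈ orb O x) : orb O z = orb O x := by
  obtain ⟨o, ho, rfl⟩ := hz
  ext y
  constructor
  · rintro ⟨k, hk, rfl⟩; exact ⟨k * o, mul_mem hk ho, mul_smul k o x⟩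
  · rintro ⟨k, hk, rfl⟩; exact ⟨k * o⁻¹, mul_mem hk (inv_mem ho), by rw [mul_smul, inv_smul_smul]⟩

/-- An odd `Y` without normalising involution fixed-apex: the normaliser is isolated. -/
theorem exists_odd_core (hS : Setting G Ω) {Y : Subgroup G} (hY : Odd (Nat.card Y))
    (hout : ∀ t ∈ normalizer (Y : Set G), ∀ d : Ω, InvAt t d → d ∉ fixPts Y) :
    ∃ O : Subgroup G, O ≤ normalizer (Y : Set G) ∧ Odd (Nat.card O) ∧
      (∀ g ∈ normalizer (Y : Set G), ∀ o ∈ O, g * o * g⁻¹ ∈ O) ∧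
      (∀ t ∈ normalizer (Y : Set G), orderOf t = 2 →
        ∀ g ∈ normalizer (Y : Set G), t * g * t⁻¹ * g⁻¹ ∈ O) ∧
      (∀ s ∈ normalizer (Y : Set G), ∀ t ∈ normalizer (Y : Set G), orderOf s = 2 → orderOf t = 2 →
        s * t ∈ O) := by
  set N := normalizer (Y : Set G)
  have nopair : ∀ s ∈ N, ∀ t ∈ N, orderOf s = 2 → orderOf t = 2 → Commute s t → s = t := by
    intro s hs t ht hs2 ht2 hc
    by_contra hne
    obtain ⟨d, hd⟩ := hS.exists_fix s hs2
    obtain ⟨d', hd'⟩ := hS.exists_fix t ht2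
    have e := IHFacts.apex_eq_of_commute hS ⟨hs2, hd⟩ ⟨ht2, hd'⟩ hc
    subst e
    exact hout s hs d ⟨hs2, hd⟩ fun q hq =>
      PartE.fix_of_pair hS ⟨hs2, hd⟩ ⟨ht2, hd'⟩ hne hc hY hs ht hq
  let O := (Cfsg.pPrimeCore 2 N).map N.subtype
  have hz : ∀ t ∈ N, orderOf t = 2 → ∀ g ∈ N, t * g * t⁻¹ * g⁻¹ ∈ O := by
    intro t ht ht2 g hg
    have hiso : H28.IsIsolatedInvolution (⟨t, ht⟩ : N) := by
      refine ⟨by rw [Subgroup.orderOf_mk]; exact ht2, fun k hk => Subtype.ext ?_⟩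
      refine (nopair t ht ((k * ⟨t, ht⟩ * k⁻¹ : N) : G) (k * ⟨t, ht⟩ * k⁻¹ : N).2 ht2 ?_ (Commute.map hk N.subtype)).symm
      simp only [Subgroup.coe_mul, InvMemClass.coe_inv, H28.orderOf_conj_eq]
      exact ht2
    exact ⟨_, H28.zStar hiso ⟨g, hg⟩, rfl⟩
  refine ⟨O, map_subtype_le _, ?_, ?_, hz, ?_⟩
  · rw [card_map_of_injective N.subtype_injective]
    exact Nat.coprime_two_right.1 (H19.pPrimeCore_coprime 2)
  · rintro g hg _ ⟨o, ho, rfl⟩
    exact ⟨_, (H19.pPrimeCore_normal 2 N).conj_mem o ho ⟨g, hg⟩, rfl⟩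
  · intro s hs t ht hs2 ht2
    have hss := H28.mul_self_of_orderOf_two hs2
    have htt := H28.mul_self_of_orderOf_two ht2
    have hcl : closure ({s, t} : Set G) ≤ N := (closure_le _).2 (by rintro g (rfl | rfl) <;> assumption)
    rcases Nat.even_or_odd (orderOf (s * t)) with he | ho
    · obtain ⟨hz2, hzs, hzt⟩ := H28.central_involution_of_even hss htt he
      have hzN : (s * t) ^ (orderOf (s * t) / 2) ∈ N := pow_mem (mul_mem hs ht) _
      rw [nopair _ hzN s hs hz2 hs2 hzs] at hzt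
      have hst := nopair s hs t ht hs2 ht2 hzt
      subst hst
      rw [hss]; exact one_mem _
    · obtain ⟨d, hd, hdt⟩ := H28.exists_conj_of_odd hss htt ho
      have := hz s hs hs2 d (hcl hd)
      rw [H28.inv_eq_self_of_orderOf_two hs2] at this
      rwa [← hdt, show s * (d * s * d⁻¹) = s * d * s * d⁻¹ by group]

section main

variable (hS : Setting G Ω) (hR : Rich Ω (⊤ : Subgroup G)) {a b : Ω} (hab : a ≠ b)
  (hmax : ∀ x y : Ω, x ≠ y → pe G p x y ≤ pe G p a b)
  (hbad : ∀ (t : G) (S : Subgroup G), InvAt t a → S ≤ pairStab a b → IsPGroup p S →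
      Nat.card S = p ^ pe G p a b → t ∉ Subgroup.normalizer (S : Set G))

include hS hR hab hmax hbad

theorem exists_S : ∃ S : Subgroup G, IsPGroup p S ∧ S ≤ pairStab a b ∧
    Nat.card S = p ^ pe G p a b ∧ fixPts S = ({a, b} : Set Ω) := by
  obtain ⟨S, -, hSX, hSp, hSc⟩ := exists_syl (p := p) (bot_le : ⊥ ≤ pairStab (G := G) a b)
    IsPGroup.of_bot
  replace hSc : Nat.card S = p ^ pe G p a b := hSc
  refine ⟨S, hSp, hSX, hSc, ?_⟩
  obtain ⟨haF, hbF⟩ := le_pairStab_iff.1 hSX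
  have full : ∀ x ∈ (fixPts S : Set Ω), ∀ y ∈ (fixPts S : Set Ω), x ≠ y → pe G p x y = pe G p a b := by
    intro x hx y hy hxy
    refine le_antisymm (hmax x y hxy) ((Nat.pow_le_pow_iff_right (Fact.out (p := p.Prime)).one_lt).1 ?_)
    rw [← hSc]
    exact card_le_pow hSp (le_pairStab_iff.2 ⟨hx, hy⟩)
  have swp : ∀ x ∈ (fixPts S : Set Ω), ∀ y ∈ (fixPts S : Set Ω), x ≠ y →
      ∃ w ∈ normalizer (S : Set G), orderOf w = 2 ∧ w • x = y := by
    intro x hx y hy hxy
    obtain ⟨w, h1, h2, h3, -⟩ := exists_swap_normalizing (p := p) hS hR hxy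
      (le_pairStab_iff.2 ⟨hx, hy⟩) (hSc.trans (by rw [full x hx y hy hxy]))
    exact ⟨w, h3, h1, h2⟩
  have hout : ∀ t ∈ normalizer (S : Set G), ∀ d : Ω, InvAt t d → d ∉ fixPts S := by
    intro t ht d htd hd
    by_cases hda : d = a
    · exact hbad t S (hda ▸ htd) hSX hSp hSc ht
    obtain ⟨w, hwN, -, hwd⟩ := swp d hd a haF hda
    have := PartE.invAt_conj htd w
    rw [hwd] at this
    exact hbad _ S this hSX hSp hSc (mul_mem (mul_mem hwN ht) (inv_mem hwN))
  obtain ⟨O, hON, hOodd, hOn, -, hst⟩ := exists_odd_core hS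
    ((PartE.pairStab_odd hS hab).of_dvd_nat (card_dvd_of_le hSX)) hout
  refine Set.Subset.antisymm ?_ (by rintro x (rfl | rfl) <;> assumption)
  intro c hc
  by_contra hcab
  simp only [Set.mem_insert_iff, Set.mem_singleton_iff, not_or] at hcab
  obtain ⟨hca, hcb⟩ := hcab
  obtain ⟨w1, hw1N, hw12, hw1⟩ := swp a haF b hbF hab
  have hw1' := swap_back hw12 hw1
  -- every point other than `b` lies in the orbit of `a`
  have hA : ∀ x ∈ (fixPts S : Set Ω), x ≠ a → x ≠ b → w1 • x ∈ orb O a ∧ w1 • x ∈ orb O b := by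
    intro x hx hxa hxb
    obtain ⟨w2, hw2N, hw22, hw2⟩ := swp x hx a haF hxa
    obtain ⟨w3, hw3N, hw32, hw3⟩ := swp x hx b hbF hxb
    have h2 := swap_back hw22 hw2
    have h3 := swap_back hw32 hw3
    exact ⟨⟨w1 * w2, hst w1 hw1N w2 hw2N hw12 hw22, by rw [mul_smul, h2]⟩,
      ⟨w1 * w3, hst w1 hw1N w3 hw3N hw12 hw32, by rw [mul_smul, h3]⟩⟩
  obtain ⟨h1, h2⟩ := hA c hc hca hcb
  have hba : b ∈ orb O a := by
    rw [← orb_eq h1, orb_eq h2]
    exact ⟨1, one_mem _, one_smul G b⟩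
  have hinv : ∀ y ∈ orb O a, w1 • y ∈ orb O a := by
    intro y hy
    have := orb_smul (hOn w1 hw1N) hy
    rw [hw1, orb_eq hba] at this
    exact this
  obtain ⟨d, ⟨o, ho, hod⟩, hwd⟩ := exists_fix_mem hw12 hinv (orb_odd hOodd a)
  exact hout w1 hw1N d ⟨hw12, hwd⟩ (hod ▸ smul_fixPts (hON ho) haF)

theorem full_conj {S : Subgroup G} (hSp : IsPGroup p S) (hSX : S ≤ pairStab a b)
    (hSc : Nat.card S = p ^ pe G p a b) (hF : fixPts S = ({a, b} : Set Ω))
    {T : Subgroup G} (hT : IsPGroup p T) {x : Ω} (hTx : x ∈ fixPts T) :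
    ∃ g : G, g • x = a ∧ cj g T ≤ S := by
  obtain ⟨g0, hg0⟩ := hS.exists_smul x a
  have hT0 : cj g0 T ≤ MulAction.stabilizer G a := fun z hz => by
    have h := hTx _ (mem_cj.1 hz)
    rw [mul_smul, mul_smul, hg0, inv_smul_eq_iff, hg0] at h
    exact h
  obtain ⟨K, hTK, hK, hKp, hKc⟩ := exists_syl (p := p) hT0 (hT.map _)
  obtain ⟨K', hSK, hK', hK'p, hK'c⟩ := exists_syl (p := p)
    (hSX.trans inf_le_left : S ≤ MulAction.stabilizer G a) hSp
  have hSK' : K' = S := by
    by_contra hne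
    have hlt := H23.lt_inf_normalizer hK'p (lt_of_le_of_ne hSK (Ne.symm hne))
    have hfix : K' ⊓ normalizer (S : Set G) ≤ pairStab a b := by
      rintro q ⟨hq, hqn⟩
      have h1 := MulAction.mem_stabilizer_iff.1 (hK' hq)
      refine mem_pairStab.2 ⟨h1, ?_⟩
      have hb' : q • b ∈ fixPts S := smul_fixPts hqn (le_pairStab_iff.1 hSX).2
      rw [hF] at hb'
      rcases hb' with h | h
      · exact absurd (MulAction.injective q (h.trans h1.symm)) hab.symm
      · exact h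
    have := Subgroup.eq_of_le_of_card_ge hlt.le
      (by rw [hSc]; exact card_le_pow (hK'p.to_le inf_le_left) hfix)
    exact hlt.ne this
  subst hSK'
  obtain ⟨h, hh, hhK⟩ := exists_cj hK hK' hKc hK'c
  refine ⟨h * g0, by rw [mul_smul, hg0]; exact hh, ?_⟩
  intro z hz
  rw [← hhK, mem_cj]
  apply hTK
  rw [mem_cj]
  rw [mem_cj] at hz
  simpa [mul_assoc] using hz

theorem pair_conj {S : Subgroup G} (hSp : IsPGroup p S) (hSX : S ≤ pairStab a b)
    (hSc : Nat.card S = p ^ pe G p a b) (hF : fixPts S = ({a, b} : Set Ω))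
    {x y : Ω} (hxy : x ≠ y) (hfull : pe G p x y = pe G p a b) :
    ∃ g : G, g • x = a ∧ g • y = b := by
  obtain ⟨T, -, hTX, hTp, hTc⟩ := exists_syl (p := p) (bot_le : ⊥ ≤ pairStab (G := G) x y)
    IsPGroup.of_bot
  obtain ⟨g, hgx, hle⟩ := full_conj hS hR hab hmax hbad hSp hSX hSc hF hTp (le_pairStab_iff.1 hTX).1
  refine ⟨g, hgx, ?_⟩
  have heq : cj g T = S := Subgroup.eq_of_le_of_card_ge hle (by
    rw [card_cj, hTc, hSc, ← hfull]; exact le_rfl)
  have : g • y ∈ fixPts S := by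
    intro q hq
    rw [← heq, mem_cj] at hq
    have h : (g⁻¹ * q * g) • y = y := (hTX hq).2
    rw [mul_smul, mul_smul, inv_smul_eq_iff] at h
    exact h
  rw [hF] at this
  rcases this with h | h
  · exact absurd (MulAction.injective g (h.trans hgx.symm)) (Ne.symm hxy)
  · exact h

theorem no_TR {S : Subgroup G} (hSp : IsPGroup p S) (hSX : S ≤ pairStab a b)
    (hSc : Nat.card S = p ^ pe G p a b) (hF : fixPts S = ({a, b} : Set Ω))
    {Y : Subgroup G} (hYp : IsPGroup p Y) {x x' : Ω} (hxx : x ≠ x')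
    (hYX : Y ≤ pairStab x x') (hfull : pe G p x x' = pe G p a b) {t : G} (ht : InvAt t x)
    (htY : t ∈ normalizer (Y : Set G))
    (hcnt : Nat.card ↥(Y ⊓ centralizer ({t} : Set G)) * p ^ em G p x ≤ Nat.card Y) : False := by
  have hpp : p.Prime := Fact.out
  set C := centralizer ({t} : Set G)
  set D := pairStab (G := G) x x' ⊓ MulAction.stabilizer G (t • x')
  have hi := H28.inv_eq_self_of_orderOf_two ht.1
  have htt : ∀ v : Ω, t • t • v = v := PartE.smul_smul_self ht.1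
  have hDn : t ∈ normalizer (D : Set G) := by
    refine mem_normalizer_fintype fun q hq => ?_
    obtain ⟨⟨h1, h2⟩, h3⟩ := hq
    replace h1 : q • x = x := h1
    replace h2 : q • x' = x' := h2
    replace h3 : q • t • x' = t • x' := h3
    refine ⟨⟨?_, ?_⟩, ?_⟩
    · show (t * q * t⁻¹) • x = x
      rw [hi, mul_smul, mul_smul, ht.2, h1, ht.2]
    · show (t * q * t⁻¹) • x' = x'
      rw [hi, mul_smul, mul_smul, h3, htt]
    · show (t * q * t⁻¹) • t • x' = t • x'
      rw [hi, mul_smul, mul_smul, htt, h2]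
  have hYD : Y ≤ D := fun q hq => ⟨hYX hq, by
    have := (mem_pairStab.1 (hYX ((mem_normalizer_iff.1 htY q).1 hq))).2
    rw [hi, mul_smul, mul_smul] at this
    show q • t • x' = t • x'
    calc q • t • x' = t • t • q • t • x' := (htt _).symm
      _ = t • x' := by rw [this]⟩
  have hDo : Odd (Nat.card D) :=
    (PartE.pairStab_odd hS hxx).of_dvd_nat (card_dvd_of_le inf_le_left)
  obtain ⟨R', hYR, hR'D, hR't, hR'p, hR'c, hR'C⟩ :=
    exists_invariant_sylow ht.1 hDo hDn p hYD hYp htY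
  have hDC : D ⊓ C = pairStab (G := G) x x' ⊓ C := by
    refine le_antisymm (inf_le_inf_right _ inf_le_left) ?_
    rintro q ⟨hq, hqC⟩
    refine ⟨⟨hq, ?_⟩, hqC⟩
    show q • t • x' = t • x'
    rw [← mul_smul, mem_centralizer_singleton_iff.1 hqC, mul_smul,
      (mem_pairStab.1 hq).2]
  rw [hDC] at hR'C
  have hfac := fac_inf (p := p) (pairStab (G := G) x x') C
  rw [relIndex_invAt hS hR hxx ht] at hfac
  have h1 : p ^ em G p x ≤ C.relIndex R' := by
    refine le_trans ?_ (relIndex_le_of_le_right hYR (by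
      intro h0
      have := card_inf_mul R' C
      rw [h0, mul_zero] at this
      exact Nat.card_pos.ne' this.symm))
    have := card_inf_mul Y C
    rw [← this] at hcnt
    exact Nat.le_of_mul_le_mul_left hcnt Nat.card_pos
  have h2 : p ^ pe G p x x' ≤ Nat.card R' := by
    rw [← card_inf_mul R' C, hR'C, pe, hfac, pow_add]
    exact Nat.mul_le_mul_left _ h1
  have hR'X : R' ≤ pairStab x x' := hR'D.trans inf_le_left
  have h3 : Nat.card R' = p ^ pe G p a b := by
    rw [← hfull]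
    exact le_antisymm (card_le_pow hR'p hR'X) h2
  obtain ⟨g, hgx, hgy⟩ := pair_conj hS hR hab hmax hbad hSp hSX hSc hF hxx hfull
  have hinv := PartE.invAt_conj ht g
  rw [hgx] at hinv
  refine hbad _ (cj g R') hinv ?_ (hR'p.map _) (by rw [card_cj, h3]) ?_
  · rw [← hgx, ← hgy, ← cj_pairStab]
    exact map_mono hR'X
  · refine mem_normalizer_fintype fun q hq => ?_
    rw [SetLike.mem_coe, mem_cj] at hq ⊢
    have := (mem_normalizer_iff.1 hR't _).1 hq
    simpa [mul_assoc] using this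

set_option maxHeartbeats 2000000 in
theorem all_full : ∀ x y : Ω, x ≠ y → pe G p x y = pe G p a b := by
  classical
  obtain ⟨S, hSp, hSX, hSc, hF⟩ := exists_S hS hR hab hmax hbad
  set e := pe G p a b with he
  have noTR : ∀ {Y : Subgroup G} (_ : IsPGroup p Y) {x x' : Ω} (_ : x ≠ x')
      (_ : Y ≤ pairStab x x') (_ : pe G p x x' = e) {t : G} (_ : InvAt t x)
      (_ : t ∈ normalizer (Y : Set G)),
      Nat.card ↥(Y ⊓ centralizer ({t} : Set G)) * p ^ em G p x ≤ Nat.card Y → False :=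
    fun {_} hYp {_ _} hxx hYX hfl {_} ht htY h => no_TR hS hR hab hmax hbad hSp hSX hSc hF hYp hxx hYX hfl ht htY h
  by_contra hne
  push_neg at hne
  obtain ⟨x1, y1, hxy1, hne1⟩ := hne
  let Bad : Set (Ω × Ω) := {q | q.1 ≠ q.2 ∧ pe G p q.1 q.2 ≠ e}
  obtain ⟨⟨x0, y0⟩, ⟨h0ne, h0bad⟩, h0max⟩ := (Set.toFinite Bad).exists_maximalFor
    (fun q => pe G p q.1 q.2) Bad ⟨(x1, y1), hxy1, hne1⟩
  simp only at h0ne h0bad h0max
  set f := pe G p x0 y0 with hf
  have gap : ∀ x y : Ω, x ≠ y → f < pe G p x y → pe G p x y = e := by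
    intro x y hxy hlt
    by_contra hn
    have := h0max (j := (x, y)) ⟨hxy, hn⟩ hlt.le
    simp only at this
    omega
  have hfe : f < e := lt_of_le_of_ne (hmax x0 y0 h0ne) h0bad
  obtain ⟨T, -, hTX, hTp, hTc⟩ := exists_syl (p := p) (bot_le : ⊥ ≤ pairStab (G := G) x0 y0)
    IsPGroup.of_bot
  obtain ⟨g, hgx, hRS⟩ := full_conj hS hR hab hmax hbad hSp hSX hSc hF hTp (le_pairStab_iff.1 hTX).1
  set R := cj g T with hRdef
  set y := g • y0 with hy
  have hRp : IsPGroup p R := hTp.map _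
  have hay : a ≠ y := fun h => h0ne (MulAction.injective g (hgx.trans h))
  have hRay : R ≤ pairStab a y := by
    rw [← hgx, hy, ← cj_pairStab]
    exact map_mono hTX
  have hpay : pe G p a y = f := by rw [← hgx, hy, pe_smul]
  have hRc : Nat.card R = p ^ f := by rw [hRdef, card_cj, hTc]; rfl
  obtain ⟨haR, hyR⟩ := le_pairStab_iff.1 hRay
  have hbR : b ∈ fixPts R := fun q hq => (le_pairStab_iff.1 hSX).2 q (hRS hq)
  have hyb : y ≠ b := fun h => h0bad (by rw [← hpay, h])
  have hRodd : Odd (Nat.card R) := (PartE.pairStab_odd hS hay).of_dvd_nat (card_dvd_of_le hRay)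
  -- pairs fixed by `R`
  have pfix : ∀ x ∈ (fixPts R : Set Ω), ∀ z ∈ (fixPts R : Set Ω), x ≠ z → pe G p x z = e ∨ pe G p x z = f := by
    intro x hx z hz hxz
    have hge : f ≤ pe G p x z := (Nat.pow_le_pow_iff_right (Fact.out (p := p.Prime)).one_lt).1
      (hRc ▸ card_le_pow hRp (le_pairStab_iff.2 ⟨hx, hz⟩))
    rcases hge.lt_or_eq with h | h
    · exact Or.inl (gap x z hxz h)
    · exact Or.inr h.symm
  have swp : ∀ x ∈ (fixPts R : Set Ω), ∀ z ∈ (fixPts R : Set Ω), x ≠ z → pe G p x z = f →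
      ∃ w ∈ normalizer (R : Set G), orderOf w = 2 ∧ w • x = z ∧
        Nat.card ↥(R ⊓ centralizer ({w} : Set G)) * p ^ em G p x = Nat.card R := by
    intro x hx z hz hxz hxzf
    obtain ⟨w, h1, h2, h3, h4⟩ := exists_swap_normalizing (p := p) hS hR hxz
      (le_pairStab_iff.2 ⟨hx, hz⟩) (by rw [hxzf]; exact hRc)
    exact ⟨w, h3, h1, h2, h4⟩
  obtain ⟨u, huN, hu2, hua, hucnt⟩ := swp a haR y hyR hay hpay
  have cnt_conj : ∀ i ∈ normalizer (R : Set G),
      Nat.card ↥(R ⊓ centralizer ({i * u * i⁻¹} : Set G)) = Nat.card ↥(R ⊓ centralizer ({u} : Set G)) := by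
    intro i hi
    rw [← card_cj i (R ⊓ centralizer ({u} : Set G))]
    congr 2
    ext z
    rw [mem_cj, mem_inf, mem_inf, mem_centralizer_singleton_iff, mem_centralizer_singleton_iff]
    apply and_congr
    · have := mem_normalizer_iff.1 (inv_mem hi) z
      rwa [inv_inv] at this
    · constructor
      · intro h
        calc i⁻¹ * z * i * u = i⁻¹ * (z * (i * u * i⁻¹)) * i := by group
          _ = i⁻¹ * (i * u * i⁻¹ * z) * i := by rw [h]
          _ = u * (i⁻¹ * z * i) := by group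
      · intro h
        calc z * (i * u * i⁻¹) = i * (i⁻¹ * z * i * u) * i⁻¹ := by group
          _ = i * (u * (i⁻¹ * z * i)) * i⁻¹ := by rw [h]
          _ = i * u * i⁻¹ * z := by group
  obtain ⟨d, hd⟩ := hS.exists_fix u hu2
  have hdR : d ∉ fixPts R := by
    intro hdF
    have : ∃ v, InvAt v a ∧ v ∈ normalizer (R : Set G) ∧
        Nat.card ↥(R ⊓ centralizer ({v} : Set G)) * p ^ em G p a ≤ Nat.card R := by
      by_cases hda : d = a
      · exact ⟨u, hda ▸ ⟨hu2, hd⟩, huN, hucnt.le⟩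
      by_cases hfl : pe G p d a = e
      · exfalso
        exact noTR hRp hda (le_pairStab_iff.2 ⟨hdF, haR⟩) hfl ⟨hu2, hd⟩ huN
          (by rw [em_eq hS p d a]; exact hucnt.le)
      obtain ⟨i, hiN, -, hid, -⟩ := swp d hdF a haR hda ((pfix d hdF a haR hda).resolve_left hfl)
      have hv := PartE.invAt_conj (x := d) ⟨hu2, hd⟩ i
      rw [hid] at hv
      exact ⟨_, hv, mul_mem (mul_mem hiN huN) (inv_mem hiN), by rw [cnt_conj i hiN]; exact hucnt.le⟩
    obtain ⟨v, hv, hvN, hvc⟩ := this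
    exact noTR hRp hab (le_pairStab_iff.2 ⟨haR, hbR⟩) rfl hv hvN hvc
  have hout : ∀ t ∈ normalizer (R : Set G), ∀ d' : Ω, InvAt t d' → d' ∉ fixPts R := by
    intro t ht d' htd' hd'
    have hdd : d ≠ d' := fun h => hdR (h ▸ hd')
    obtain ⟨i, hi, -, -, hid⟩ := PartE.exists_middle hS ⟨hu2, hd⟩ htd' hdd
    have hiN : i ∈ normalizer (R : Set G) := (closure_le _).2 (by rintro g (rfl | rfl) <;> assumption) hi
    have := smul_fixPts (inv_mem hiN) hd'
    rw [inv_smul_eq_iff.2 hid.symm] at this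
    exact hdR this
  obtain ⟨O, hON, hOodd, hOn, hz, hst⟩ := exists_odd_core hS hRodd hout
  set K := orb O a with hK
  have hKR : ∀ z ∈ K, z ∈ fixPts R := by
    rintro z ⟨o, ho, rfl⟩; exact smul_fixPts (hON ho) haR
  have haK : a ∈ K := ⟨1, one_mem _, one_smul G a⟩
  have hyK : y ∉ K := by
    intro hyK
    have hinv : ∀ z ∈ K, u • z ∈ K := by
      intro z hz
      have := orb_smul (hOn u huN) hz
      rwa [hua, orb_eq hyK] at this
    obtain ⟨d', hd'K, hd'⟩ := exists_fix_mem hu2 hinv (orb_odd hOodd a)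
    exact hout u huN d' ⟨hu2, hd'⟩ (hKR d' hd'K)
  have hfullK : ∀ x ∈ K, ∀ z ∈ K, x ≠ z → pe G p x z = e := by
    intro x hx z hz' hxz
    refine (pfix x (hKR x hx) z (hKR z hz') hxz).resolve_right fun hxzf => ?_
    obtain ⟨w, hwN, hw2, hwx, -⟩ := swp x (hKR x hx) z (hKR z hz') hxz hxzf
    have hinv : ∀ v ∈ K, w • v ∈ K := by
      intro v hv
      have hv' : v ∈ orb O x := by rw [orb_eq hx]; exact hv
      have := orb_smul (hOn w hwN) hv'
      rwa [hwx, orb_eq hz'] at this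
    obtain ⟨d', hd'K, hd'⟩ := exists_fix_mem hw2 hinv (orb_odd hOodd a)
    exact hout w hwN d' ⟨hw2, hd'⟩ (hKR d' hd'K)
  have hstabK : ∀ g ∈ normalizer (R : Set G), ∀ c ∈ K, g • c ∈ K → ∀ v ∈ K, g • v ∈ K := by
    intro g hg c hc hgc v hv
    have hv' : v ∈ orb O c := by rw [orb_eq hc]; exact hv
    have := orb_smul (hOn g hg) hv'
    rwa [orb_eq hgc] at this
  -- `K` has a second point
  obtain ⟨x, hxK, hxa⟩ : ∃ x ∈ K, x ≠ a := by
    have hlt : R < S := lt_of_le_of_ne hRS fun h => hfe.ne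
      (Nat.pow_right_injective (Fact.out (p := p.Prime)).two_le (show p ^ f = p ^ e by rw [← hRc, ← hSc, h]))
    obtain ⟨q, hq, hqR⟩ := SetLike.exists_of_lt (H23.lt_inf_normalizer hSp hlt)
    have hqa : q • a = a := (hSX hq.1).1
    by_contra hno
    push_neg at hno
    -- then `q` would fix `y`
    have huqu := hz u huN hu2 q hq.2
    have hqy : q • y = y := by
      have h1 : (u * q * u⁻¹ * q⁻¹) • (q • y) = u • q • a := by
        rw [← mul_smul, inv_mul_cancel_right, mul_smul, mul_smul, H28.inv_eq_self_of_orderOf_two hu2,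
          swap_back hu2 hua]
      rw [hqa, hua] at h1
      have h2 : q • y ∈ orb O y := ⟨(u * q * u⁻¹ * q⁻¹)⁻¹, inv_mem huqu, by rw [inv_smul_eq_iff, h1]⟩
      have h3 := orb_smul (hOn u huN) h2
      rw [swap_back hu2 hua] at h3
      have h4 := hno _ h3
      rw [← PartE.smul_smul_self hu2 (q • y), h4, hua]
    have hbig : Nat.card ↥(S ⊓ pairStab a y) ≤ p ^ f := by
      rw [← hpay]
      exact card_le_pow (hSp.to_le inf_le_left) inf_le_right
    have hle : R ≤ S ⊓ pairStab a y := le_inf hRS hRay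
    have := Subgroup.eq_of_le_of_card_ge hle (hRc ▸ hbig)
    exact hqR (this ▸ ⟨hq.1, mem_pairStab.2 ⟨hqa, hqy⟩⟩)
  -- large subgroups fix few points
  have claim : ∀ Y : Subgroup G, IsPGroup p Y → R < Y → a ∈ fixPts Y →
      ∀ v ∈ (fixPts Y : Set Ω), ∀ v' ∈ fixPts Y, v ≠ a → v' ≠ a → v = v' := by
    by_contra hno
    push_neg at hno
    obtain ⟨Y1, hY1⟩ := hno
    let Cand : Set (Subgroup G) := {Y | IsPGroup p Y ∧ R < Y ∧ a ∈ fixPts Y ∧
      ∃ v ∈ fixPts Y, ∃ v' ∈ fixPts Y, v ≠ a ∧ v' ≠ a ∧ v ≠ (v' : Ω)}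
    obtain ⟨Y, ⟨hYp, hRY, haY, v, hv, v', hv', hva, hv'a, hvv⟩, hYmax⟩ :=
      (Set.toFinite Cand).exists_maximalFor id Cand ⟨Y1, hY1⟩
    have big : ∀ P : Subgroup G, IsPGroup p P → Y < P → a ∈ fixPts P →
        ∀ q ∈ (fixPts P : Set Ω), ∀ q' ∈ fixPts P, q ≠ a → q' ≠ a → q = q' := by
      intro P hPp hYP haP q hq q' hq' h1 h2
      by_contra h3
      exact hYP.not_ge (hYmax (j := P) ⟨hPp, hRY.trans hYP, haP, q, hq, q', hq', h1, h2, h3⟩ hYP.le)
    have hfY : f < (Nat.card Y).factorization p := by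
      obtain ⟨k, hk⟩ := hYp.exists_card_eq
      rw [hk, (Fact.out (p := p.Prime)).factorization_pow, Finsupp.single_eq_same]
      have := Subgroup.card_le_of_le hRY.le
      rw [hRc, hk, Nat.pow_le_pow_iff_right (Fact.out (p := p.Prime)).one_lt] at this
      refine lt_of_le_of_ne this fun heq => hRY.ne (Subgroup.eq_of_le_of_card_ge hRY.le ?_)
      rw [hRc, hk, heq]
    have fullY : ∀ c ∈ (fixPts Y : Set Ω), ∀ z ∈ (fixPts Y : Set Ω), c ≠ z → pe G p c z = e := by
      intro c hc z hz' hcz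
      refine gap c z hcz (lt_of_lt_of_le hfY ?_)
      obtain ⟨k, hk⟩ := hYp.exists_card_eq
      rw [hk, (Fact.out (p := p.Prime)).factorization_pow, Finsupp.single_eq_same]
      exact (Nat.pow_le_pow_iff_right (Fact.out (p := p.Prime)).one_lt).1
        (hk ▸ card_le_pow hYp (le_pairStab_iff.2 ⟨hc, hz'⟩))
    -- the local `p`-groups
    have loc : ∀ c ∈ (fixPts Y : Set Ω), ∀ z ∈ (fixPts Y : Set Ω), c ≠ z → ∃ P : Subgroup G, IsPGroup p P ∧
        P ≤ normalizer (Y : Set G) ∧ P ≤ pairStab c z ∧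
        (a ∈ fixPts P → ∀ q ∈ (fixPts P : Set Ω), q = a ∨ q = c ∨ q = z) := by
      intro c hc z hz' hcz
      obtain ⟨Sc, hYSc, hScX, hScp, hScc⟩ := exists_syl (p := p)
        (le_pairStab_iff.2 ⟨hc, hz'⟩ : Y ≤ pairStab c z) hYp
      have hlt : Y < Sc := by
        refine lt_of_le_of_ne hYSc fun h => ?_
        -- a Sylow subgroup of a full pair fixes two points only
        obtain ⟨k, hkc, hkz⟩ := pair_conj hS hR hab hmax hbad hSp hSX hSc hF hcz (fullY c hc z hz' hcz)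
        have hkX : cj k Sc ≤ pairStab a b := by
          rw [← hkc, ← hkz, ← cj_pairStab]; exact map_mono hScX
        obtain ⟨l, hl, hlS⟩ := exists_cj hkX hSX
          (by rw [card_cj, hScc]; exact congrArg (p ^ ·) (fullY c hc z hz' hcz)) hSc
        have hmove : ∀ q ∈ (fixPts Y : Set Ω), q = c ∨ q = z := by
          intro q hq
          have : (l * k) • q ∈ fixPts S := by
            intro s hs
            rw [← hlS, mem_cj, mem_cj, ← h] at hs
            have h' := hq _ hs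
            simp only [mul_smul, inv_smul_eq_iff] at h'
            rw [mul_smul]; exact h'
          rw [hF] at this
          rcases this with h' | h'
          · exact Or.inl (MulAction.injective (l * k) (h'.trans (by simp only [mul_smul, hkc, (mem_pairStab.1 hl).1])))
          · exact Or.inr (MulAction.injective (l * k) (h'.trans (by simp only [mul_smul, hkz, (mem_pairStab.1 hl).2])))
        rcases hmove a haY with e1 | e1 <;> rcases hmove v hv with e2 | e2 <;>
          rcases hmove v' hv' with e3 | e3 <;>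
          first | exact hva (e2.trans e1.symm) | exact hv'a (e3.trans e1.symm) | exact hvv (e2.trans e3.symm)
      refine ⟨Sc ⊓ normalizer (Y : Set G), hScp.to_le inf_le_left, inf_le_right,
        inf_le_left.trans hScX, fun haP q hq => ?_⟩
      have hYP := H23.lt_inf_normalizer hScp hlt
      have hcP : c ∈ fixPts (Sc ⊓ normalizer (Y : Set G)) := fun s hs => (hScX hs.1).1
      have hzP : z ∈ fixPts (Sc ⊓ normalizer (Y : Set G)) := fun s hs => (hScX hs.1).2
      by_cases hqa : q = a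
      · exact Or.inl hqa
      right
      by_cases hca : c = a
      · exact Or.inr (big _ (hScp.to_le inf_le_left) hYP haP q hq z hzP hqa (fun h => hcz (hca.trans h.symm)))
      · exact Or.inl (big _ (hScp.to_le inf_le_left) hYP haP q hq c hcP hqa hca)
    have htransA : ∀ q ∈ (fixPts Y : Set Ω) \ {a}, ∀ q' ∈ fixPts Y \ {a},
        ∃ h ∈ normalizer (Y : Set G) ⊓ MulAction.stabilizer G a, h • q = q' := by
      refine trans_of_local (p := p) (fun h hh q hq => ⟨smul_fixPts hh.1 hq.1, fun hqa => hq.2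
        (MulAction.injective h (hqa.trans (MulAction.mem_stabilizer_iff.1 hh.2).symm))⟩) fun q hq => ?_
      obtain ⟨P, hPp, hPN, hPX, hP⟩ := loc a haY q hq.1 (Ne.symm hq.2)
      obtain ⟨haP, hqP⟩ := le_pairStab_iff.1 hPX
      refine ⟨P, le_inf hPN fun s hs => (hPX hs).1, hPp, fun s hs => hqP s hs, fun z hz' hzP => ?_⟩
      rcases hP haP z hzP with h | h | h
      · exact absurd h hz'.2
      · exact absurd h hz'.2
      · exact h
    obtain ⟨g1, hg1, hg1a⟩ : ∃ g1 ∈ normalizer (Y : Set G), g1 • a ≠ a := by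
      obtain ⟨P, hPp, hPN, hPX, hP⟩ := loc v hv v' hv' hvv
      by_contra hall
      push_neg at hall
      have haP : a ∈ fixPts P := fun s hs => hall s (hPN hs)
      -- `P` fixes `a`, `v`, `v'`
      obtain ⟨hvP, hv'P⟩ := le_pairStab_iff.1 hPX
      obtain ⟨Sc, hYSc, hScX, hScp, hScc⟩ := exists_syl (p := p)
        (le_pairStab_iff.2 ⟨hv, hv'⟩ : Y ≤ pairStab v v') hYp
      have hne2 : Y ≠ Sc := fun h => by
        obtain ⟨k, hkc, hkz⟩ := pair_conj hS hR hab hmax hbad hSp hSX hSc hF hvv (fullY v hv v' hv' hvv)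
        have hkX : cj k Sc ≤ pairStab a b := by
          rw [← hkc, ← hkz, ← cj_pairStab]; exact map_mono hScX
        obtain ⟨l, hl, hlS⟩ := exists_cj hkX hSX
          (by rw [card_cj, hScc]; exact congrArg (p ^ ·) (fullY v hv v' hv' hvv)) hSc
        have : (l * k) • a ∈ fixPts S := by
          intro s hs
          rw [← hlS, mem_cj, mem_cj, ← h] at hs
          have h' := haY _ hs
          simp only [mul_smul, inv_smul_eq_iff] at h'
          rw [mul_smul]; exact h'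
        rw [hF] at this
        rcases this with h' | h'
        · exact hva (MulAction.injective (l * k) (h'.trans (by simp only [mul_smul, hkc, (mem_pairStab.1 hl).1]))).symm
        · exact hv'a (MulAction.injective (l * k) (h'.trans (by simp only [mul_smul, hkz, (mem_pairStab.1 hl).2]))).symm
      have hYP := H23.lt_inf_normalizer hScp (lt_of_le_of_ne hYSc hne2)
      exact hvv (big _ (hScp.to_le inf_le_left) hYP (fun s hs => hall s hs.2) v
        (fun s hs => (hScX hs.1).1) v' (fun s hs => (hScX hs.1).2) hva hv'a)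
    have hg1F : g1 • a ∈ fixPts Y \ {a} := ⟨smul_fixPts hg1 haY, hg1a⟩
    have htrans : ∀ q ∈ (fixPts Y : Set Ω), ∃ h ∈ normalizer (Y : Set G), h • a = q := by
      intro q hq
      by_cases hqa : q = a
      · exact ⟨1, one_mem _, by rw [one_smul, hqa]⟩
      obtain ⟨h, hh, hhq⟩ := htransA _ hg1F q ⟨hq, hqa⟩
      exact ⟨h * g1, mul_mem hh.1 hg1, by rw [mul_smul, hhq]⟩
    obtain ⟨t, htN, ht2, d', hd'F, htd'⟩ :
        ∃ t ∈ normalizer (Y : Set G), orderOf t = 2 ∧ ∃ d' ∈ fixPts Y, t • d' = d' := by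
      by_contra hno'
      push_neg at hno'
      have hYout : ∀ t ∈ normalizer (Y : Set G), ∀ d' : Ω, InvAt t d' → d' ∉ fixPts Y :=
        fun t ht d' hd' hF' => hno' t ht hd'.1 d' hF' hd'.2
      obtain ⟨O', hO'N, hO'odd, hO'n, hz', -⟩ := exists_odd_core hS
        ((PartE.pairStab_odd hS (Ne.symm hva)).of_dvd_nat
          (card_dvd_of_le (le_pairStab_iff.2 ⟨haY, hv⟩))) hYout
      -- an involution in the normaliser
      obtain ⟨h, hh, hha⟩ := htrans v hv
      have hne' : h • v ≠ v := fun e => hva (MulAction.injective h (e.trans hha.symm))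
      obtain ⟨h', hh', hh'v⟩ := htrans v hv
      have hvin : h'⁻¹ • (h • v) ∈ fixPts Y \ {a} := by
        refine ⟨smul_fixPts (inv_mem hh') (smul_fixPts hh hv), fun e => ?_⟩
        rw [Set.mem_singleton_iff, inv_smul_eq_iff, hh'v] at e
        exact hne' e
      have hain : h'⁻¹ • a ∈ fixPts Y \ {a} := by
        refine ⟨smul_fixPts (inv_mem hh') haY, fun e => ?_⟩
        rw [Set.mem_singleton_iff, inv_smul_eq_iff, hh'v] at e
        exact hva e.symm
      obtain ⟨k, hk, hkq⟩ := htransA _ hvin _ hain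
      have hs1 : (h' * k * h'⁻¹ * h) • a = v := by
        rw [mul_smul, mul_smul, mul_smul, hha, inv_smul_eq_iff.2 hh'v.symm,
          MulAction.mem_stabilizer_iff.1 hk.2, hh'v]
      have hs2 : (h' * k * h'⁻¹ * h) • v = a := by
        rw [mul_smul, mul_smul, mul_smul, hkq, smul_inv_smul]
      obtain ⟨t, htN, ht2⟩ := involution_of_swap (H := normalizer (Y : Set G))
        (mul_mem (mul_mem (mul_mem hh' hk.1) (inv_mem hh')) hh) (Ne.symm hva) hs1 hs2
      by_cases hOtriv : ∀ o ∈ O', ∀ q ∈ (fixPts Y : Set Ω), o • q = q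
      · -- `t` is central on the fixed points
        have hta : t • a ∈ fixPts Y \ {a} :=
          ⟨smul_fixPts htN haY, fun e => hno' t htN ht2 a haY e⟩
        obtain ⟨x', hx', hx'ne⟩ : ∃ x' ∈ fixPts Y \ {a}, x' ≠ t • a := by
          by_cases h1 : v = t • a
          · exact ⟨v', ⟨hv', hv'a⟩, fun h2 => hvv (h1.trans h2.symm)⟩
          · exact ⟨v, ⟨hv, hva⟩, h1⟩
        obtain ⟨k', hk', hk'q⟩ := htransA _ hta x' hx'
        apply hx'ne
        have hmem := hz' t htN ht2 k' hk'.1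
        have hfix := hOtriv _ hmem (k' • t • a) (smul_fixPts hk'.1 hta.1)
        have hka := MulAction.mem_stabilizer_iff.1 hk'.2
        rw [← hk'q]
        calc k' • t • a = (t * k' * t⁻¹ * k'⁻¹) • (k' • t • a) := hfix.symm
          _ = t • a := by
            rw [← mul_smul, inv_mul_cancel_right, mul_smul, inv_smul_smul, mul_smul, hka]
      · push_neg at hOtriv
        obtain ⟨o, ho, q, hq, hoq⟩ := hOtriv
        -- `O'` moves `a`
        obtain ⟨l, hl, hlq⟩ := htrans q hq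
        have ho' : l⁻¹ * o * l ∈ O' := by simpa using hO'n l⁻¹ (inv_mem hl) o ho
        have hoa : (l⁻¹ * o * l) • a ≠ a := by
          rw [mul_smul, mul_smul, hlq, Ne, inv_smul_eq_iff, hlq]
          exact hoq
        have hwhole : ∀ q' ∈ fixPts Y, q' ∈ orb O' a := by
          intro q' hq'
          by_cases h1 : q' = a
          · exact ⟨1, one_mem _, by rw [one_smul, h1]⟩
          obtain ⟨k', hk', hk'q⟩ := htransA _ ⟨smul_fixPts (hO'N ho') haY, hoa⟩ q' ⟨hq', h1⟩
          refine ⟨k' * (l⁻¹ * o * l) * k'⁻¹, hO'n k' hk'.1 _ ho', ?_⟩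
          rw [mul_smul, inv_smul_eq_iff.2 (MulAction.mem_stabilizer_iff.1 hk'.2).symm, mul_smul, hk'q]
        have horbF : ∀ q' ∈ orb O' a, q' ∈ fixPts Y := by
          rintro _ ⟨o', ho'', rfl⟩; exact smul_fixPts (hO'N ho'') haY
        obtain ⟨d', hd'K, hd'⟩ := exists_fix_mem ht2
          (fun z hz'' => hwhole _ (smul_fixPts htN (horbF z hz''))) (orb_odd hO'odd a)
        exact hno' t htN ht2 d' (horbF d' hd'K) hd'
    obtain ⟨h, hh, hhd⟩ := htrans d' hd'F
    have hv0 := PartE.invAt_conj (x := d') ⟨ht2, htd'⟩ h⁻¹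
    rw [inv_smul_eq_iff.2 hhd.symm] at hv0
    set t0 := h⁻¹ * t * h⁻¹⁻¹ with ht0
    have ht0N : t0 ∈ normalizer (Y : Set G) := mul_mem (mul_mem (inv_mem hh) htN) (inv_mem (inv_mem hh))
    -- count
    refine noTR hYp (Ne.symm hva) (le_pairStab_iff.2 ⟨haY, hv⟩) (fullY a haY v hv (Ne.symm hva)) hv0 ht0N ?_
    have hcR := card_inf_mul_le (p := p) hS hR hay hv0 hRp hRay (hRc.trans (by rw [hpay]))
    set C := centralizer ({t0} : Set G)
    have hrel : C.relIndex R ≤ C.relIndex Y := relIndex_le_of_le_right hRY.le (by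
      intro h0
      have := card_inf_mul Y C
      rw [h0, mul_zero] at this
      exact Nat.card_pos.ne' this.symm)
    rw [← card_inf_mul R C] at hcR
    rw [← card_inf_mul Y C]
    exact Nat.mul_le_mul_left _ ((Nat.le_of_mul_le_mul_left hcR Nat.card_pos).trans hrel)
  -- the stabiliser of `K` has an involution
  let H : Subgroup G := normalizer (R : Set G) ⊓ setStab (G := G) K
  have hmemH : ∀ g ∈ normalizer (R : Set G), ∀ c ∈ K, g • c ∈ K → g ∈ H := by
    intro g hg c hc hgc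
    refine ⟨hg, fun z => ⟨fun h => ?_, fun h => hstabK g hg c hc hgc z h⟩⟩
    have := hstabK g⁻¹ (inv_mem hg) (g • c) hgc (by rwa [inv_smul_smul]) _ h
    rwa [inv_smul_smul] at this
  have hlocK : ∀ q ∈ K \ {a}, ∃ P : Subgroup G, P ≤ H ⊓ MulAction.stabilizer G a ∧ IsPGroup p P ∧
      (∀ s ∈ P, s • q = q) ∧ ∀ z ∈ K \ {a}, (∀ s ∈ P, s • z = z) → z = q := by
    rintro q ⟨hqK, hqa⟩
    obtain ⟨Sq, hRSq, hSqX, hSqp, hSqc⟩ := exists_syl (p := p)
      (le_pairStab_iff.2 ⟨haR, hKR q hqK⟩ : R ≤ pairStab a q) hRp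
    have hlt : R < Sq := lt_of_le_of_ne hRSq fun h => by
      have h1 : pe G p a q = f := Nat.pow_right_injective (Fact.out (p := p.Prime)).two_le
        (show p ^ pe G p a q = p ^ f by rw [← hRc, h]; exact hSqc.symm)
      rw [hfullK a haK q hqK (Ne.symm hqa)] at h1
      exact hfe.ne h1.symm
    have hRP := H23.lt_inf_normalizer hSqp hlt
    refine ⟨Sq ⊓ normalizer (R : Set G), fun s hs => ⟨hmemH s hs.2 a haK
      (by rw [(hSqX hs.1).1]; exact haK), (hSqX hs.1).1⟩, hSqp.to_le inf_le_left,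
      fun s hs => (hSqX hs.1).2, fun z hz' hzP => ?_⟩
    exact claim _ (hSqp.to_le inf_le_left) hRP (fun s hs => (hSqX hs.1).1) z hzP q
      (fun s hs => (hSqX hs.1).2) hz'.2 hqa
  have htrK := trans_of_local (p := p) (H := H ⊓ MulAction.stabilizer G a) (F := K \ {a})
    (fun g hg z hz' => ⟨(hg.1.2 z).2 hz'.1, fun e => hz'.2
      (MulAction.injective g (e.trans (MulAction.mem_stabilizer_iff.1 hg.2).symm))⟩) hlocK
  obtain ⟨o, ho, hoa⟩ := hxK
  have hox : o • x ∈ K := by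
    obtain ⟨o', ho', ho'x⟩ : x ∈ K := ⟨o, ho, hoa⟩
    exact ⟨o * o', mul_mem ho ho', by rw [mul_smul, ho'x]⟩
  have hoxne : o • x ≠ x := fun e => hxa (MulAction.injective o (e.trans hoa.symm))
  have hxK' : x ∈ K := ⟨o, ho, hoa⟩
  -- an element exchanging `a` and `x`
  have hin1 : o⁻¹ • (o • x) ∈ K \ {a} := by rw [inv_smul_smul]; exact ⟨hxK', hxa⟩
  have hin2 : o⁻¹ • a ∈ K \ {a} := by
    refine ⟨⟨o⁻¹, inv_mem ho, rfl⟩, fun e => ?_⟩
    rw [Set.mem_singleton_iff, inv_smul_eq_iff, hoa] at e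
    exact hxa e.symm
  obtain ⟨k, hk, hkq⟩ := htrK _ hin1 _ hin2
  have hoH : o ∈ H := hmemH o (hON ho) a haK (by rw [hoa]; exact hxK')
  have hs1 : (o * k) • a = x := by rw [mul_smul, MulAction.mem_stabilizer_iff.1 hk.2, hoa]
  have hs2 : (o * k) • x = a := by
    rw [inv_smul_smul] at hkq
    rw [mul_smul, hkq, smul_inv_smul]
  obtain ⟨t, htH, ht2⟩ := involution_of_swap (mul_mem hoH hk.1) (Ne.symm hxa) hs1 hs2
  obtain ⟨d', hd'K, hd'⟩ := exists_fix_mem ht2 (fun z hz' => (htH.2 z).2 hz') (orb_odd hOodd a)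
  exact hout t htH.1 d' ⟨ht2, hd'⟩ (hKR d' hd'K)

end main

end KT

/-- PLAN sec. 6: a bad pair with the largest `p`-part forces 2-transitivity. -/
theorem twoTrans_of_bad (hS : Setting G Ω) (hR : Rich Ω (⊤ : Subgroup G)) {p : ℕ} (hp : p.Prime)
    {a b : Ω} (hab : a ≠ b)
    (hmax : ∀ x y : Ω, x ≠ y → (Nat.card (pairStab (G := G) x y)).factorization p ≤
      (Nat.card (pairStab (G := G) a b)).factorization p)
    (hbad : ∀ (t : G) (S : Subgroup G), InvAt t a → S ≤ pairStab a b → IsPGroup p S →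
      Nat.card S = p ^ (Nat.card (pairStab (G := G) a b)).factorization p →
      t ∉ Subgroup.normalizer (S : Set G)) :
    TwoTrans (⊤ : Subgroup G) (Set.univ : Set Ω) := by
  haveI : Fact p.Prime := ⟨hp⟩
  obtain ⟨S, hSp, hSX, hSc, hF⟩ := KT.exists_S hS hR hab hmax hbad
  intro x _ y _ x' _ y' _ hxy hxy'
  obtain ⟨g, hg1, hg2⟩ := KT.pair_conj hS hR hab hmax hbad hSp hSX hSc hF hxy
    (KT.all_full hS hR hab hmax hbad x y hxy)
  obtain ⟨g', hg1', hg2'⟩ := KT.pair_conj hS hR hab hmax hbad hSp hSX hSc hF hxy'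
    (KT.all_full hS hR hab hmax hbad x' y' hxy')
  exact ⟨g'⁻¹ * g, mem_top _, by rw [mul_smul, hg1, ← hg1', inv_smul_smul],
    by rw [mul_smul, hg2, ← hg2', inv_smul_smul]⟩

end Cfsg.Agent.H14.Bender
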