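import Cfsg.Agent.H14.Bender.FinalBase
import Cfsg.Agent.H14.Bender.KTheorem

/-!
No configuration holds all involutions at a point, and double transitivity when no inverted element
fixes two points (`PLAN.md`, section 7).
-/

set_option autoImplicit false

namespace Cfsg.Agent.H14.Bender

universe u

variable {G : Type u} [Group G] {Ω : Type u} [MulAction G Ω]

namespace Final

open IHFacts

/-- With the prime chosen, failure of double transitivity is impossible. -/
theorem FullAt.twoTrans [Finite G] [Finite Ω] (hS : Setting G Ω)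
    (hR : Rich Ω (⊤ : Subgroup G)) (hIH : IH.{u} (Nat.card G)) {M : Subgroup G} {c z : Ω}
    (hF : FullAt M c) {u : G} (hu : InvAt u c) (hz : z ∈ apexSet M) (hzc : z ≠ c) {p : ℕ}
    [Fact p.Prime]
    (hlt : (J u c z).ncard.factorization p < {t : G | InvAt t c}.ncard.factorization p) :
    TwoTrans (⊤ : Subgroup G) (Set.univ : Set Ω) := by
  have hp : p.Prime := Fact.out
  haveI : Nonempty {q : Ω × Ω // q.1 ≠ q.2} := ⟨⟨(z, c), hzc⟩⟩
  obtain ⟨⟨⟨a, b⟩, hab⟩, hmax⟩ := Finite.exists_max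
    (fun q : {q : Ω × Ω // q.1 ≠ q.2} => (Nat.card (pairStab (G := G) q.1.1 q.1.2)).factorization p)
  obtain ⟨g, rfl⟩ := hS.exists_smul a c
  set y := g • b with hy
  have hcy : g • a ≠ y := fun h => hab (smul_left_cancel g h)
  refine twoTrans_of_bad hS hR hp hcy (fun x w hxw => ?_) ?_
  · rw [hy, card_pairStab_smul]
    exact hmax ⟨(x, w), hxw⟩
  intro t S ht hSD hSp hScard htS
  set Y := fixTo (G := G) (apexSet M : Set Ω) with hYdef
  have hc := hF.mem_apexSet hu
  have hodd : Odd (Nat.card ↥(pairStab (G := G) (g • a) y)) := odd_of_le_pairStab hS hcy le_rfl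
  have hlow := pow_le_ncard_inverted ht.1 hodd hSD htS hScard
  rw [← ncard_invAt hS hR hcy ht le_rfl (fun x hx => hx.1)] at hlow
  have htM := hF.mem t ht
  have hY : Odd (Nat.card Y) :=
    odd_of_le_pairStab hS hzc fun x hx => ⟨hx z hz, hx _ hc⟩
  have hYn : t ∈ Subgroup.normalizer (Y : Set G) :=
    mem_normalizer_fixTo (fun x hx => smul_mem_apexSet htM hx)
      (fun x hx => smul_mem_apexSet (inv_mem htM) hx)
  obtain ⟨z', hz', hz'c, hfix⟩ := hF.exists_fixed_other hS hR hIH hu hz hzc hlt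
    (Q := S ⊓ M) inf_le_right (hSp.to_le inf_le_left) (fun q hq => (hSD hq.1).1)
  have hsub : {j | j ∈ S ∧ t * j * t⁻¹ = j⁻¹} ⊆
      {j | j ∈ S ⊓ Y ∧ t * j * t⁻¹ = j⁻¹} := by
    rintro j ⟨hjS, hjt⟩
    refine ⟨⟨hjS, ?_⟩, hjt⟩
    have hjc : j • (g • a) = g • a := (hSD hjS).1
    have hjy : j • y = y := (hSD hjS).2
    have h := mul_mem (inv_mem htM)
      (hF.mem _ (invAt_mul_of_mem_J hS ht hcy.symm ⟨hjc, hjy, hjt⟩))
    rw [inv_mul_cancel_left] at h
    exact hF.J_subset hS hIH ht hz' hz'c ⟨hjc, hfix j ⟨hjS, h⟩, hjt⟩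
  have hRu : t ∈ Subgroup.normalizer ((S ⊓ Y : Subgroup G) : Set G) := by
    rw [Subgroup.mem_normalizer_iff]
    intro x
    rw [Subgroup.mem_inf, Subgroup.mem_inf, ← Subgroup.mem_normalizer_iff.1 htS x,
      ← Subgroup.mem_normalizer_iff.1 hYn x]
  obtain ⟨T, hRT, hTY, hTn, -, hTcard, -⟩ := exists_invariant_sylow ht.1 hY hYn p
    (R := S ⊓ Y) inf_le_right (hSp.to_le inf_le_left) hRu
  have hup : {j | j ∈ S ∧ t * j * t⁻¹ = j⁻¹}.ncard ≤
      p ^ ((J u (g • a) z).ncard).factorization p := by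
    rw [← ncard_J_indep hS hR hzc.symm hu ht, hF.J_eq hS hIH ht hz hzc,
      ncard_inverted ht.1 hY hYn, ← ncard_inverted_sylow ht.1 hY hYn hTY hTn hTcard]
    exact Set.ncard_le_ncard (hsub.trans fun j hj => ⟨hRT hj.1, hj.2⟩)
  have := hlow.trans hup
  rw [Nat.pow_le_pow_iff_right hp.one_lt] at this
  omega

end Final

open IHFacts Final

variable [Finite G] [Finite Ω]

/-- Without inverted elements fixing two points the action is doubly transitive. -/
theorem twoTrans_of_noJ (hS : Setting G Ω) (hR : Rich Ω (⊤ : Subgroup G)) (hJ : NoJ G Ω) :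
    TwoTrans (⊤ : Subgroup G) (Set.univ : Set Ω) := by
  obtain ⟨a₀, ha₀⟩ := hR.2.nonempty
  obtain ⟨s, -, t, -, hs, ht, hst, -⟩ := exists_comm_at hS hR ha₀
  have hm : 1 < {v : G | InvAt v a₀}.ncard := (Set.one_lt_ncard (Set.toFinite _)).2
    ⟨s, hs, t, ht, hst⟩
  obtain ⟨p, hp, hpm⟩ := Nat.exists_prime_and_dvd hm.ne'
  haveI := Fact.mk hp
  obtain ⟨b₀, hb₀⟩ := hS.exists_ne a₀
  haveI : Nonempty {q : Ω × Ω // q.1 ≠ q.2} := ⟨⟨(b₀, a₀), hb₀⟩⟩
  obtain ⟨⟨⟨a, b⟩, hab⟩, hmax⟩ := Finite.exists_max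
    (fun q : {q : Ω × Ω // q.1 ≠ q.2} => (Nat.card (pairStab (G := G) q.1.1 q.1.2)).factorization p)
  obtain ⟨g, rfl⟩ := hS.exists_smul a a₀
  have hgab : g • a ≠ g • b := fun h => hab (smul_left_cancel g h)
  refine twoTrans_of_bad hS hR hp hgab (fun x w hxw => ?_) ?_
  · rw [card_pairStab_smul]
    exact hmax ⟨(x, w), hxw⟩
  intro v S hv hSD _ hScard hvS
  have hlow := pow_le_ncard_inverted hv.1 (odd_of_le_pairStab hS hgab le_rfl) hSD hvS hScard
  rw [← ncard_invAt hS hR hgab hv le_rfl (fun x hx => hx.1)] at hlow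
  have hone : {j | j ∈ S ∧ v * j * v⁻¹ = j⁻¹}.ncard ≤ 1 := by
    rw [Set.ncard_le_one (Set.toFinite _)]
    rintro i ⟨hi, hiv⟩ j ⟨hj, hjv⟩
    rw [hJ v _ _ hv hgab.symm i ⟨(hSD hi).1, (hSD hi).2, hiv⟩,
      hJ v _ _ hv hgab.symm j ⟨(hSD hj).1, (hSD hj).2, hjv⟩]
  have h1 : 1 ≤ {v : G | InvAt v (g • a)}.ncard.factorization p :=
    hp.factorization_pos_of_dvd (by omega) hpm
  have := (Nat.pow_le_pow_right hp.pos h1).trans (hlow.trans hone)
  rw [pow_one] at this
  exact absurd this (not_le.2 hp.one_lt)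

/-- No proper rich subgroup holds all involutions at a point with inverted elements. -/
theorem not_full (hS : Setting G Ω) (hR : Rich Ω (⊤ : Subgroup G))
    (hIH : IH.{u} (Nat.card G)) : ¬ Full G Ω := by
  rintro ⟨M, u, c, z, hM, hne, hz, ⟨hu, hzc, -⟩, hJ1, hI⟩
  have hF : FullAt M c := ⟨hM, hne, hI⟩
  set m := {t : G | InvAt t c}.ncard with hmdef
  set q := (J u c z).ncard with hqdef
  -- a prime dividing the number of classes
  obtain ⟨p, hp, hlt⟩ : ∃ p : ℕ, p.Prime ∧ q.factorization p < m.factorization p := by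
    obtain ⟨s, -, t, -, hs, ht, hst, hcom⟩ := exists_comm_at hS hM (hF.mem_apexSet hu)
    have himg : 1 < ((fun t : G => t • z) '' {t : G | InvAt t c}).ncard := by
      refine (Set.one_lt_ncard (Set.toFinite _)).2 ⟨_, ⟨s, hs, rfl⟩, _, ⟨t, ht, rfl⟩, fun h => ?_⟩
      have hst2 : orderOf (s * t) = 2 := by
        refine orderOf_eq_prime ?_ fun h1 => hst ?_
        · rw [hcom.mul_pow, sq, sq, sq_eq_one hs.1, sq_eq_one ht.1, one_mul]
        · rw [eq_inv_of_mul_eq_one_left h1, inv_eq_self ht.1]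
      refine hzc (hS.fix_unique _ hst2 z c ?_ (by rw [mul_smul, ht.2, hs.2]))
      have h' : s • z = t • z := h
      rw [mul_smul, ← h', ← mul_smul, sq_eq_one hs.1, one_smul]
    obtain ⟨p, hp, hpd⟩ := Nat.exists_prime_and_dvd himg.ne'
    refine ⟨p, hp, ?_⟩
    rw [hmdef, ncard_invAt_eq_mul hS hR hu hzc, ← hqdef,
      Nat.factorization_mul (by omega) (by omega), Finsupp.add_apply]
    have := hp.factorization_pos_of_dvd (by omega) hpd
    omega
  haveI := Fact.mk hp
  have h2T := hF.twoTrans hS hR hIH hu hz hzc hlt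
  -- the group generated by the involutions at `c` and its odd core
  set U : Subgroup G := Subgroup.closure {t : G | InvAt t c} with hU
  have huU : u ∈ U := Subgroup.subset_closure hu
  have hUc : ∀ x ∈ U, x • c = c := by
    intro x hx
    have : U ≤ MulAction.stabilizer G c := (Subgroup.closure_le _).2 fun t ht => ht.2
    exact this hx
  obtain ⟨N, hNU, hNodd, hUN, hNmax⟩ := exists_oddCore U
  have hGU : ∀ x : G, x • c = c → U.map (MulAut.conj x).toMonoidHom ≤ U := by
    intro x hx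
    rw [hU, MonoidHom.map_closure, Subgroup.closure_le]
    rintro _ ⟨t, ht, rfl⟩
    refine Subgroup.subset_closure ?_
    have h := invAt_conj ht x
    rw [hx] at h
    exact h
  have hGN : MulAction.stabilizer G c ≤ Subgroup.normalizer (N : Set G) := by
    intro x hx
    refine mem_normalizer_of_map_eq (Subgroup.eq_of_le_of_card_ge (hNmax _ ?_ ?_ ?_)
      (le_of_eq (Subgroup.card_map_of_injective (MulAut.conj x).injective).symm))
    · exact (Subgroup.map_mono hNU).trans (hGU x hx)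
    · rwa [Subgroup.card_map_of_injective (MulAut.conj x).injective]
    · have hxinv : x⁻¹ • c = c := inv_smul_eq_iff.2 hx.symm
      intro y hy
      refine Subgroup.le_normalizer_map _ ⟨x⁻¹ * y * x, hUN ?_, ?_⟩
      · have := hGU _ hxinv ⟨y, hy, rfl⟩
        simpa using this
      · show x * (x⁻¹ * y * x) * x⁻¹ = y
        group
  have hdvd : (Subgroup.centralizer ({u} : Set G)).relIndex N ∣ m := by
    rw [hmdef, ncard_invAt hS hR hzc.symm hu (D := MulAction.stabilizer G c)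
      (fun x hx => hx.1) (fun x hx => hx)]
    exact relIndex_dvd_of_normal _ (fun x hx => hUc x (hNU hx)) hGN
  -- inverted elements in `U`
  have hJU : ∀ w, w ≠ c → J u c w ⊆ (U : Set G) := by
    intro w hw j hj
    have h := mul_mem (inv_mem huU)
      (Subgroup.subset_closure (invAt_mul_of_mem_J hS hu hw hj) : u * j ∈ U)
    rwa [inv_mul_cancel_left] at h
  -- the traces on `U` of the kernels at any point
  have hcore : ∀ (M' : Subgroup G) (w : Ω), FullAt M' c → w ∈ apexSet M' → w ≠ c →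
      U ⊓ fixTo (G := G) (apexSet M' : Set Ω) ≤ N ∧
        U ≤ Subgroup.normalizer ((U ⊓ fixTo (G := G) (apexSet M' : Set Ω) : Subgroup G) : Set G) ∧
        {j | j ∈ U ⊓ fixTo (G := G) (apexSet M' : Set Ω) ∧ u * j * u⁻¹ = j⁻¹} = J u c w := by
    intro M' w hF' hw hwc
    have hUM : U ≤ M' := (Subgroup.closure_le _).2 hF'.mem
    have hn : U ≤ Subgroup.normalizer
        ((U ⊓ fixTo (G := G) (apexSet M' : Set Ω) : Subgroup G) : Set G) := by
      intro x hx
      rw [Subgroup.mem_normalizer_iff]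
      intro y
      rw [Subgroup.mem_inf, Subgroup.mem_inf,
        ← Subgroup.mem_normalizer_iff.1 (Subgroup.le_normalizer hx) y,
        ← Subgroup.mem_normalizer_iff.1 (mem_normalizer_fixTo
          (fun v hv => smul_mem_apexSet (hUM hx) hv)
          (fun v hv => smul_mem_apexSet (inv_mem (hUM hx)) hv)) y]
    refine ⟨hNmax _ inf_le_left (odd_of_le_pairStab hS hwc fun x hx =>
      ⟨hx.2 w hw, hx.2 c (hF'.mem_apexSet hu)⟩) hn, hn, ?_⟩
    rw [hF'.J_eq hS hIH hu hw hwc]
    ext j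
    constructor
    · rintro ⟨⟨-, hj⟩, hju⟩
      exact ⟨hj, hju⟩
    · intro hj
      refine ⟨⟨hJU w hwc ?_, hj.1⟩, hj.2⟩
      rw [hF'.J_eq hS hIH hu hw hwc]
      exact hj
  -- every inverted element fixes every point
  obtain ⟨j, hj, hj1⟩ := Set.exists_ne_of_one_lt_ncard hJ1 1
  apply hj1
  refine hS.faithful j fun y => ?_
  by_cases hyc : y = c
  · rw [hyc]; exact hj.1
  obtain ⟨h, -, hhc, hhz⟩ := h2T c (Set.mem_univ _) z (Set.mem_univ _) c (Set.mem_univ _) y
    (Set.mem_univ _) hzc.symm (Ne.symm hyc)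
  set M' := M.map (MulAut.conj h).toMonoidHom with hM'
  have hy : y ∈ apexSet M' := by
    obtain ⟨v, hvM, hv⟩ := hz
    exact ⟨_, ⟨v, hvM, rfl⟩, hhz ▸ invAt_conj hv h⟩
  have hF' : FullAt M' c := by
    refine ⟨⟨?_, ⟨c, ?_, y, hy, Ne.symm hyc⟩⟩, ?_, ?_⟩
    · obtain ⟨s, hsM, t, htM, hs2, ht2, hst, hcom⟩ := hM.1
      exact ⟨_, ⟨s, hsM, rfl⟩, _, ⟨t, htM, rfl⟩,
        (orderOf_injective _ (MulAut.conj h).injective s).trans hs2,
        (orderOf_injective _ (MulAut.conj h).injective t).trans ht2,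
        fun e => hst ((MulAut.conj h).injective e), hcom.map _⟩
    · exact ⟨_, ⟨u, hI u hu, rfl⟩, hhc ▸ invAt_conj hu h⟩
    · intro htop
      refine hne (Subgroup.eq_top_of_card_eq M ?_)
      rw [← Subgroup.card_map_of_injective (K := M) (f := (MulAut.conj h).toMonoidHom)
        (MulAut.conj h).injective, ← hM', htop, Subgroup.card_top]
    · intro t ht
      have h' := invAt_conj ht h⁻¹
      rw [inv_smul_eq_iff.2 hhc.symm] at h'
      exact ⟨_, hI _ h', by simp [MulAut.conj_apply, mul_assoc]⟩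
  have hq' : (J u c y).ncard = q := by
    have e := ncard_J_conj h u c z
    rw [hhc, hhz] at e
    rw [hqdef, ← e]
    exact ncard_J_indep hS hR (Ne.symm hyc) (hhc ▸ invAt_conj hu h) hu
  obtain ⟨hA, -, hAJ⟩ := hcore M z hF hz hzc
  obtain ⟨hA', hA'n, hA'J⟩ := hcore M' y hF' hy hyc
  set A := U ⊓ fixTo (G := G) (apexSet M : Set Ω)
  set A' := U ⊓ fixTo (G := G) (apexSet M' : Set Ω)
  have hA'odd : Odd (Nat.card A') := hNodd.of_dvd_nat (Subgroup.card_dvd_of_le hA')
  have hjA : j ∈ A ∧ u * j * u⁻¹ = j⁻¹ := by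
    have h' := hj
    rw [← hAJ] at h'
    exact h'
  -- the primary components of `j` fix `y`
  set E := Subgroup.zpowers j ⊓ MulAction.stabilizer G y
  suffices hE : orderOf j ∣ Nat.card E by
    have he : E = Subgroup.zpowers j := Subgroup.eq_of_le_of_card_ge inf_le_left (by
      rw [Nat.card_zpowers]
      exact Nat.le_of_dvd Nat.card_pos hE)
    exact (he.symm ▸ Subgroup.mem_zpowers j : j ∈ E).2
  rw [Nat.dvd_iff_prime_pow_dvd_dvd]
  intro r k hr hrk
  haveI := Fact.mk hr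
  set e := j ^ (orderOf j / r ^ k) with he
  have heo : orderOf e = r ^ k := by
    rw [he, orderOf_pow_of_dvd
      (Nat.div_pos (Nat.le_of_dvd (orderOf_pos j) hrk) (pow_pos hr.pos k)).ne'
      (Nat.div_dvd_of_dvd hrk), Nat.div_div_self hrk (orderOf_pos j).ne']
  suffices hey : e • y = y by
    have : e ∈ E := ⟨Subgroup.npow_mem_zpowers j _, hey⟩
    rw [← heo, ← Subgroup.orderOf_mk e this]
    exact orderOf_dvd_natCard _
  have heA : e ∈ A := pow_mem hjA.1 _
  have heu : u * e * u⁻¹ = e⁻¹ := by rw [he, ← conj_pow, hjA.2, inv_pow]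
  have heU : e ∈ U := heA.1
  have hec : e • c = c := hUc e heU
  have hep : IsPGroup r (Subgroup.zpowers e) :=
    IsPGroup.of_card (n := k) (by rw [Nat.card_zpowers, heo])
  by_cases hr' : q.factorization r < m.factorization r
  · obtain ⟨y', hy', hy'c, hfix⟩ := hF'.exists_fixed_other hS hR hIH hu hy hyc
      (p := r) (by rw [hq']; exact hr') (Q := Subgroup.zpowers e)
      (Subgroup.zpowers_le.2 ((Subgroup.closure_le _).2 hF'.mem heU)) hep
      (fun x hx => hUc x (Subgroup.zpowers_le.2 heU hx))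
    exact hF'.J_subset hS hIH hu hy' hy'c ⟨hec, hfix e (Subgroup.mem_zpowers e), heu⟩ y hy
  · push Not at hr'
    have hNu : u ∈ Subgroup.normalizer (N : Set G) := hUN huU
    obtain ⟨P, heP, hPN, hPu, -, hPcard, -⟩ := exists_invariant_sylow hu.1 hNodd hNu r
      (R := Subgroup.zpowers e) (Subgroup.zpowers_le.2 (hA heA)) hep (mem_normalizer_zpowers heu)
    have hPA : Nat.card ↥(P ⊓ A') = r ^ (Nat.card A').factorization r :=
      card_inf_of_normal hA' (hNU.trans hA'n) hPN hPcard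
    have hPAu : u ∈ Subgroup.normalizer ((P ⊓ A' : Subgroup G) : Set G) := by
      rw [Subgroup.mem_normalizer_iff]
      exact fun x => and_congr (Subgroup.mem_normalizer_iff.1 hPu x)
        (Subgroup.mem_normalizer_iff.1 (hA'n huU) x)
    have h1 := ncard_inverted_sylow hu.1 hA'odd (hA'n huU) inf_le_right hPAu hPA
    have h2 : {i | i ∈ P ∧ u * i * u⁻¹ = i⁻¹}.ncard ≤ r ^ q.factorization r := by
      rw [ncard_inverted_sylow hu.1 hNodd hNu hPN hPu hPcard]
      refine Nat.pow_le_pow_right hr.pos (le_trans ?_ hr')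
      have hm0 : m ≠ 0 := fun h0 => by
        rw [h0] at hlt
        simp at hlt
      exact (Nat.factorization_le_iff_dvd (ne_zero_of_dvd_ne_zero hm0 hdvd) hm0).2 hdvd r
    rw [← ncard_inverted hu.1 hA'odd (hA'n huU), hA'J, hq'] at h1
    have he' : e ∈ {i | i ∈ P ⊓ A' ∧ u * i * u⁻¹ = i⁻¹} := by
      rw [Set.eq_of_subset_of_ncard_le
        (t := {i | i ∈ P ∧ u * i * u⁻¹ = i⁻¹}) (fun i hi => ⟨hi.1.1, hi.2⟩) (h2.trans h1.ge)]
      exact ⟨heP (Subgroup.mem_zpowers e), heu⟩
    exact he'.1.2.2 y hy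

end Cfsg.Agent.H14.Bender
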