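import Cfsg.Agent.H14.Bender.Defs

/-!
Transfer of the induction hypothesis to a proper rich subgroup, through its image in the permutations
of its set of apexes (`PLAN.md`, section 0).
-/

set_option autoImplicit false

namespace Cfsg.Agent.H14.Bender

universe u

variable {G : Type u} [Group G] {Ω : Type u} [MulAction G Ω]

namespace IHFacts

theorem sq_eq_one {t : G} (ht : orderOf t = 2) : t * t = 1 := by
  rw [← sq, ← ht, pow_orderOf_eq_one]

/-- An involution commuting with another one has the same apex. -/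
theorem apex_eq_of_commute (hS : Setting G Ω) {s z : G} {x y : Ω} (hs : InvAt s x)
    (hz : InvAt z y) (hc : Commute s z) : x = y := by
  have h : z • (s • y) = s • y := by
    rw [← mul_smul, ← hc.eq, mul_smul, hz.2]
  have h' : s • y = y := hS.fix_unique z hz.1 _ _ h hz.2
  exact hS.fix_unique s hs.1 _ _ hs.2 h'

/-- Two involutions with different apexes are conjugate in any subgroup containing both, by an
element carrying one apex to the other. -/
theorem conj_of_apex_ne [Finite G] (hS : Setting G Ω) {M : Subgroup G} {s t : G} {x y : Ω}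
    (hsM : s ∈ M) (htM : t ∈ M) (hs : InvAt s x) (ht : InvAt t y) (hxy : x ≠ y) :
    ∃ g ∈ M, g • x = y := by
  have hss := sq_eq_one hs.1
  have htt := sq_eq_one ht.1
  set r := s * t with hr
  have hsr : s * r * s⁻¹ = r⁻¹ := by
    rw [inv_eq_of_mul_eq_one_right hss, hr, mul_inv_rev, inv_eq_of_mul_eq_one_right hss,
      inv_eq_of_mul_eq_one_right htt, ← mul_assoc, hss, one_mul]
  have htr : t * r * t⁻¹ = r⁻¹ := by
    rw [inv_eq_of_mul_eq_one_right htt, hr, mul_inv_rev, inv_eq_of_mul_eq_one_right hss,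
      inv_eq_of_mul_eq_one_right htt, mul_assoc, mul_assoc, htt, mul_one]
  have hn : Odd (orderOf r) := by
    by_contra hcon
    rw [Nat.not_odd_iff_even] at hcon
    obtain ⟨m, hm⟩ := hcon
    have hpos : 0 < orderOf r := orderOf_pos r
    have hz2 : orderOf (r ^ m) = 2 := by
      rw [orderOf_eq_iff (by omega)]
      refine ⟨by rw [← pow_mul, show m * 2 = orderOf r by omega, pow_orderOf_eq_one], ?_⟩
      intro k hk hk0
      have hk1 : k = 1 := by omega
      subst hk1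
      rw [pow_one]
      exact pow_ne_one_of_lt_orderOf (by omega) (by omega)
    have hzinv : (r ^ m)⁻¹ = r ^ m := inv_eq_of_mul_eq_one_right (sq_eq_one hz2)
    have key : ∀ a : G, a * r * a⁻¹ = r⁻¹ → Commute a (r ^ m) := by
      intro a ha
      have h : a * r ^ m * a⁻¹ = r ^ m := by rw [← conj_pow, ha, inv_pow, hzinv]
      exact mul_inv_eq_iff_eq_mul.1 h
    obtain ⟨w, hw⟩ := hS.exists_fix _ hz2
    exact hxy ((apex_eq_of_commute hS hs ⟨hz2, hw⟩ (key s hsr)).trans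
      (apex_eq_of_commute hS ht ⟨hz2, hw⟩ (key t htr)).symm)
  obtain ⟨k, hk⟩ := hn
  refine ⟨r ^ k, pow_mem (mul_mem hsM htM) k, ?_⟩
  have hconj : r ^ k * s * (r ^ k)⁻¹ = t := by
    have h1 : s * (r ^ k)⁻¹ * s⁻¹ = r ^ k := by
      rw [← inv_pow, ← conj_pow]
      have : s * r⁻¹ * s⁻¹ = r := by rw [← conj_inv, hsr, inv_inv]
      rw [this]
    have h2 : r ^ (k + k) = r⁻¹ := by
      refine eq_inv_of_mul_eq_one_left ?_
      rw [← pow_succ, show k + k + 1 = orderOf r by omega, pow_orderOf_eq_one]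
    calc r ^ k * s * (r ^ k)⁻¹ = r ^ k * (s * (r ^ k)⁻¹ * s⁻¹) * s := by group
      _ = r ^ (k + k) * s := by rw [h1, pow_add]
      _ = r⁻¹ * s := by rw [h2]
      _ = t := by
        rw [hr, mul_inv_rev, inv_eq_of_mul_eq_one_right htt, mul_assoc, inv_mul_cancel, mul_one]
  have hfix : t • (r ^ k • x) = r ^ k • x := by
    rw [← hconj, mul_smul, mul_smul, inv_smul_smul, hs.2]
  exact hS.fix_unique t ht.1 _ _ hfix ht.2

theorem smul_mem_apexSet {M : Subgroup G} {g : G} (hg : g ∈ M) {x : Ω} (hx : x ∈ apexSet M) :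
    g • x ∈ apexSet M := by
  obtain ⟨t, htM, ht2, htx⟩ := hx
  refine ⟨g * t * g⁻¹, mul_mem (mul_mem hg htM) (inv_mem hg), ?_, ?_⟩
  · rw [← ht2]
    exact orderOf_injective (MulAut.conj g).toMonoidHom (MulAut.conj g).injective t
  · rw [mul_smul, mul_smul, inv_smul_smul, htx]

/-- The action of a subgroup on its apexes. -/
def apexHom (M : Subgroup G) : ↥M →* Equiv.Perm ↥(apexSet M : Set Ω) where
  toFun g :=
    { toFun := fun x => ⟨(g : G) • (x : Ω), smul_mem_apexSet g.2 x.2⟩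
      invFun := fun x => ⟨(g : G)⁻¹ • (x : Ω), smul_mem_apexSet (inv_mem g.2) x.2⟩
      left_inv := fun _ => Subtype.ext (inv_smul_smul _ _)
      right_inv := fun _ => Subtype.ext (smul_inv_smul _ _) }
  map_one' := Equiv.ext fun x => Subtype.ext (one_smul G (x : Ω))
  map_mul' g h := Equiv.ext fun x => Subtype.ext (mul_smul (g : G) (h : G) (x : Ω))

theorem apexHom_apply {M : Subgroup G} (g : ↥M) (x : ↥(apexSet M : Set Ω)) :
    ((apexHom M g x : ↥(apexSet M : Set Ω)) : Ω) = (g : G) • (x : Ω) := rfl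

theorem apexHom_eq_one {M : Subgroup G} {g : ↥M} :
    apexHom (Ω := Ω) M g = 1 ↔ (g : G) ∈ fixTo (apexSet M : Set Ω) := by
  constructor
  · intro h x hx
    exact congrArg Subtype.val (Equiv.ext_iff.1 h ⟨x, hx⟩)
  · intro h
    exact Equiv.ext fun x => Subtype.ext (h x x.2)

theorem apexHom_ne_one (hS : Setting G Ω) {M : Subgroup G} (hnt : (apexSet M : Set Ω).Nontrivial)
    {g : ↥M} (hg : orderOf (g : G) = 2) : apexHom (Ω := Ω) M g ≠ 1 := by
  obtain ⟨x, hx, y, hy, hxy⟩ := hnt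
  intro h
  have h' := apexHom_eq_one.1 h
  exact hxy (hS.fix_unique _ hg x y (h' x hx) (h' y hy))

theorem orderOf_apexHom (hS : Setting G Ω) {M : Subgroup G}
    (hnt : (apexSet M : Set Ω).Nontrivial) {g : ↥M} (hg : orderOf (g : G) = 2) :
    orderOf ((apexHom (Ω := Ω) M).rangeRestrict g) = 2 := by
  apply orderOf_eq_prime
  · rw [← map_pow]
    have : g ^ 2 = 1 := Subtype.ext (by
      rw [SubmonoidClass.coe_pow, ← hg, pow_orderOf_eq_one]; rfl)
    rw [this, map_one]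
  · intro h
    exact apexHom_ne_one hS hnt hg (congrArg Subtype.val h)

/-- An involution of the image lifts to an involution. -/
theorem exists_lift [Finite G] (hS : Setting G Ω) {M : Subgroup G}
    (hnt : (apexSet M : Set Ω).Nontrivial) {k : ↥(apexHom (Ω := Ω) M).range}
    (hk : orderOf k = 2) :
    ∃ t : ↥M, orderOf (t : G) = 2 ∧ (apexHom M).rangeRestrict t = k := by
  obtain ⟨m, hm⟩ := (apexHom (Ω := Ω) M).rangeRestrict_surjective k
  obtain ⟨a, b, hb, hab⟩ :=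
    Nat.exists_eq_two_pow_mul_odd (orderOf_pos m).ne'
  have hkk : k * k = 1 := by rw [← sq, ← hk, pow_orderOf_eq_one]
  have hk1 : k ≠ 1 := fun h => by simp [h] at hk
  have him : (apexHom M).rangeRestrict (m ^ b) = k := by
    obtain ⟨c, hc⟩ := hb
    rw [map_pow, hm, hc, pow_succ, pow_mul, sq, hkk, one_pow, one_mul]
  refine ⟨m ^ b, ?_, him⟩
  set t := m ^ b with ht
  have ht2a : t ^ 2 ^ a = 1 := by
    rw [ht, ← pow_mul, mul_comm, ← hab, pow_orderOf_eq_one]
  obtain ⟨i, hi, hti⟩ := (Nat.dvd_prime_pow Nat.prime_two).1 (orderOf_dvd_of_pow_eq_one ht2a)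
  rw [Subgroup.orderOf_coe, hti]
  rcases i with _ | _ | i
  · exfalso
    rw [pow_zero, orderOf_eq_one_iff] at hti
    rw [hti, map_one] at him
    exact hk1 him.symm
  · rfl
  · exfalso
    have h2 : orderOf (t ^ 2 ^ (i + 1)) = 2 := by
      rw [orderOf_pow_of_dvd (by positivity) (by rw [hti, pow_succ 2 (i + 1)]; exact dvd_mul_right _ _),
        hti, pow_succ 2 (i + 1), Nat.mul_div_cancel_left _ (by positivity)]
    refine apexHom_ne_one hS hnt (g := t ^ 2 ^ (i + 1)) (by rw [Subgroup.orderOf_coe, h2]) ?_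
    have h3 : (apexHom (Ω := Ω) M).rangeRestrict (t ^ 2 ^ (i + 1)) = 1 := by
      rw [map_pow, him, pow_succ', pow_mul, sq, hkk, one_pow]
    exact congrArg Subtype.val h3

/-- The image of a rich subgroup is a rich setting on its apexes. -/
theorem setting_range [Finite G] (hS : Setting G Ω) {M : Subgroup G} (hM : Rich Ω M) :
    Setting ↥(apexHom (Ω := Ω) M).range ↥(apexSet M : Set Ω) ∧
      Rich ↥(apexSet M : Set Ω) (⊤ : Subgroup ↥(apexHom (Ω := Ω) M).range) := by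
  obtain ⟨⟨s, hsM, t, htM, hs2, ht2, hst, hc⟩, hnt⟩ := hM
  refine ⟨⟨?_, ?_, ?_, ?_, ?_⟩, ⟨?_, ?_⟩⟩
  · intro x y
    by_cases hxy : x = y
    · exact ⟨1, by rw [one_smul, hxy]⟩
    obtain ⟨a, haM, hax⟩ := x.2
    obtain ⟨b, hbM, hby⟩ := y.2
    obtain ⟨g, hgM, hg⟩ := conj_of_apex_ne hS haM hbM hax hby (fun h => hxy (Subtype.ext h))
    exact ⟨(apexHom M).rangeRestrict ⟨g, hgM⟩, Subtype.ext hg⟩
  · intro k hk
    exact Subtype.ext (Equiv.ext hk)
  · intro x
    obtain ⟨y, hy, hyx⟩ := hnt.exists_ne (x : Ω)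
    exact ⟨⟨y, hy⟩, fun h => hyx (congrArg Subtype.val h)⟩
  · intro k hk
    obtain ⟨a, ha2, rfl⟩ := exists_lift hS hnt hk
    obtain ⟨x, hx⟩ := hS.exists_fix _ ha2
    exact ⟨⟨x, ⟨_, a.2, ha2, hx⟩⟩, Subtype.ext hx⟩
  · intro k hk x y hx hy
    obtain ⟨a, ha2, rfl⟩ := exists_lift hS hnt hk
    exact Subtype.ext (hS.fix_unique _ ha2 _ _ (congrArg Subtype.val hx) (congrArg Subtype.val hy))
  · have hcM : Commute (⟨s, hsM⟩ : ↥M) ⟨t, htM⟩ := Subtype.ext hc.eq
    refine ⟨_, Subgroup.mem_top ((apexHom M).rangeRestrict ⟨s, hsM⟩), _,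
      Subgroup.mem_top ((apexHom M).rangeRestrict ⟨t, htM⟩), orderOf_apexHom hS hnt hs2,
      orderOf_apexHom hS hnt ht2, ?_, hcM.map _⟩
    intro h
    have hst2 : orderOf (s * t) = 2 := by
      apply orderOf_eq_prime
      · rw [hc.mul_pow, sq, sq, sq_eq_one hs2, sq_eq_one ht2, one_mul]
      · intro h1
        exact hst (by rw [eq_inv_of_mul_eq_one_left h1, inv_eq_of_mul_eq_one_right (sq_eq_one ht2)])
    refine apexHom_ne_one hS hnt (g := (⟨s, hsM⟩ * ⟨t, htM⟩ : ↥M)) hst2 ?_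
    have h1 : apexHom (Ω := Ω) M ⟨s, hsM⟩ = apexHom M ⟨t, htM⟩ := congrArg Subtype.val h
    rw [map_mul, h1, ← map_mul]
    rw [show (⟨t, htM⟩ * ⟨t, htM⟩ : ↥M) = 1 from Subtype.ext (sq_eq_one ht2), map_one]
  · obtain ⟨x, ⟨a, haM, ha2, hax⟩, y, ⟨b, hbM, hb2, hby⟩, hxy⟩ := hnt
    have hnt' : (apexSet M : Set Ω).Nontrivial :=
      ⟨x, ⟨a, haM, ha2, hax⟩, y, ⟨b, hbM, hb2, hby⟩, hxy⟩
    refine ⟨⟨x, ⟨a, haM, ha2, hax⟩⟩,
      ⟨(apexHom M).rangeRestrict ⟨a, haM⟩, Subgroup.mem_top _, orderOf_apexHom hS hnt' ha2,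
        Subtype.ext hax⟩, ⟨y, ⟨b, hbM, hb2, hby⟩⟩,
      ⟨(apexHom M).rangeRestrict ⟨b, hbM⟩, Subgroup.mem_top _, orderOf_apexHom hS hnt' hb2,
        Subtype.ext hby⟩, fun h => hxy (congrArg Subtype.val h)⟩

theorem conc_range [Finite G] [Finite Ω] (hS : Setting G Ω) (hIH : IH.{u} (Nat.card G))
    {M : Subgroup G} (hM : Rich Ω M) (hne : M ≠ ⊤) :
    Conc ↥(apexHom (Ω := Ω) M).range ↥(apexSet M : Set Ω) := by
  obtain ⟨hset, hrich⟩ := setting_range hS hM
  refine hIH _ _ ?_ hset hrich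
  calc Nat.card ↥(apexHom (Ω := Ω) M).range ≤ Nat.card ↥M :=
        Nat.card_le_card_of_surjective _ (apexHom M).rangeRestrict_surjective
    _ < Nat.card G := by
      refine lt_of_le_of_ne (Subgroup.card_le_card_group M) ?_
      exact fun h => hne (Subgroup.eq_top_of_card_eq M h)

end IHFacts

open IHFacts

variable [Finite G] [Finite Ω]

/-- A proper rich subgroup is doubly transitive on its apexes. -/
theorem twoTrans_apexSet (hS : Setting G Ω) (hIH : IH.{u} (Nat.card G)) {M : Subgroup G}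
    (hM : Rich Ω M) (hne : M ≠ ⊤) : TwoTrans M (apexSet M : Set Ω) := by
  obtain ⟨-, h2⟩ := conc_range hS hIH hM hne
  intro x hx y hy x' hx' y' hy' hxy hxy'
  obtain ⟨k, -, hk1, hk2⟩ := h2 ⟨x, hx⟩ (Set.mem_univ _) ⟨y, hy⟩ (Set.mem_univ _) ⟨x', hx'⟩
    (Set.mem_univ _) ⟨y', hy'⟩ (Set.mem_univ _) (fun h => hxy (congrArg Subtype.val h))
    (fun h => hxy' (congrArg Subtype.val h))
  obtain ⟨g, rfl⟩ := (apexHom (Ω := Ω) M).rangeRestrict_surjective k
  exact ⟨g, g.2, congrArg Subtype.val hk1, congrArg Subtype.val hk2⟩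

/-- In a proper rich subgroup, an element fixing two apexes and inverted by an involution at one of
them fixes every apex. -/
theorem mem_fixTo_of_mem_J (hS : Setting G Ω) (hIH : IH.{u} (Nat.card G)) {M : Subgroup G}
    (hM : Rich Ω M) (hne : M ≠ ⊤) {u j : G} {c z : Ω} (hu : u ∈ M) (huc : InvAt u c)
    (hz : z ∈ apexSet M) (hzc : z ≠ c) (hj : j ∈ M) (hJ : j ∈ J u c z) :
    j ∈ fixTo (G := G) (apexSet M : Set Ω) := by
  obtain ⟨h1, -⟩ := conc_range hS hIH hM hne
  have hc : c ∈ (apexSet M : Set Ω) := ⟨u, hu, huc⟩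
  obtain ⟨hjc, hjz, hinv⟩ := hJ
  have h := h1 ((apexHom M).rangeRestrict ⟨u, hu⟩) ⟨c, hc⟩ ⟨z, hz⟩
    ⟨orderOf_apexHom hS hM.2 huc.1, Subtype.ext huc.2⟩ (fun h => hzc (congrArg Subtype.val h))
    ((apexHom M).rangeRestrict ⟨j, hj⟩) ⟨Subtype.ext hjc, Subtype.ext hjz, by
      rw [← map_inv, ← map_inv, ← map_mul, ← map_mul]
      congr 1
      exact Subtype.ext hinv⟩
  exact (apexHom_eq_one (g := ⟨j, hj⟩)).1 (congrArg Subtype.val h)

end Cfsg.Agent.H14.Bender
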