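import Cfsg.Agent.H14.Bender.TameBase

/-!
Tame settings (doubly transitive, no inverted element fixing two points, rich): normal `r`-subgroups
of two-point stabilisers are centralised by involutions, and the centralisers of `r`-subgroups with at
least three fixed points (`PLAN.md`, sec. 5, TAME-TWINS and TAME-STAR).
-/

set_option autoImplicit false

namespace Cfsg.Agent.H14.Bender.TameAux

universe u

variable {G : Type u} [Group G] {Ω : Type u} [MulAction G Ω]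

/-- The shape of the image of a rich subgroup on its apexes. -/
structure Tame (G Ω : Type u) [Group G] [MulAction G Ω] : Prop where
  setting : Setting G Ω
  noJ : NoJ G Ω
  two : TwoTrans (⊤ : Subgroup G) (Set.univ : Set Ω)
  rich : Rich Ω (⊤ : Subgroup G)

theorem Tame.exists_move (hT : Tame G Ω) {a b a' b' : Ω} (hab : a ≠ b) (hab' : a' ≠ b') :
    ∃ g : G, g • a = a' ∧ g • b = b' := by
  obtain ⟨g, -, h⟩ := hT.two a trivial b trivial a' trivial b' trivial hab hab'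
  exact ⟨g, h⟩

theorem Tame.exists_invAt (hT : Tame G Ω) (y : Ω) : ∃ t : G, InvAt t y := by
  obtain ⟨-, x, ⟨t, -, ht⟩, -, -, -⟩ := hT.rich
  obtain ⟨g, hg⟩ := hT.setting.exists_smul x y
  exact ⟨g * t * g⁻¹, hg ▸ invAt_conj ht g⟩

theorem Tame.exists_pair (hT : Tame G Ω) (y : Ω) :
    ∃ s t : G, InvAt s y ∧ InvAt t y ∧ s ≠ t ∧ Commute s t := by
  obtain ⟨⟨s, -, t, -, hs, ht, hst, hc⟩, -⟩ := hT.rich
  obtain ⟨d, hd⟩ := hT.setting.exists_fix s hs
  have htd : t • d = d := smul_apex_of_commute hT.setting ⟨hs, hd⟩ hc.symm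
  obtain ⟨g, hg⟩ := hT.setting.exists_smul d y
  refine ⟨g * s * g⁻¹, g * t * g⁻¹, hg ▸ invAt_conj ⟨hs, hd⟩ g, hg ▸ invAt_conj ⟨ht, htd⟩ g,
    fun h => hst (mul_left_cancel (mul_right_cancel h)), ?_⟩
  exact hc.map (MulAut.conj g).toMonoidHom

/-- The conjugate of a subgroup. -/
def conjSub (g : G) (P : Subgroup G) : Subgroup G := P.map (MulAut.conj g).toMonoidHom

theorem mem_conjSub {g x : G} {P : Subgroup G} : x ∈ conjSub g P ↔ g⁻¹ * x * g ∈ P := by
  constructor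
  · rintro ⟨p, hp, rfl⟩
    simpa [mul_assoc] using hp
  · intro h
    exact ⟨_, h, by simp [mul_assoc]⟩

theorem card_conjSub (g : G) (P : Subgroup G) : Nat.card ↥(conjSub g P) = Nat.card ↥P :=
  Subgroup.card_map_of_injective (MulAut.conj g).injective

theorem pairStab_smul (g : G) (a b : Ω) :
    pairStab (g • a) (g • b) = conjSub g (pairStab (G := G) a b) := by
  ext x
  simp [mem_conjSub, mem_pairStab, mul_smul, inv_smul_eq_iff]

theorem pairStab_comm (a b : Ω) : pairStab (G := G) a b = pairStab b a := inf_comm _ _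

theorem pairStab_fix {a b : Ω} {P : Subgroup G} (h : P ≤ pairStab a b) :
    a ∈ fixPts Ω P ∧ b ∈ fixPts Ω P :=
  ⟨fun _ hp => (h hp).1, fun _ hp => (h hp).2⟩

theorem smul_mem_fixPts {M P : Subgroup G} {g : G} (hM : ∀ p ∈ P, g⁻¹ * p * g ∈ P) {x : Ω}
    (hx : x ∈ fixPts Ω P) : g • x ∈ fixPts Ω P := fun p hp => by
  have h := hx _ (hM p hp)
  rwa [mul_smul, mul_smul, inv_smul_eq_iff] at h

theorem normalizer_conj {P : Subgroup G} {g p : G} (hg : g ∈ Subgroup.normalizer (P : Set G))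
    (hp : p ∈ P) : g * p * g⁻¹ ∈ P ∧ g⁻¹ * p * g ∈ P := by
  refine ⟨(Subgroup.mem_normalizer_iff.1 hg p).1 hp, ?_⟩
  have h := (Subgroup.mem_normalizer_iff.1 (inv_mem hg) p).1 hp
  rwa [inv_inv] at h

theorem normalizer_smul_fixPts {P : Subgroup G} {g : G}
    (hg : g ∈ Subgroup.normalizer (P : Set G)) {x : Ω} (hx : x ∈ fixPts Ω P) :
    g • x ∈ fixPts Ω P :=
  smul_mem_fixPts (M := P) (fun _ hp => (normalizer_conj hg hp).2) hx

theorem exists_third {F : Set Ω} [Finite Ω] (hF : 2 < F.ncard) (a b : Ω) :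
    ∃ w ∈ F, w ≠ a ∧ w ≠ b := by
  by_contra h
  push Not at h
  have hsub : F ⊆ {a, b} := fun w hw => by
    by_cases hwa : w = a
    · exact Or.inl hwa
    · exact Or.inr (h w hw hwa)
  have h2 : ({a, b} : Set Ω).ncard ≤ 2 := (Set.ncard_insert_le _ _).trans (by simp)
  exact absurd ((Set.ncard_le_ncard hsub).trans h2) (by omega)

theorem pairStab_odd [Finite G] (hS : Setting G Ω) {a b : Ω} (hab : a ≠ b) {P : Subgroup G}
    (hP : P ≤ pairStab a b) : Odd (Nat.card P) :=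
  odd_card_of_fix_two hS hab fun _ hg => hP hg

variable [Finite G] [Finite Ω] {r : ℕ} [Fact r.Prime]

theorem IsSyl.of_fix (hT : Tame G Ω) {P : Subgroup G} {a b a' b' : Ω} (hab : a ≠ b)
    (hP : IsSyl r P (pairStab a b)) (ha : a' ∈ fixPts Ω P) (hb : b' ∈ fixPts Ω P)
    (hab' : a' ≠ b') : IsSyl r P (pairStab a' b') := by
  obtain ⟨g, rfl, rfl⟩ := hT.exists_move hab hab'
  refine ⟨fun p hp => ⟨ha p hp, hb p hp⟩, ?_⟩
  rw [hP.2, pairStab_smul, card_conjSub]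

theorem IsSyl.conjSub' {P : Subgroup G} {a b : Ω} (hP : IsSyl r P (pairStab a b)) (g : G) :
    IsSyl r (conjSub g P) (pairStab (g • a) (g • b)) := by
  refine ⟨?_, by rw [pairStab_smul, card_conjSub, card_conjSub]; exact hP.2⟩
  rw [pairStab_smul]
  exact Subgroup.map_mono hP.1

/-- The normaliser of a Sylow subgroup of a two-point stabiliser is doubly transitive on its fixed
points. -/
theorem twoTrans_normalizer (hT : Tame G Ω) {P : Subgroup G} {a b : Ω} (hab : a ≠ b)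
    (hP : IsSyl r P (pairStab a b)) :
    TwoTrans (Subgroup.normalizer (P : Set G)) (fixPts Ω P) := by
  intro x hx y hy x' hx' y' hy' hxy hxy'
  obtain ⟨g, rfl, rfl⟩ := hT.exists_move hxy hxy'
  obtain ⟨h, hh, hconj⟩ := exists_conj_of_syl ((hP.of_fix hT hab hx hy hxy).conjSub' g)
    (hP.of_fix hT hab hx' hy' hxy')
  refine ⟨h * g, ?_, by rw [mul_smul]; exact hh.1, by rw [mul_smul]; exact hh.2⟩
  have hinv : (h * g)⁻¹ ∈ Subgroup.normalizer (P : Set G) := by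
    rw [Subgroup.mem_normalizer_iff]
    intro n
    simp only [SetLike.mem_coe, inv_inv, hconj n, mem_conjSub, mul_inv_rev, mul_assoc]
  simpa using inv_mem hinv

/-- TAME-TWINS, point form. -/
theorem exists_invAt_centralizing (hT : Tame G Ω) {P : Subgroup G} {a b : Ω} (hab : a ≠ b)
    (hP : IsSyl r P (pairStab a b)) (h3 : 2 < (fixPts Ω P).ncard) {y : Ω}
    (hy : y ∈ fixPts Ω P) : ∃ t : G, InvAt t y ∧ ∀ p ∈ P, Commute t p := by
  have h2 := twoTrans_normalizer hT hab hP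
  have hodd := pairStab_odd hT.setting hab hP.1
  obtain ⟨x, hx, t, ht, htx⟩ := exists_invAt_of_twoTrans hT.setting h3
    (fun g hg w hw => normalizer_smul_fixPts hg hw) h2
    (fun s hs t ht hs2 ht2 hne hc => by
      obtain ⟨d, hsd, -, hd⟩ := apex_of_commuting_pair (Ω := Ω) hT.setting hs2 ht2 hne hc hodd
        (fun p hp => (normalizer_conj hs hp).1) (fun p hp => (normalizer_conj ht hp).1)
      exact ⟨d, hd, hsd⟩)
  obtain ⟨t', ht', ht'y⟩ : ∃ t' ∈ Subgroup.normalizer (P : Set G), InvAt t' y := by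
    by_cases hxy : x = y
    · exact ⟨t, ht, hxy ▸ htx⟩
    obtain ⟨g, hg, hgx, -⟩ := h2 x hx y hy y hy x hx hxy (Ne.symm hxy)
    exact ⟨g * t * g⁻¹, mul_mem (mul_mem hg ht) (inv_mem hg), hgx ▸ invAt_conj htx g⟩
  obtain ⟨w, hw, hwy, -⟩ := exists_third h3 y y
  exact ⟨t', ht'y, commute_of_normalize hT.noJ ht'y hwy (fun p hp => ⟨hy p hp, hw p hp⟩)
    (fun p hp => (normalizer_conj ht' hp).1)⟩

/-- TAME-TWINS. -/
theorem twins (hT : Tame G Ω) {P : Subgroup G} {a b : Ω} (hab : a ≠ b)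
    (hP : IsSyl r P (pairStab a b)) (h3 : 2 < (fixPts Ω P).ncard) {W : Subgroup G}
    (hW : W ≤ pairStab a b) (hWr : IsPGroup r W)
    (hWn : ∀ g ∈ pairStab (G := G) a b, ∀ w ∈ W, g * w * g⁻¹ ∈ W) :
    Rich Ω (Subgroup.centralizer (W : Set G)) ∧ a ∈ apexSet (Subgroup.centralizer (W : Set G)) ∧
      b ∈ apexSet (Subgroup.centralizer (W : Set G)) ∧
      ∀ w ∈ W, ∀ y ∈ (apexSet (Subgroup.centralizer (W : Set G)) : Set Ω), w • y = y := by
  have hWP : W ≤ P := hP.normal_le hW hWr hWn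
  obtain ⟨ha, hb⟩ := pairStab_fix hP.1
  obtain ⟨ta, hta, hcta⟩ := exists_invAt_centralizing hT hab hP h3 ha
  obtain ⟨tb, htb, hctb⟩ := exists_invAt_centralizing hT hab hP h3 hb
  have hall : ∀ t : G, InvAt t a → t ∈ Subgroup.centralizer (W : Set G) := by
    intro t ht
    obtain ⟨i₁, -, hi₁, hi₁a, hi₁b, hc₁⟩ := exists_swap hT.setting hta htb hab
      (Subgroup.mem_top ta) (Subgroup.mem_top tb)
    obtain ⟨i₂, -, hi₂, hi₂a, hi₂b, hc₂⟩ := exists_swap hT.setting ht htb hab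
      (Subgroup.mem_top t) (Subgroup.mem_top tb)
    have hk : i₂⁻¹ * i₁ ∈ pairStab (G := G) a b := by
      refine ⟨?_, ?_⟩
      · change (i₂⁻¹ * i₁) • a = a
        rw [mul_smul, hi₁a, inv_smul_eq_iff, hi₂a]
      · change (i₂⁻¹ * i₁) • b = b
        rw [mul_smul, hi₁b, inv_smul_eq_iff, hi₂b]
    have htk : t = (i₂⁻¹ * i₁) * ta * (i₂⁻¹ * i₁)⁻¹ := by
      have h : t = i₂⁻¹ * tb * i₂ := by rw [← hc₂]; group
      rw [h, ← hc₁]; group
    rw [Subgroup.mem_centralizer_iff]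
    intro w hw
    obtain ⟨k, hkdef⟩ : ∃ k, k = i₂⁻¹ * i₁ := ⟨_, rfl⟩
    rw [← hkdef] at hk htk
    have hw' : k⁻¹ * w * k ∈ W := by simpa using hWn k⁻¹ (inv_mem hk) w hw
    have hcomm := (hcta _ (hWP hw')).map (MulAut.conj k).toMonoidHom
    simp only [MulEquiv.coe_toMonoidHom, MulAut.conj_apply, ← htk] at hcomm
    have hwk : k * (k⁻¹ * w * k) * k⁻¹ = w := by group
    rw [hwk] at hcomm
    exact hcomm.eq.symm
  have haC : a ∈ apexSet (Subgroup.centralizer (W : Set G)) := ⟨ta, hall ta hta, hta⟩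
  have hbC : b ∈ apexSet (Subgroup.centralizer (W : Set G)) :=
    ⟨tb, Subgroup.mem_centralizer_iff.2 fun w hw => (hctb w (hWP hw)).eq.symm, htb⟩
  obtain ⟨s, t, hs, ht, hst, hc⟩ := hT.exists_pair a
  refine ⟨⟨⟨s, hall s hs, t, hall t ht, hs.1, ht.1, hst, hc⟩, ⟨a, haC, b, hbC, hab⟩⟩, haC, hbC,
    fun w hw y hy => ?_⟩
  obtain ⟨t, ht, hty⟩ := hy
  exact smul_apex_of_commute hT.setting hty (Subgroup.mem_centralizer_iff.1 ht w hw)

/-- Counting fixed points of an `r`-group on an invariant set. -/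
theorem ncard_modEq {A : Subgroup G} (hA : IsPGroup r A) {B : Set Ω}
    (hB : ∀ a ∈ A, ∀ b ∈ B, a • b ∈ B) : B.ncard ≡ (B ∩ fixPts Ω A).ncard [MOD r] := by
  let act : MulAction ↥A ↥B :=
    { smul := fun a b => ⟨(a : G) • (b : Ω), hB a a.2 b b.2⟩
      one_smul := fun b => Subtype.ext (one_smul G (b : Ω))
      mul_smul := fun a a' b => Subtype.ext (mul_smul (a : G) (a' : G) (b : Ω)) }
  have h := @IsPGroup.card_modEq_card_fixedPoints _ _ _ hA _ ↥B act _
  rw [Nat.card_coe_set_eq] at h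
  have e : Nat.card (@MulAction.fixedPoints ↥A ↥B _ act) = (B ∩ fixPts Ω A).ncard := by
    rw [← Nat.card_coe_set_eq (B ∩ fixPts Ω A)]
    exact Nat.card_congr
      { toFun := fun x => ⟨x.1.1, x.1.2, fun a ha => congrArg Subtype.val (x.2 ⟨a, ha⟩)⟩
        invFun := fun x => ⟨⟨x.1, x.2.1⟩, fun a => Subtype.ext (x.2.2 a.1 a.2)⟩
        left_inv := fun _ => rfl
        right_inv := fun _ => rfl }
  rwa [e] at h

/-- If some `r`-subgroup fixes exactly two points, so does every Sylow `r`-subgroup of every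
two-point stabiliser. -/
theorem syl_fix (hT : Tame G Ω) {c z : Ω} (hcz : c ≠ z) {P : Subgroup G} (hPr : IsPGroup r P)
    (hPF : fixPts Ω P = {c, z}) {x y : Ω} (hxy : x ≠ y) {A : Subgroup G}
    (hA : IsSyl r A (pairStab x y)) : ∀ w ∈ fixPts Ω A, w = x ∨ w = y := by
  have hPle : P ≤ pairStab c z := fun p hp => by
    have h : c ∈ fixPts Ω P ∧ z ∈ fixPts Ω P := by rw [hPF]; exact ⟨Or.inl rfl, Or.inr rfl⟩
    exact ⟨h.1 p hp, h.2 p hp⟩
  obtain ⟨P₀, hPP₀, hP₀⟩ := exists_syl hPle hPr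
  obtain ⟨g, rfl, rfl⟩ := hT.exists_move hcz hxy
  obtain ⟨h, hh, hconj⟩ := exists_conj_of_syl (hP₀.conjSub' g) hA
  intro w hw
  have hw0 : g⁻¹ • h⁻¹ • w ∈ fixPts Ω P := by
    intro p hp
    have hmem : h * (g * p * g⁻¹) * h⁻¹ ∈ A := (hconj _).2 (by
      rw [mem_conjSub]; simpa [mul_assoc] using hPP₀ hp)
    have h1 := hw _ hmem
    simp only [mul_smul] at h1
    rw [eq_inv_smul_iff, eq_inv_smul_iff, h1]
  rw [hPF] at hw0
  rcases hw0 with h1 | h1
  · left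
    rw [inv_smul_eq_iff, inv_smul_eq_iff] at h1
    rw [h1]; exact hh.1
  · right
    rw [Set.mem_singleton_iff, inv_smul_eq_iff, inv_smul_eq_iff] at h1
    rw [h1]; exact hh.2

/-- An `r`-group fixing three points grows inside its normaliser and the stabiliser of two of
them. -/
theorem exists_larger (hT : Tame G Ω) {c z : Ω} (hcz : c ≠ z) {P : Subgroup G}
    (hPr : IsPGroup r P) (hPF : fixPts Ω P = {c, z}) {Q : Subgroup G} (hQr : IsPGroup r Q)
    {x y w : Ω} (hxy : x ≠ y) (hx : x ∈ fixPts Ω Q) (hy : y ∈ fixPts Ω Q) (hw : w ∈ fixPts Ω Q)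
    (hwx : w ≠ x) (hwy : w ≠ y) :
    ∃ A : Subgroup G, Q < A ∧ IsPGroup r A ∧ A ≤ pairStab x y ∧
      A ≤ Subgroup.normalizer (Q : Set G) := by
  obtain ⟨S, hQS, hS⟩ := exists_syl (X := pairStab x y) (fun q hq => ⟨hx q hq, hy q hq⟩) hQr
  have hne : ∃ g ∈ S, g • w ≠ w := by
    by_contra hcon
    push Not at hcon
    rcases syl_fix hT hcz hPr hPF hxy hS w hcon with h | h
    exacts [hwx h, hwy h]
  have hlt : Q.subgroupOf S < ⊤ := by
    rw [lt_top_iff_ne_top, Ne, Subgroup.subgroupOf_eq_top]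
    intro hle
    obtain ⟨g, hg, hgw⟩ := hne
    exact hgw (hw g (hle hg))
  have hnil : Group.IsNilpotent ↥S := IsPGroup.isNilpotent hS.isPGroup
  obtain ⟨a, ha, haQ⟩ :=
    SetLike.exists_of_lt (normalizerCondition_of_isNilpotent (Q.subgroupOf S) hlt)
  refine ⟨S ⊓ Subgroup.normalizer (Q : Set G), lt_of_le_not_ge (le_inf hQS Subgroup.le_normalizer)
    fun hle => ?_, hS.isPGroup.to_le inf_le_left, inf_le_left.trans hS.1, inf_le_right⟩
  refine haQ (hle ⟨a.2, Subgroup.mem_normalizer_iff.2 fun n => ?_⟩)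
  have hiff := Subgroup.mem_normalizer_iff.1 ha
  constructor
  · intro hn
    exact (hiff ⟨n, hQS hn⟩).1 hn
  · intro hn
    have hnS : n ∈ S := by
      simpa [mul_assoc] using mul_mem (mul_mem (inv_mem a.2) (hQS hn)) a.2
    exact (hiff ⟨n, hnS⟩).2 hn

/-- An `r`-subgroup fixing `x` and at least three points which is maximal with these properties. -/
structure MaxAt (Ω : Type u) [MulAction G Ω] (r : ℕ) (Q : Subgroup G) (x : Ω) : Prop where
  isPGroup : IsPGroup r Q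
  mem : x ∈ fixPts Ω Q
  three : 2 < (fixPts Ω Q).ncard
  max : ∀ A : Subgroup G, Q < A → IsPGroup r A → x ∈ fixPts Ω A → (fixPts Ω A).ncard ≤ 2

omit [Finite Ω] [Fact r.Prime] in
theorem exists_maxAt {Q : Subgroup G} (hQr : IsPGroup r Q) {x : Ω} (hx : x ∈ fixPts Ω Q)
    (h3 : 2 < (fixPts Ω Q).ncard) : ∃ Q', Q ≤ Q' ∧ MaxAt Ω r Q' x := by
  classical
  have : Nonempty {A : Subgroup G //
      Q ≤ A ∧ IsPGroup r A ∧ x ∈ fixPts Ω A ∧ 2 < (fixPts Ω A).ncard} :=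
    ⟨⟨Q, le_rfl, hQr, hx, h3⟩⟩
  obtain ⟨⟨Q', hQQ', hr', hx', h3'⟩, hmax⟩ := Finite.exists_max (fun A : {A : Subgroup G //
      Q ≤ A ∧ IsPGroup r A ∧ x ∈ fixPts Ω A ∧ 2 < (fixPts Ω A).ncard} => Nat.card ↥A.1)
  refine ⟨Q', hQQ', hr', hx', h3', fun A hlt hAr hAx => ?_⟩
  by_contra hcon
  have hle := hmax ⟨A, hQQ'.trans hlt.le, hAr, hAx, not_le.1 hcon⟩
  exact hlt.ne (Subgroup.eq_of_le_of_card_ge hlt.le hle)

theorem MaxAt.exists_grow (hT : Tame G Ω) {c z : Ω} (hcz : c ≠ z) {P : Subgroup G}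
    (hPr : IsPGroup r P) (hPF : fixPts Ω P = {c, z}) {Q : Subgroup G} {x : Ω}
    (hQ : MaxAt Ω r Q x) {y : Ω} (hy : y ∈ fixPts Ω Q) (hyx : y ≠ x) :
    ∃ A : Subgroup G, Q < A ∧ IsPGroup r A ∧ A ≤ Subgroup.normalizer (Q : Set G) ∧
      fixPts Ω A = {x, y} := by
  obtain ⟨w, hw, hwx, hwy⟩ := exists_third hQ.three x y
  obtain ⟨A, hlt, hAr, hA, hAn⟩ :=
    exists_larger hT hcz hPr hPF hQ.isPGroup hyx.symm hQ.mem hy hw hwx hwy
  obtain ⟨hxA, hyA⟩ := pairStab_fix hA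
  refine ⟨A, hlt, hAr, hAn, (Set.eq_of_subset_of_ncard_le ?_ ?_).symm⟩
  · intro v hv
    rcases hv with rfl | rfl
    exacts [hxA, hyA]
  · rw [Set.ncard_pair hyx.symm]
    exact hQ.max A hlt hAr hxA

/-- The stabiliser of `x` in the normaliser is transitive on the other fixed points. -/
theorem MaxAt.transitive (hT : Tame G Ω) {c z : Ω} (hcz : c ≠ z) {P : Subgroup G}
    (hPr : IsPGroup r P) (hPF : fixPts Ω P = {c, z}) {Q : Subgroup G} {x : Ω}
    (hQ : MaxAt Ω r Q x) {y y' : Ω} (hy : y ∈ fixPts Ω Q) (hyx : y ≠ x) (hy' : y' ∈ fixPts Ω Q)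
    (hy'x : y' ≠ x) :
    ∃ g ∈ Subgroup.normalizer (Q : Set G), g • x = x ∧ g • y = y' := by
  let H : Subgroup G := Subgroup.normalizer (Q : Set G) ⊓ MulAction.stabilizer G x
  let B : Set Ω := MulAction.orbit ↥H y
  suffices hB : y' ∈ B by
    obtain ⟨⟨g, hgn, hgx⟩, hg⟩ := hB
    exact ⟨g, hgn, hgx, hg⟩
  by_contra hcon
  have hBx : ∀ b ∈ B, b ≠ x := by
    rintro b ⟨⟨g, hgn, hgx⟩, rfl⟩ h
    have h' : g • y = g • x := h.trans (MulAction.mem_stabilizer_iff.1 hgx).symm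
    exact hyx (smul_left_cancel g h')
  have key : ∀ v ∈ fixPts Ω Q, v ≠ x → B.ncard ≡ (B ∩ {v}).ncard [MOD r] := by
    intro v hv hvx
    obtain ⟨A, -, hAr, hAn, hAF⟩ := hQ.exists_grow hT hcz hPr hPF hv hvx
    have hxA : x ∈ fixPts Ω A := by rw [hAF]; exact Or.inl rfl
    have hinv : ∀ a ∈ A, ∀ b ∈ B, a • b ∈ B := by
      rintro a ha b ⟨g, rfl⟩
      exact ⟨⟨a, hAn ha, hxA a ha⟩ * g, mul_smul a (g : G) y⟩
    have hcnt := ncard_modEq hAr hinv
    rw [hAF] at hcnt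
    have heq : B ∩ {x, v} = B ∩ {v} := by
      ext b
      simp only [Set.mem_inter_iff, Set.mem_insert_iff, Set.mem_singleton_iff]
      exact ⟨fun ⟨hb, h⟩ => ⟨hb, h.resolve_left (hBx b hb)⟩, fun ⟨hb, h⟩ => ⟨hb, Or.inr h⟩⟩
    rwa [heq] at hcnt
  have h1 := key y hy hyx
  have h0 := key y' hy' hy'x
  rw [Set.inter_singleton_eq_empty.2 hcon, Set.ncard_empty] at h0
  have he : B ∩ {y} = {y} :=
    Set.inter_eq_right.2 (Set.singleton_subset_iff.2 (MulAction.mem_orbit_self y))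
  rw [he, Set.ncard_singleton] at h1
  have h10 : 1 ≡ 0 [MOD r] := h1.symm.trans h0
  exact (Fact.out : r.Prime).one_lt.ne' (Nat.dvd_one.1 (Nat.modEq_zero_iff_dvd.1 h10))

/-- Some involution with apex `x` centralises a maximal `r`-subgroup at `x`. -/
theorem MaxAt.exists_invAt (hT : Tame G Ω) {c z : Ω} (hcz : c ≠ z) {P : Subgroup G}
    (hPr : IsPGroup r P) (hPF : fixPts Ω P = {c, z}) {Q : Subgroup G} {x : Ω}
    (hQ : MaxAt Ω r Q x) : ∃ t : G, InvAt t x ∧ ∀ q ∈ Q, Commute t q := by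
  suffices h : ∃ t ∈ Subgroup.normalizer (Q : Set G), InvAt t x by
    obtain ⟨t, ht, htx⟩ := h
    obtain ⟨w, hw, hwx, -⟩ := exists_third hQ.three x x
    exact ⟨t, htx, commute_of_normalize hT.noJ htx hwx (fun p hp => ⟨hQ.mem p hp, hw p hp⟩)
      (fun p hp => (normalizer_conj ht hp).1)⟩
  by_contra hcon
  set M := Subgroup.normalizer (Q : Set G) with hMdef
  obtain ⟨y, hy, hyx, -⟩ := exists_third hQ.three x x
  obtain ⟨y', hy', hy'x, hy'y⟩ := exists_third hQ.three x y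
  by_cases hfix : ∀ g ∈ M, g • x = x
  · obtain ⟨A, hlt, hAr, hA, hAn⟩ :=
      exists_larger hT hcz hPr hPF hQ.isPGroup hy'y.symm hy hy' hQ.mem hyx.symm hy'x.symm
    obtain ⟨hyA, hy'A⟩ := pairStab_fix hA
    have hxA : x ∈ fixPts Ω A := fun a ha => hfix a (hAn ha)
    have h := hQ.max A hlt hAr hxA
    have hsub : ({x, y, y'} : Set Ω) ⊆ fixPts Ω A := by
      intro v hv
      rcases hv with rfl | rfl | rfl
      exacts [hxA, hyA, hy'A]
    have h3 : ({x, y, y'} : Set Ω).ncard = 3 :=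
      Set.ncard_eq_three.2 ⟨x, y, y', hyx.symm, hy'x.symm, hy'y.symm, rfl⟩
    have := (Set.ncard_le_ncard hsub).trans h
    omega
  push Not at hfix
  obtain ⟨g₀, hg₀, hg₀x⟩ := hfix
  have hto : ∀ v ∈ fixPts Ω Q, ∃ g ∈ M, g • v = x := by
    intro v hv
    by_cases hvx : v = x
    · exact ⟨1, one_mem _, by rw [one_smul, hvx]⟩
    obtain ⟨g, hg, -, hgv⟩ := hQ.transitive hT hcz hPr hPF (normalizer_smul_fixPts hg₀ hQ.mem)
      hg₀x hv hvx
    refine ⟨(g * g₀)⁻¹, inv_mem (mul_mem hg hg₀), ?_⟩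
    rw [inv_smul_eq_iff, mul_smul, hgv]
  have h2 : TwoTrans M (fixPts Ω Q) := by
    intro a ha b hb a' ha' b' hb' hab hab'
    obtain ⟨g₁, hg₁, hg₁a⟩ := hto a ha
    obtain ⟨g₂, hg₂, hg₂a⟩ := hto a' ha'
    have n1 : g₁ • b ≠ x := fun h => hab (smul_left_cancel g₁ (hg₁a.trans h.symm))
    have n2 : g₂ • b' ≠ x := fun h => hab' (smul_left_cancel g₂ (hg₂a.trans h.symm))
    obtain ⟨h, hh, hhx, hhb⟩ := hQ.transitive hT hcz hPr hPF (normalizer_smul_fixPts hg₁ hb) n1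
      (normalizer_smul_fixPts hg₂ hb') n2
    refine ⟨g₂⁻¹ * (h * g₁), mul_mem (inv_mem hg₂) (mul_mem hh hg₁), ?_, ?_⟩
    · rw [mul_smul, mul_smul, hg₁a, hhx, inv_smul_eq_iff, hg₂a]
    · rw [mul_smul, mul_smul, hhb, inv_smul_smul]
  have hodd : Odd (Nat.card Q) :=
    pairStab_odd hT.setting hyx fun q hq => ⟨hy q hq, hQ.mem q hq⟩
  obtain ⟨v, hv, t, ht, htv⟩ := exists_invAt_of_twoTrans hT.setting hQ.three
    (fun g hg w hw => normalizer_smul_fixPts hg hw) h2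
    (fun s hs t ht hs2 ht2 hne hc => by
      obtain ⟨d, hsd, -, hd⟩ := apex_of_commuting_pair (Ω := Ω) hT.setting hs2 ht2 hne hc hodd
        (fun p hp => (normalizer_conj hs hp).1) (fun p hp => (normalizer_conj ht hp).1)
      exact ⟨d, hd, hsd⟩)
  obtain ⟨g, hg, hgv⟩ := hto v hv
  exact hcon ⟨g * t * g⁻¹, mul_mem (mul_mem hg ht) (inv_mem hg), hgv ▸ invAt_conj htv g⟩

/-- TAME-STAR: the apexes of the centraliser. -/
theorem apexSet_centralizer (hT : Tame G Ω) {c z : Ω} (hcz : c ≠ z) {P : Subgroup G}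
    (hPr : IsPGroup r P) (hPF : fixPts Ω P = {c, z}) {Q : Subgroup G} (hQr : IsPGroup r Q)
    (h3 : 2 < (fixPts Ω Q).ncard) :
    apexSet (Subgroup.centralizer (Q : Set G)) = fixPts Ω Q := by
  ext x
  constructor
  · rintro ⟨t, ht, htx⟩ q hq
    exact smul_apex_of_commute hT.setting htx (Subgroup.mem_centralizer_iff.1 ht q hq)
  · intro hx
    obtain ⟨Q', hQQ', hQ'⟩ := exists_maxAt hQr hx h3
    obtain ⟨t, htx, hc⟩ := hQ'.exists_invAt hT hcz hPr hPF
    exact ⟨t, Subgroup.mem_centralizer_iff.2 fun q hq => (hc q (hQQ' hq)).eq.symm, htx⟩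

omit [Finite Ω] in
/-- Counting: an `r`-group fixing exactly two points. -/
theorem card_modEq_two [Finite Ω] {P : Subgroup G} (hPr : IsPGroup r P) {c z : Ω} (hcz : c ≠ z)
    (hPF : fixPts Ω P = {c, z}) : (Set.univ : Set Ω).ncard ≡ 2 [MOD r] := by
  have h := ncard_modEq (r := r) hPr (B := (Set.univ : Set Ω)) (fun _ _ _ _ => trivial)
  rwa [Set.univ_inter, hPF, Set.ncard_pair hcz] at h

/-- What is used of the Line lemma: an involution normalising a subgroup of odd order which moves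
its apex gives a point moved off the apex and fixed by every inverted element fixing the apex. -/
def HasLine (G Ω : Type u) [Group G] [MulAction G Ω] : Prop :=
  ∀ (t : G) (x : Ω) (O : Subgroup G), InvAt t x → Odd (Nat.card O) →
    t ∈ Subgroup.normalizer (O : Set G) → (∃ g ∈ O, g • x ≠ x) →
      ∃ y : Ω, y ≠ x ∧ ∀ k ∈ O, k • x = x → t * k * t⁻¹ = k⁻¹ → k • y = y

/-- TAME-STAR: the centraliser contains two distinct commuting involutions. -/
theorem exists_pair_centralizer (hT : Tame G Ω) (hL : HasLine G Ω) {c z : Ω} (hcz : c ≠ z)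
    {P : Subgroup G} (hPr : IsPGroup r P) (hPF : fixPts Ω P = {c, z}) {Q : Subgroup G}
    (hQr : IsPGroup r Q) (h3 : 2 < (fixPts Ω Q).ncard) :
    Rich Ω (Subgroup.centralizer (Q : Set G)) := by
  have hapex := apexSet_centralizer hT hcz hPr hPF hQr h3
  obtain ⟨a₀, ha₀, b₀, hb₀, -, -, hab₀, -, -⟩ := (Set.two_lt_ncard (Set.toFinite _)).1 h3
  refine ⟨?_, ⟨a₀, hapex.symm ▸ ha₀, b₀, hapex.symm ▸ hb₀, hab₀⟩⟩
  obtain ⟨Q', hQQ', hQ'⟩ := exists_maxAt hQr ha₀ h3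
  have hle : Subgroup.centralizer (Q' : Set G) ≤ Subgroup.centralizer (Q : Set G) :=
    Subgroup.centralizer_le hQQ'
  by_contra hcon
  set C := Subgroup.centralizer (Q' : Set G) with hCdef
  have hC : NoPair C := fun s hs t ht hs2 ht2 hc => by
    by_contra hne
    exact hcon ⟨s, hle hs, t, hle ht, hs2, ht2, hne, hc⟩
  have hapex' := apexSet_centralizer hT hcz hPr hPF hQ'.isPGroup hQ'.three
  set x := a₀
  have hxC : x ∈ apexSet C := hapex'.symm ▸ hQ'.mem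
  obtain ⟨y, hy, hyx, -⟩ := exists_third hQ'.three x x
  obtain ⟨A, -, -, hAn, hAF⟩ := hQ'.exists_grow hT hcz hPr hPF hy hyx
  obtain ⟨t, htC, htx⟩ := hxC
  obtain ⟨s, hsC, hsy⟩ : y ∈ apexSet C := hapex'.symm ▸ hy
  have hcomm : ∀ a ∈ A, Commute a t := by
    intro a ha
    have hax : a • x = x := by
      have hxA : x ∈ fixPts Ω A := hAF.symm ▸ Or.inl rfl
      exact hxA a ha
    have ht'x : InvAt (a * t * a⁻¹) x := hax ▸ invAt_conj htx a
    have ht'C : a * t * a⁻¹ ∈ C := by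
      rw [hCdef, Subgroup.mem_centralizer_iff]
      intro q hq
      have hq' := (normalizer_conj (hAn ha) hq).2
      have h := Subgroup.mem_centralizer_iff.1 htC _ hq'
      calc q * (a * t * a⁻¹) = a * (a⁻¹ * q * a * t) * a⁻¹ := by group
        _ = a * (t * (a⁻¹ * q * a)) * a⁻¹ := by rw [h]
        _ = (a * t * a⁻¹) * q := by group
    obtain ⟨i₁, hi₁C, -, -, -, hc₁⟩ := exists_swap hT.setting htx hsy hyx.symm htC hsC
    obtain ⟨i₂, hi₂C, -, -, -, hc₂⟩ := exists_swap hT.setting ht'x hsy hyx.symm ht'C hsC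
    have he : t * (a * t * a⁻¹) ∈ oddCore C := by
      have h := commutator_mem_oddCore hC htC htx.1 (g := i₂⁻¹ * i₁)
        (mul_mem (inv_mem hi₂C) hi₁C)
      have heq : (i₂⁻¹ * i₁) * t * (i₂⁻¹ * i₁)⁻¹ = a * t * a⁻¹ := by
        calc (i₂⁻¹ * i₁) * t * (i₂⁻¹ * i₁)⁻¹ = i₂⁻¹ * (i₁ * t * i₁⁻¹) * i₂ := by group
          _ = i₂⁻¹ * (i₂ * (a * t * a⁻¹) * i₂⁻¹) * i₂ := by rw [hc₁, hc₂]
          _ = a * t * a⁻¹ := by group
      rw [show t * (a * t * a⁻¹) = t * (i₂⁻¹ * i₁) * t⁻¹ * (i₂⁻¹ * i₁)⁻¹ by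
        rw [← heq, H50.inv_eq_self htx.1]; group]
      exact h
    have hex : (t * (a * t * a⁻¹)) • x = x := by rw [mul_smul, ht'x.2, htx.2]
    have hinv : t * (t * (a * t * a⁻¹)) * t⁻¹ = (t * (a * t * a⁻¹))⁻¹ :=
      H50.conj_prod_left htx.1 ht'x.1
    obtain ⟨v, hvx, hv⟩ : ∃ v, v ≠ x ∧ (t * (a * t * a⁻¹)) • v = v := by
      by_cases hO : ∀ o ∈ oddCore C, o • x = x
      · obtain ⟨i, hiC, -, -, hiy, -⟩ := exists_swap hT.setting htx hsy hyx.symm htC hsC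
        refine ⟨y, hyx, ?_⟩
        have h := hO _ (conj_mem_oddCore hiC he)
        have h' : i⁻¹ • x = y := by rw [inv_smul_eq_iff, hiy]
        rwa [mul_smul, h', mul_smul, ← eq_inv_smul_iff, h'] at h
      · push Not at hO
        obtain ⟨v, hvx, hv⟩ := hL t x (oddCore C) htx (odd_card_oddCore C)
          (Subgroup.mem_normalizer_iff.2 fun n => ⟨fun hn => conj_mem_oddCore htC hn, fun hn => by
            simpa [mul_assoc] using conj_mem_oddCore (inv_mem htC) hn⟩) hO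
        exact ⟨v, hvx, hv _ he hex hinv⟩
    have h1 := hT.noJ t x v htx hvx _ ⟨hex, hv, hinv⟩
    have h2 : a * t * a⁻¹ = t := by
      rw [eq_inv_of_mul_eq_one_right h1, H50.inv_eq_self htx.1]
    exact mul_inv_eq_iff_eq_mul.1 h2
  have hyA : y ∈ fixPts Ω A := hAF.symm ▸ Or.inr rfl
  have hty : t • y ∈ fixPts Ω A := fun a ha => by
    rw [smul_smul, (hcomm a ha).eq, mul_smul, hyA a ha]
  rw [hAF] at hty
  rcases hty with h | h
  · exact hyx (smul_left_cancel t (h.trans htx.2.symm))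
  · exact hyx (apex_eq hT.setting htx h)

end Cfsg.Agent.H14.Bender.TameAux
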