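import Cfsg.Agent.H14.Bender.Defs
import Cfsg.Agent.H14.Bender.Coprime

/-!
The Line lemma and the algebra of the lines it gives (`PLAN.md`, section 1).
-/

set_option autoImplicit false

open Subgroup
open scoped Pointwise commutatorElement

namespace Cfsg.Agent.H14.Bender

universe u

variable {G : Type u} [Group G] {Ω : Type u} [MulAction G Ω]

namespace ZLine

/-- An involution fixing `c` normalises the stabiliser of `c`. -/
theorem conj_smul_eq {u g : G} {c : Ω} (hu : InvAt u c) (hg : g • c = c) :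
    (u * g * u⁻¹) • c = c := by
  have h : u⁻¹ • c = c := by rw [inv_smul_eq_iff, hu.2]
  rw [mul_smul, mul_smul, h, hg, hu.2]

/-- Membership of an involution in a normaliser. -/
theorem mem_normalizer_of_conj {u : G} (hu : orderOf u = 2) {A : Subgroup G}
    (h : ∀ a ∈ A, u * a * u⁻¹ ∈ A) : u ∈ normalizer (A : Set G) := by
  rw [mem_normalizer_iff]
  refine fun a => ⟨h a, fun ha => ?_⟩
  have := h _ ha
  rwa [conj_conj_involution hu] at this

/-- The core of the line: an inverted element moving `c` whose powers see every inverted element of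
`O` fixing `c` as trivial. -/
theorem exists_inverted_moving [Finite G] (hS : Setting G Ω) {u : G} {c : Ω} (hu : InvAt u c) :
    ∀ (n : ℕ) (O : Subgroup G), Nat.card O = n → Odd (Nat.card O) →
      u ∈ normalizer (O : Set G) → (∃ g ∈ O, g • c ≠ c) →
      ∃ v ∈ O, u * v * u⁻¹ = v⁻¹ ∧ v • c ≠ c ∧
        ∀ k ∈ O, k • c = c → u * k * u⁻¹ = k⁻¹ → ∀ i : ℤ, k • v ^ i • c = v ^ i • c := by
  intro n
  induction n using Nat.strong_induction_on with
  | _ n ih =>
    intro O hn hO huO hmove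
    classical
    by_cases hex : ∃ O₁ : Subgroup G, O ⊓ MulAction.stabilizer G c ≤ O₁ ∧ O₁ ≤ O ∧ O₁ ≠ O ∧
        u ∈ normalizer (O₁ : Set G) ∧ ∃ g ∈ O₁, g • c ≠ c
    · obtain ⟨O₁, hle, hle', hne, hu₁, hm₁⟩ := hex
      have hlt : Nat.card O₁ < n := by
        rw [← hn]
        refine lt_of_le_of_ne (card_le_of_le hle') fun h => hne ?_
        exact eq_of_le_of_card_ge hle' h.ge
      obtain ⟨v, hv, hvi, hvc, hk⟩ := ih _ hlt O₁ rfl (hO.of_dvd_nat (card_dvd_of_le hle')) hu₁ hm₁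
      exact ⟨v, hle' hv, hvi, hvc, fun k hk' hkc hki => hk k (hle ⟨hk', hkc⟩) hkc hki⟩
    push Not at hex
    set Oc := O ⊓ MulAction.stabilizer G c with hOc
    have huO' : ∀ a ∈ O, u * a * u⁻¹ ∈ O := fun a ha => (mem_normalizer_iff.1 huO a).1 ha
    have huOc : ∀ a ∈ Oc, u * a * u⁻¹ ∈ Oc := fun a ha => ⟨huO' a ha.1, conj_smul_eq hu ha.2⟩
    -- the core of the stabiliser
    let N₀ : Subgroup G :=
      { carrier := {x | ∀ g ∈ O, g * x * g⁻¹ ∈ Oc}
        one_mem' := fun g _ => by simp [one_mem]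
        mul_mem' := fun {x y} hx hy g hg => by rw [← conj_mul]; exact mul_mem (hx g hg) (hy g hg)
        inv_mem' := fun {x} hx g hg => by rw [← conj_inv]; exact inv_mem (hx g hg) }
    have hN₀c : N₀ ≤ Oc := fun x hx => by simpa using hx 1 (one_mem O)
    have hN₀O : ∀ g ∈ O, g ∈ normalizer (N₀ : Set G) := by
      have h1 : ∀ g ∈ O, ∀ x ∈ N₀, g * x * g⁻¹ ∈ N₀ := fun g hg x hx a ha => by
        rw [show a * (g * x * g⁻¹) * a⁻¹ = a * g * x * (a * g)⁻¹ by group]
        exact hx (a * g) (mul_mem ha hg)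
      intro g hg
      rw [mem_normalizer_iff]
      refine fun x => ⟨h1 g hg x, fun hx => ?_⟩
      have := h1 g⁻¹ (inv_mem hg) _ hx
      simpa [mul_assoc] using this
    have huN₀ : ∀ x ∈ N₀, u * x * u⁻¹ ∈ N₀ := fun x hx g hg => by
      have e : g * (u * x * u⁻¹) * g⁻¹ = u * ((u⁻¹ * g * u) * x * (u⁻¹ * g * u)⁻¹) * u⁻¹ := by group
      rw [e]
      exact huOc _ (hx _ ((mem_normalizer_iff''.1 huO g).1 hg))
    -- a normal subgroup of `O` with abelian image modulo the core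
    haveI : Group.IsSolvable O := H25.PF14.odd_solvable _ hO
    let D : ℕ → Subgroup G := fun i => (derivedSeries O i).map O.subtype
    have hDu : ∀ (i : ℕ), ∀ a ∈ D i, u * a * u⁻¹ ∈ D i := by
      intro i
      rintro _ ⟨a, ha, rfl⟩
      let φ : O ≃* O :=
        { toFun := fun a => ⟨u * a * u⁻¹, huO' a a.2⟩
          invFun := fun a => ⟨u * a * u⁻¹, huO' a a.2⟩
          left_inv := fun a => Subtype.ext (conj_conj_involution hu.1 _)
          right_inv := fun a => Subtype.ext (conj_conj_involution hu.1 _)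
          map_mul' := fun a b => Subtype.ext (conj_mul).symm }
      exact ⟨φ a, map_derivedSeries_le_derivedSeries φ.toMonoidHom i (mem_map_of_mem _ ha), rfl⟩
    obtain ⟨g₀, hg₀, hg₀c⟩ := hmove
    have hlast : ∃ i, D i ≤ N₀ := by
      obtain ⟨i, hi⟩ := (Group.isSolvable_def O).1 inferInstance
      exact ⟨i, by simp only [D, hi, Subgroup.map_bot]; exact bot_le⟩
    obtain ⟨i, hi, hi'⟩ : ∃ i, ¬ D i ≤ N₀ ∧ D (i + 1) ≤ N₀ := by
      refine ⟨Nat.find hlast - 1, ?_⟩
      have h0 : Nat.find hlast ≠ 0 := fun h => by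
        have hsp := Nat.find_spec hlast
        rw [h] at hsp
        refine hg₀c ((hN₀c (hsp ?_)).2)
        exact ⟨⟨g₀, hg₀⟩, by rw [derivedSeries_zero]; trivial, rfl⟩
      exact ⟨Nat.find_min hlast (by omega),
        by rw [Nat.sub_add_cancel (Nat.pos_of_ne_zero h0)]; exact Nat.find_spec hlast⟩
    have hDO : D i ≤ O := map_subtype_le _
    have hDnormal : ∀ g ∈ O, g ∈ normalizer (D i : Set G) := by
      have h1 : ∀ g ∈ O, ∀ a ∈ D i, g * a * g⁻¹ ∈ D i := by
        rintro g hg _ ⟨a, ha, rfl⟩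
        exact ⟨⟨g, hg⟩ * a * ⟨g, hg⟩⁻¹, (derivedSeries_normal O i).conj_mem a ha _, rfl⟩
      intro g hg
      rw [mem_normalizer_iff]
      refine fun a => ⟨h1 g hg a, fun ha => ?_⟩
      have := h1 g⁻¹ (inv_mem hg) _ ha
      simpa [mul_assoc] using this
    set A : Subgroup G := D i ⊔ N₀ with hA
    have hN₀A : N₀ ≤ A := le_sup_right
    have hAO : A ≤ O := sup_le hDO fun x hx => (hN₀c hx).1
    have hAnormal : ∀ g ∈ O, g ∈ normalizer (A : Set G) := fun g hg =>
      normalizer_inf_normalizer_le_normalizer_sup (D i) N₀ ⟨hDnormal g hg, hN₀O g hg⟩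
    have hAu : u ∈ normalizer (A : Set G) :=
      normalizer_inf_normalizer_le_normalizer_sup (D i) N₀
        ⟨mem_normalizer_of_conj hu.1 (hDu i), mem_normalizer_of_conj hu.1 huN₀⟩
    -- `A / N₀` is abelian
    have hmul : ∀ a ∈ A, ∃ d ∈ D i, ∃ x ∈ N₀, a = d * x := by
      intro a ha
      have h : a ∈ (D i : Set G) * (N₀ : Set G) := by
        rw [← coe_mul_of_left_le_normalizer_right _ _ (fun d hd => hN₀O d (hDO hd))]
        exact ha
      obtain ⟨d, hd, x, hx, rfl⟩ := Set.mem_mul.1 h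
      exact ⟨d, hd, x, hx, rfl⟩
    have hconjN : ∀ g ∈ O, ∀ x ∈ N₀, g * x * g⁻¹ ∈ N₀ := fun g hg x hx =>
      (mem_normalizer_iff.1 (hN₀O g hg) x).1 hx
    have hcomm : ∀ a ∈ A, ∀ b ∈ A, a * b * a⁻¹ * b⁻¹ ∈ N₀ := by
      intro a ha b hb
      have hbO := hAO hb
      obtain ⟨d, hd, x, hx, rfl⟩ := hmul a ha
      have h1 : x * (b * x⁻¹ * b⁻¹) ∈ N₀ := mul_mem hx (hconjN b hbO _ (inv_mem hx))
      suffices h2 : d * b * d⁻¹ * b⁻¹ ∈ N₀ by
        have e : d * x * b * (d * x)⁻¹ * b⁻¹ =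
            d * (x * (b * x⁻¹ * b⁻¹)) * d⁻¹ * (d * b * d⁻¹ * b⁻¹) := by group
        rw [e]
        exact mul_mem (hconjN d (hDO hd) _ h1) h2
      obtain ⟨d', hd', y, hy, rfl⟩ := hmul b hb
      have h3 : d * d' * d⁻¹ * d'⁻¹ ∈ N₀ := by
        obtain ⟨d₁, hd₁, rfl⟩ := hd
        obtain ⟨d₂, hd₂, rfl⟩ := hd'
        refine hi' ⟨⁅d₁, d₂⁆, ?_, by simp [commutatorElement_def]⟩
        rw [derivedSeries_succ]
        exact commutator_mem_commutator hd₁ hd₂
      have h4 : d * y * d⁻¹ * y⁻¹ ∈ N₀ := mul_mem (hconjN d (hDO hd) _ hy) (inv_mem hy)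
      have e : d * (d' * y) * d⁻¹ * (d' * y)⁻¹ =
          (d * d' * d⁻¹ * d'⁻¹) * (d' * (d * y * d⁻¹ * y⁻¹) * d'⁻¹) := by group
      rw [e]
      exact mul_mem h3 (hconjN d' (hDO hd') _ h4)
    -- `A` moves `c`, hence supplements the stabiliser
    have hAmove : ∃ g ∈ A, g • c ≠ c := by
      by_contra h
      push Not at h
      refine hi fun d hd g hg => ?_
      have hg' : g * d * g⁻¹ ∈ A := (mem_normalizer_iff.1 (hAnormal g hg) d).1 (mem_sup_left hd)
      exact ⟨hAO hg', h _ hg'⟩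
    have hsup : A ⊔ Oc = O := by
      by_contra h
      obtain ⟨g, hg, hgc⟩ := hAmove
      exact hgc (hex (A ⊔ Oc) le_sup_right (sup_le hAO inf_le_left) h
        (normalizer_inf_normalizer_le_normalizer_sup A Oc
          ⟨hAu, mem_normalizer_of_conj hu.1 huOc⟩) g (mem_sup_left hg))
    have hAc : ∀ x ∈ A, x • c = c → x ∈ N₀ := by
      intro x hx hxc g hg
      have h : g ∈ (Oc : Set G) * (A : Set G) := by
        rw [← coe_mul_of_left_le_normalizer_right Oc A (fun q hq => hAnormal q hq.1), sup_comm, hsup]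
        exact hg
      obtain ⟨q, hq, a, ha, rfl⟩ := Set.mem_mul.1 h
      have e : q * a * x * (q * a)⁻¹ = q * ((a * x * a⁻¹ * x⁻¹) * x) * q⁻¹ := by group
      rw [e]
      exact mul_mem (mul_mem hq (mul_mem (hN₀c (hcomm a ha x hx)) ⟨hAO hx, hxc⟩)) (inv_mem hq)
    -- `u` has no fixed coset in `A / N₀`, so inverts it
    have hAu' : ∀ a ∈ A, u * a * u⁻¹ ∈ A := fun a ha => (mem_normalizer_iff.1 hAu a).1 ha
    have hfree : ∀ a ∈ A, a⁻¹ * (u * a * u⁻¹) ∈ N₀ → a ∈ N₀ := by
      intro a ha h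
      obtain ⟨f, hf, hfu⟩ := exists_fixed_in_coset hu.1
        (hO.of_dvd_nat (card_dvd_of_le fun x hx => (hN₀c hx).1))
        (mem_normalizer_of_conj hu.1 huN₀) h
      have hfA : f ∈ A := by
        rw [show f = a * (a⁻¹ * f) by group]
        exact mul_mem ha (hN₀A hf)
      have hfc : f • c = c := hS.fix_unique u hu.1 _ _
        (by rw [← mul_smul, mul_inv_eq_iff_eq_mul.1 hfu, mul_smul, hu.2]) hu.2
      rw [show a = f * (a⁻¹ * f)⁻¹ by group]
      exact mul_mem (hAc f hfA hfc) (inv_mem hf)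
    have hsec : ∀ a ∈ A, u * a * u⁻¹ * a ∈ N₀ := by
      intro a ha
      refine hfree _ (mul_mem (hAu' a ha) ha) ?_
      have h := hcomm a⁻¹ (inv_mem ha) (u * a * u⁻¹)⁻¹ (inv_mem (hAu' a ha))
      rw [← conj_mul, conj_conj_involution hu.1]
      simpa [mul_assoc] using h
    obtain ⟨a₀, ha₀, ha₀'⟩ : ∃ a ∈ A, a ∉ N₀ := by
      by_contra h
      push Not at h
      obtain ⟨g, hg, hgc⟩ := hAmove
      exact hgc (hN₀c (h g hg)).2
    set v := a₀⁻¹ * (u * a₀ * u⁻¹) with hv
    have hvA : v ∈ A := mul_mem (inv_mem ha₀) (hAu' _ ha₀)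
    refine ⟨v, hAO hvA, ?_, fun hvc => ha₀' (hfree a₀ ha₀ (hAc v hvA hvc)), ?_⟩
    · rw [hv, ← conj_mul, ← conj_inv, conj_conj_involution hu.1]
      group
    · intro k hk hkc hki j
      have hmem : v ^ j ∈ A := zpow_mem hvA j
      have h := inverted_centralizes_section hki (odd_orderOf_of_mem hO hk) (hAnormal k hk)
        (hN₀O k hk) hsec _ hmem
      have hc : ((v ^ j)⁻¹ * (k * v ^ j * k⁻¹)) • c = c := (hN₀c h).2
      have hkinv : k⁻¹ • c = c := by rw [inv_smul_eq_iff, hkc]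
      rw [mul_smul, mul_smul, mul_smul, hkinv, inv_smul_eq_iff] at hc
      exact hc

/-- The powers of an element moving `c` contain one whose orbit of `c` has odd prime length. -/
theorem exists_prime_period [Finite G] {v : G} {c : Ω} (hv : Odd (orderOf v)) (hvc : v • c ≠ c) :
    ∃ m l : ℕ, l.Prime ∧ l ≠ 2 ∧ v ^ m • c ≠ c ∧ (v ^ m) ^ l • c = c := by
  classical
  set d := MulAction.period v c with hd
  have hd0 : 0 < d := MulAction.period_pos_of_orderOf_pos (orderOf_pos v) c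
  have hd1 : d ≠ 1 := fun h => hvc (by
    have := MulAction.pow_period_smul v c
    rwa [← hd, h, pow_one] at this)
  have hdo : d ∣ orderOf v := MulAction.period_dvd_orderOf v c
  refine ⟨d / d.minFac, d.minFac, Nat.minFac_prime hd1, ?_, ?_, ?_⟩
  · intro h
    exact hv.not_two_dvd_nat ((h ▸ Nat.minFac_dvd d).trans hdo)
  · rw [Ne, MulAction.pow_smul_eq_iff_period_dvd, ← hd]
    intro h
    have hp := Nat.minFac_prime hd1
    have hpos : 0 < d / d.minFac := Nat.div_pos (Nat.minFac_le hd0) hp.pos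
    exact absurd (Nat.le_of_dvd hpos h) (not_le.2 (Nat.div_lt_self hd0 hp.one_lt))
  · rw [← pow_mul, Nat.div_mul_cancel (Nat.minFac_dvd d), hd, MulAction.pow_period_smul]

end ZLine

/-- The Line lemma: an odd-order group normalised by `u` and moving its apex `c` gives a line of
prime length through `c` fixed pointwise by its inverted elements fixing `c`. -/
theorem exists_line [Finite G] (hS : Setting G Ω) {u : G} {c : Ω} (hu : InvAt u c) {O : Subgroup G}
    (hO : Odd (Nat.card O)) (huO : u ∈ Subgroup.normalizer (O : Set G))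
    (hmove : ∃ g ∈ O, g • c ≠ c) :
    ∃ v ∈ O, ∃ l : ℕ, l.Prime ∧ l ≠ 2 ∧ u * v * u⁻¹ = v⁻¹ ∧ v • c ≠ c ∧ v ^ l • c = c ∧
      ∀ k ∈ O, k • c = c → u * k * u⁻¹ = k⁻¹ → ∀ i : ℤ, k • v ^ i • c = v ^ i • c := by
  obtain ⟨v, hv, hvi, hvc, hk⟩ := ZLine.exists_inverted_moving hS hu _ O rfl hO huO hmove
  obtain ⟨m, l, hl, hl2, hmc, hmlc⟩ := ZLine.exists_prime_period (odd_orderOf_of_mem hO hv) hvc
  refine ⟨v ^ m, pow_mem hv m, l, hl, hl2, ?_, hmc, hmlc, fun k hk' hkc hki i => ?_⟩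
  · rw [← conj_pow, hvi, inv_pow]
  · rw [← zpow_natCast v m, ← zpow_mul]
    exact hk k hk' hkc hki _

section LineAlgebra

variable {u v : G} {c : Ω} {l : ℕ}

/-- The points of a line of prime length repeat exactly modulo the length. -/
theorem line_smul_eq_iff (hl : l.Prime) (hvc : v • c ≠ c) (hvl : v ^ l • c = c) {i j : ℤ} :
    v ^ i • c = v ^ j • c ↔ (l : ℤ) ∣ i - j := by
  have hp : MulAction.period v c = l := by
    have h := (MulAction.pow_smul_eq_iff_period_dvd (m := v) (a := c)).1 hvl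
    rcases hl.eq_one_or_self_of_dvd _ h with h1 | h1
    · have := MulAction.pow_period_smul v c
      rw [h1, pow_one] at this
      exact absurd this hvc
    · exact h1
  rw [show i - j = -j + i by ring, ← hp, ← MulAction.zpow_smul_eq_iff_period_dvd, zpow_add,
    mul_smul, zpow_neg, inv_smul_eq_iff]

/-- The involution `v ^ k u v ^ (-k)` has apex the `k`-th point. -/
theorem line_invAt (hu : InvAt u c) (k : ℤ) :
    InvAt (v ^ k * u * (v ^ k)⁻¹) (v ^ k • c) := by
  refine ⟨?_, ?_⟩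
  · rw [← hu.1, show v ^ k * u * (v ^ k)⁻¹ = MulAut.conj (v ^ k) u from rfl, MulEquiv.orderOf_eq]
  · rw [mul_smul, inv_smul_smul, mul_smul, hu.2]

/-- `u` reflects the line at `c`. -/
theorem line_smul_neg (hu : InvAt u c) (huv : u * v * u⁻¹ = v⁻¹) (j : ℤ) :
    u • v ^ j • c = v ^ (-j) • c := by
  have h : u * v ^ j = v ^ (-j) * u := by
    rw [← mul_inv_eq_iff_eq_mul, ← conj_zpow, huv, inv_zpow']
  rw [← mul_smul, h, mul_smul, hu.2]

/-- The conjugate involutions reflect the line. -/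
theorem line_reflect (hu : InvAt u c) (huv : u * v * u⁻¹ = v⁻¹) (k j : ℤ) :
    (v ^ k * u * (v ^ k)⁻¹) • v ^ j • c = v ^ (2 * k - j) • c := by
  rw [mul_smul, mul_smul, ← zpow_neg, ← mul_smul (v ^ (-k)), ← zpow_add, line_smul_neg hu huv,
    ← mul_smul, ← zpow_add]
  congr 2
  ring

/-- Indices modulo a prime closed under reflection, two of them distinct: everything. -/
theorem index_eq_univ_of_reflect (hl : l.Prime) {P : ℤ → Prop}
    (hper : ∀ i j : ℤ, (l : ℤ) ∣ i - j → P i → P j)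
    (hrefl : ∀ i j : ℤ, P i → P j → P (2 * i - j)) {i j : ℤ} (hi : P i) (hj : P j)
    (hij : ¬ (l : ℤ) ∣ i - j) (x : ℤ) : P x := by
  haveI := Fact.mk hl
  have hkey : ∀ n : ℕ, P (i + n * (j - i)) ∧ P (i + (n + 1 : ℕ) * (j - i)) := by
    intro n
    induction n with
    | zero => simpa using And.intro hi hj
    | succ n ih =>
      refine ⟨ih.2, ?_⟩
      have h := hrefl _ _ ih.2 ih.1
      push_cast at h ⊢
      convert h using 1
      ring
  have hd : ((j - i : ℤ) : ZMod l) ≠ 0 := by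
    rw [Ne, ZMod.intCast_zmod_eq_zero_iff_dvd]
    exact fun h => hij (by rw [← neg_sub]; exact h.neg_right)
  refine hper _ _ ?_ (hkey (((x - i : ℤ) : ZMod l) / ((j - i : ℤ) : ZMod l)).val).1
  rw [← ZMod.intCast_zmod_eq_zero_iff_dvd, Int.cast_sub, Int.cast_add, Int.cast_mul,
    Int.cast_natCast, ZMod.natCast_zmod_val, div_mul_cancel₀ _ hd]
  push_cast
  ring

/-- Indices modulo an odd prime closed under middles, two of them distinct: everything. -/
theorem index_eq_univ_of_middle (hl : l.Prime) (hl2 : l ≠ 2) {P : ℤ → Prop}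
    (hper : ∀ i j : ℤ, (l : ℤ) ∣ i - j → P i → P j)
    (hmid : ∀ i j k : ℤ, P i → P j → (l : ℤ) ∣ 2 * k - (i + j) → P k) {i j : ℤ} (hi : P i)
    (hj : P j) (hij : ¬ (l : ℤ) ∣ i - j) (x : ℤ) : P x := by
  haveI := Fact.mk hl
  refine index_eq_univ_of_reflect hl hper (fun a b ha hb => ?_) hi hj hij x
  have h2 : (2 : ZMod l) ≠ 0 := by
    intro h
    have h' : ((2 : ℕ) : ZMod l) = 0 := by exact_mod_cast h
    rw [ZMod.natCast_eq_zero_iff] at h'
    exact hl2 ((Nat.prime_dvd_prime_iff_eq hl Nat.prime_two).1 h')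
  set hf : ℕ := ((2 : ZMod l)⁻¹).val with hhf
  have hf2 : 2 * ((hf : ℤ) : ZMod l) = 1 := by
    rw [Int.cast_natCast, hhf, ZMod.natCast_zmod_val, mul_inv_cancel₀ h2]
  have hhalf : ∀ n : ℕ, P (b + (hf : ℤ) ^ n * (a - b)) := by
    intro n
    induction n with
    | zero => simpa using ha
    | succ n ih =>
      refine hmid b _ _ hb ih ?_
      rw [← ZMod.intCast_zmod_eq_zero_iff_dvd]
      push_cast at hf2 ⊢
      linear_combination ((hf : ZMod l) ^ n * ((a : ZMod l) - (b : ZMod l))) * hf2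
  have hl3 : 3 ≤ l := by
    have := hl.two_le
    omega
  refine hper _ _ ?_ (hhalf (l - 2))
  rw [← ZMod.intCast_zmod_eq_zero_iff_dvd]
  have hpow : (hf : ZMod l) ^ (l - 2) = 2 := by
    have h0 : (hf : ZMod l) ≠ 0 := fun h => by
      push_cast at hf2
      rw [h, mul_zero] at hf2
      exact zero_ne_one hf2
    have h1 : (hf : ZMod l) ^ (l - 2) * (hf : ZMod l) = 1 := by
      rw [← pow_succ, show l - 2 + 1 = l - 1 by omega, ZMod.pow_card_sub_one_eq_one h0]
    push_cast at hf2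
    exact mul_right_cancel₀ h0 (h1.trans hf2.symm)
  push_cast
  rw [hpow]
  ring

/-- An element fixing two points of a line, whose fixed indices are closed under reflection, fixes
all of it. -/
theorem line_fix_all (hl : l.Prime) (hvc : v • c ≠ c) (hvl : v ^ l • c = c) {g : G}
    (hrefl : ∀ i j : ℤ, g • v ^ i • c = v ^ i • c → g • v ^ j • c = v ^ j • c →
      g • v ^ (2 * i - j) • c = v ^ (2 * i - j) • c)
    {i j : ℤ} (hi : g • v ^ i • c = v ^ i • c) (hj : g • v ^ j • c = v ^ j • c)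
    (hij : ¬ (l : ℤ) ∣ i - j) (x : ℤ) : g • v ^ x • c = v ^ x • c :=
  index_eq_univ_of_reflect hl (P := fun k => g • v ^ k • c = v ^ k • c)
    (fun a b hab ha => by
      rw [← (line_smul_eq_iff hl hvc hvl).2 hab]
      exact ha) hrefl hi hj hij x

/-- The same, when the fixed indices are closed under middles. -/
theorem line_fix_all_of_middle (hl : l.Prime) (hl2 : l ≠ 2) (hvc : v • c ≠ c)
    (hvl : v ^ l • c = c) {g : G}
    (hmid : ∀ i j k : ℤ, g • v ^ i • c = v ^ i • c → g • v ^ j • c = v ^ j • c →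
      (l : ℤ) ∣ 2 * k - (i + j) → g • v ^ k • c = v ^ k • c)
    {i j : ℤ} (hi : g • v ^ i • c = v ^ i • c) (hj : g • v ^ j • c = v ^ j • c)
    (hij : ¬ (l : ℤ) ∣ i - j) (x : ℤ) : g • v ^ x • c = v ^ x • c :=
  index_eq_univ_of_middle hl hl2 (P := fun k => g • v ^ k • c = v ^ k • c)
    (fun a b hab ha => by
      rw [← (line_smul_eq_iff hl hvc hvl).2 hab]
      exact ha) hmid hi hj hij x

end LineAlgebra

end Cfsg.Agent.H14.Bender
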