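import Cfsg.Agent.H14.Bender.IHFacts
import Cfsg.Agent.H14.Bender.TameAbs
import Cfsg.Agent.H14.Bender.ZLine

/-!
TAME-TWINS and TAME-STAR relative to a proper rich subgroup `N`, through its image in the
permutations of its apexes (`PLAN.md`, sec. 5).
-/

set_option autoImplicit false

namespace Cfsg.Agent.H14.Bender

universe u

variable {G : Type u} [Group G] {Ω : Type u} [MulAction G Ω]

namespace TameAux

open IHFacts

/-- The image of a subgroup in the permutations of the apexes of `N`. -/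
def img (Ω : Type u) [MulAction G Ω] (N P : Subgroup G) :
    Subgroup ↥(apexHom (Ω := Ω) N).range :=
  (P.subgroupOf N).map (apexHom (Ω := Ω) N).rangeRestrict

variable {N : Subgroup G}

theorem mem_img {P : Subgroup G} {k : ↥(apexHom (Ω := Ω) N).range} :
    k ∈ img Ω N P ↔ ∃ g : ↥N, (g : G) ∈ P ∧ (apexHom N).rangeRestrict g = k :=
  Iff.rfl

theorem img_mem {P : Subgroup G} (g : ↥N) (hg : (g : G) ∈ P) :
    (apexHom (Ω := Ω) N).rangeRestrict g ∈ img Ω N P :=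
  ⟨g, hg, rfl⟩

theorem range_smul (g : ↥N) (y : ↥(apexSet N : Set Ω)) :
    (((apexHom (Ω := Ω) N).rangeRestrict g • y : ↥(apexSet N : Set Ω)) : Ω) =
      (g : G) • (y : Ω) := rfl

theorem mem_fixPts_img {P : Subgroup G} (hP : P ≤ N) {x : ↥(apexSet N : Set Ω)} :
    x ∈ fixPts ↥(apexSet N : Set Ω) (img Ω N P) ↔ (x : Ω) ∈ fixedOn P (apexSet N : Set Ω) := by
  constructor
  · intro h
    exact ⟨x.2, fun q hq => congrArg Subtype.val (h _ (img_mem ⟨q, hP hq⟩ hq))⟩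
  · intro h k hk
    obtain ⟨g, hg, rfl⟩ := hk
    exact Subtype.ext (h.2 _ hg)

theorem ncard_fixPts_img {P : Subgroup G} (hP : P ≤ N) :
    (fixPts ↥(apexSet N : Set Ω) (img Ω N P)).ncard = (fixedOn P (apexSet N : Set Ω)).ncard := by
  rw [← Set.ncard_image_of_injective _ Subtype.val_injective]
  congr 1
  ext x
  constructor
  · rintro ⟨y, hy, rfl⟩
    exact (mem_fixPts_img hP).1 hy
  · intro hx
    exact ⟨⟨x, hx.1⟩, (mem_fixPts_img hP).2 hx, rfl⟩

theorem img_pairStab (c z : ↥(apexSet N : Set Ω)) :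
    img Ω N (N ⊓ pairStab (c : Ω) (z : Ω)) =
      pairStab (G := ↥(apexHom (Ω := Ω) N).range) c z := by
  ext k
  constructor
  · rintro ⟨g, hg, rfl⟩
    exact ⟨Subtype.ext hg.2.1, Subtype.ext hg.2.2⟩
  · intro hk
    obtain ⟨g, rfl⟩ := (apexHom (Ω := Ω) N).rangeRestrict_surjective k
    exact img_mem g ⟨g.2, congrArg Subtype.val hk.1, congrArg Subtype.val hk.2⟩

/-- The image of a Sylow subgroup is a Sylow subgroup of the image. -/
theorem card_map_syl {A B : Type*} [Group A] [Group B] [Finite A] (f : A →* B) {r : ℕ}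
    [Fact r.Prime] {P : Subgroup A} (hP : Nat.card P = r ^ (Nat.card A).factorization r) :
    Nat.card ↥(P.map f) = r ^ (Nat.card ↥f.range).factorization r := by
  have : Finite ↥f.range := Finite.of_surjective _ f.rangeRestrict_surjective
  let S : Sylow r A := Sylow.ofCard P hP
  have h := (S.mapSurjective f.rangeRestrict_surjective).card_eq_multiplicity
  rw [← h]
  have hm : P.map f = ((S : Subgroup A).map f.rangeRestrict).map f.range.subtype := by
    rw [Subgroup.map_map]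
    rfl
  rw [hm, Subgroup.card_map_of_injective f.range.subtype_injective]
  rfl

theorem isSyl_img [Finite G] {r : ℕ} [Fact r.Prime] {P X : Subgroup G} (hX : X ≤ N) (hPX : P ≤ X)
    (hP : Nat.card P = r ^ (Nat.card X).factorization r) :
    IsSyl r (img Ω N P) (img Ω N X) := by
  refine ⟨Subgroup.map_mono fun g hg => hPX hg, ?_⟩
  let f : ↥X →* ↥(apexHom (Ω := Ω) N).range :=
    (apexHom (Ω := Ω) N).rangeRestrict.comp (Subgroup.inclusion hX)
  have hXr : img Ω N X = f.range := by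
    ext k
    constructor
    · rintro ⟨g, hg, rfl⟩
      exact ⟨⟨g, hg⟩, rfl⟩
    · rintro ⟨g, rfl⟩
      exact img_mem _ g.2
  have hPm : img Ω N P = (P.subgroupOf X).map f := by
    ext k
    constructor
    · rintro ⟨g, hg, rfl⟩
      exact ⟨⟨g, hPX hg⟩, hg, rfl⟩
    · rintro ⟨g, hg, rfl⟩
      exact img_mem _ hg
  have hc : Nat.card ↥(P.subgroupOf X) = r ^ (Nat.card ↥X).factorization r := by
    rw [Nat.card_congr (Subgroup.subgroupOfEquivOfLe hPX).toEquiv, hP]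
  rw [hPm, hXr]
  exact card_map_syl f hc

theorem isPGroup_img {r : ℕ} {P : Subgroup G} (hP : IsPGroup r P) :
    IsPGroup r ↥(img Ω N P) :=
  (hP.comap_subtype).map _

theorem commute_apply {g h : ↥N}
    (hc : (apexHom (Ω := Ω) N).rangeRestrict g * (apexHom N).rangeRestrict h =
      (apexHom N).rangeRestrict h * (apexHom N).rangeRestrict g)
    {y : Ω} (hy : y ∈ (apexSet N : Set Ω)) : (g : G) • (h : G) • y = (h : G) • (g : G) • y := by
  have h1 := congrArg (fun k => k • (⟨y, hy⟩ : ↥(apexSet N : Set Ω))) hc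
  simp only [mul_smul] at h1
  exact congrArg Subtype.val h1

theorem mem_centOn_iff {W : Subgroup G} (hW : W ≤ N) (g : ↥N) :
    (apexHom (Ω := Ω) N).rangeRestrict g ∈ Subgroup.centralizer (img Ω N W : Set _) ↔
      (g : G) ∈ centOn N (apexSet N : Set Ω) W := by
  constructor
  · intro h
    refine ⟨⟨g.2, fun x => ⟨fun hx => ?_, smul_mem_apexSet g.2⟩⟩, fun q hq y hy => ?_⟩
    · have := smul_mem_apexSet (inv_mem g.2) hx
      rwa [inv_smul_smul] at this
    · exact (commute_apply (Subgroup.mem_centralizer_iff.1 h _ (img_mem ⟨q, hW hq⟩ hq)) hy).symm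
  · intro h
    rw [Subgroup.mem_centralizer_iff]
    rintro k ⟨q, hq, rfl⟩
    refine Subtype.ext (Equiv.ext fun y => Subtype.ext ?_)
    exact (h.2 q hq y y.2).symm

theorem mem_apexSet_centOn [Finite G] (hS : Setting G Ω) (hN : Rich Ω N) {W : Subgroup G}
    (hW : W ≤ N) {x : ↥(apexSet N : Set Ω)} :
    x ∈ apexSet (Subgroup.centralizer (img Ω N W : Set ↥(apexHom (Ω := Ω) N).range)) ↔
      (x : Ω) ∈ apexSet (centOn N (apexSet N : Set Ω) W) := by
  constructor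
  · rintro ⟨k, hk, hk2, hkx⟩
    obtain ⟨t, ht2, rfl⟩ := exists_lift hS hN.2 hk2
    exact ⟨t, (mem_centOn_iff hW t).1 hk, ht2, congrArg Subtype.val hkx⟩
  · rintro ⟨t, ht, ht2, htx⟩
    exact ⟨(apexHom N).rangeRestrict ⟨t, ht.1.1⟩, (mem_centOn_iff hW ⟨t, ht.1.1⟩).2 ht,
      orderOf_apexHom hS hN.2 ht2, Subtype.ext htx⟩

theorem apexSet_centOn_subset {W : Subgroup G} :
    (apexSet (centOn N (apexSet N : Set Ω) W) : Set Ω) ⊆ apexSet N :=
  fun _ ⟨t, ht, htx⟩ => ⟨t, ht.1.1, htx⟩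

/-- A commuting pair of involutions of a quotient by a kernel without involutions lifts. -/
theorem exists_pair_lift {A B : Type*} [Group A] [Group B] [Finite A] (f : A →* B)
    (hf : Function.Surjective f) (hker : ∀ a : A, orderOf a = 2 → f a ≠ 1) {x y : B}
    (hx : orderOf x = 2) (hy : orderOf y = 2) (hxy : x ≠ y) (hc : Commute x y) :
    ∃ a b : A, orderOf a = 2 ∧ orderOf b = 2 ∧ a ≠ b ∧ Commute a b := by
  have : Finite B := Finite.of_surjective f hf
  have : Fact (Nat.Prime 2) := ⟨Nat.prime_two⟩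
  have hzp : ∀ w : B, orderOf w = 2 → IsPGroup 2 ↥(Subgroup.zpowers w) := fun w hw =>
    IsPGroup.of_card (n := 1) (by rw [Nat.card_zpowers, hw, pow_one])
  have hE : IsPGroup 2 ↥(Subgroup.zpowers x ⊔ Subgroup.zpowers y) := by
    refine (hzp x hx).to_sup_of_normal_right' (hzp y hy) (Subgroup.zpowers_le.2 ?_)
    rw [Subgroup.mem_normalizer_iff]
    intro n
    constructor
    · rintro ⟨i, rfl⟩
      exact ⟨i, by rw [(hc.zpow_right i).eq, mul_inv_cancel_right]⟩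
    · rintro ⟨i, hi⟩
      refine ⟨i, ?_⟩
      have hi' : y ^ i = x * n * x⁻¹ := hi
      calc y ^ i = x⁻¹ * (x * y ^ i) := by group
        _ = x⁻¹ * (y ^ i * x) := by rw [(hc.zpow_right i).eq]
        _ = x⁻¹ * (x * n * x⁻¹ * x) := by rw [hi']
        _ = n := by group
  obtain ⟨T, hT⟩ := hE.exists_le_sylow
  obtain ⟨b, hb⟩ := MulAction.exists_smul_eq B T ((default : Sylow 2 A).mapSurjective hf)
  set S : Sylow 2 A := default
  have hmem : ∀ w ∈ (T : Subgroup B), ∃ a ∈ (S : Subgroup A), f a = b * w * b⁻¹ := by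
    intro w hw
    have h : b * w * b⁻¹ ∈ (S.mapSurjective hf : Subgroup B) := by
      rw [← hb, Sylow.coe_subgroup_smul, Subgroup.mem_pointwise_smul_iff_inv_smul_mem]
      simpa [MulAut.smul_def, mul_assoc] using hw
    exact h
  have hinj : ∀ a ∈ (S : Subgroup A), f a = 1 → a = 1 := by
    intro a ha h1
    by_contra hne
    obtain ⟨n, hn⟩ := S.2 ⟨a, ha⟩
    have hpow : a ^ 2 ^ n = 1 := congrArg Subtype.val hn
    obtain ⟨i, -, hi⟩ := (Nat.dvd_prime_pow Nat.prime_two).1 (orderOf_dvd_of_pow_eq_one hpow)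
    obtain ⟨j, rfl⟩ : ∃ j, i = j + 1 := by
      rcases i with _ | j
      · rw [pow_zero, orderOf_eq_one_iff] at hi
        exact absurd hi hne
      · exact ⟨j, rfl⟩
    refine hker (a ^ 2 ^ j) ?_ (by rw [map_pow, h1, one_pow])
    rw [orderOf_pow_of_dvd (by positivity) (by rw [hi, pow_succ]; exact dvd_mul_right _ _), hi,
      pow_succ, Nat.mul_div_cancel_left _ (by positivity)]
  have hinj' : ∀ a ∈ (S : Subgroup A), ∀ a' ∈ (S : Subgroup A), f a = f a' → a = a' :=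
    fun a ha a' ha' h => mul_inv_eq_one.1 (hinj _ (mul_mem ha (inv_mem ha'))
      (by rw [map_mul, map_inv, h, mul_inv_cancel]))
  obtain ⟨a, ha, hfa⟩ := hmem x (hT (Subgroup.mem_sup_left (Subgroup.mem_zpowers x)))
  obtain ⟨a', ha', hfa'⟩ := hmem y (hT (Subgroup.mem_sup_right (Subgroup.mem_zpowers y)))
  have hord : ∀ (a : A), a ∈ (S : Subgroup A) → ∀ w, f a = b * w * b⁻¹ → orderOf w = 2 →
      orderOf a = 2 := by
    intro a ha w hfa hw
    refine H50.orderOf_eq_two (hinj _ (mul_mem ha ha) ?_) fun h => ?_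
    · rw [map_mul, hfa, show b * w * b⁻¹ * (b * w * b⁻¹) = b * (w * w) * b⁻¹ by group,
        H50.inv_mul_self hw, mul_one, mul_inv_cancel]
    · rw [h, map_one] at hfa
      have : w = 1 := conj_eq_one_iff.1 hfa.symm
      rw [this, orderOf_one] at hw
      omega
  refine ⟨a, a', hord a ha x hfa hx, hord a' ha' y hfa' hy, fun h => hxy ?_,
    hinj' _ (mul_mem ha ha') _ (mul_mem ha' ha) ?_⟩
  · rw [h, hfa'] at hfa
    exact (mul_left_cancel (mul_right_cancel hfa)).symm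
  · rw [map_mul, map_mul, hfa, hfa']
    exact (hc.map (MulAut.conj b).toMonoidHom).eq

theorem rich_centOn [Finite G] (hS : Setting G Ω) (hN : Rich Ω N) {W : Subgroup G} (hW : W ≤ N)
    (hR : Rich ↥(apexSet N : Set Ω)
      (Subgroup.centralizer (img Ω N W : Set ↥(apexHom (Ω := Ω) N).range))) :
    Rich Ω (centOn N (apexSet N : Set Ω) W) := by
  obtain ⟨⟨x, hx, y, hy, hx2, hy2, hxy, hc⟩, ⟨a, ha, b, hb, hab⟩⟩ := hR
  refine ⟨?_, ⟨a, (mem_apexSet_centOn hS hN hW).1 ha, b, (mem_apexSet_centOn hS hN hW).1 hb,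
    fun h => hab (Subtype.ext h)⟩⟩
  let C := Subgroup.centralizer (img Ω N W : Set ↥(apexHom (Ω := Ω) N).range)
  let f := (apexHom (Ω := Ω) N).rangeRestrict.subgroupComap C
  have hf : Function.Surjective f := by
    rintro ⟨k, hk⟩
    obtain ⟨g, rfl⟩ := (apexHom (Ω := Ω) N).rangeRestrict_surjective k
    exact ⟨⟨g, hk⟩, rfl⟩
  have hker : ∀ g : ↥(C.comap (apexHom (Ω := Ω) N).rangeRestrict), orderOf g = 2 → f g ≠ 1 := by
    intro g hg h
    refine apexHom_ne_one hS hN.2 (g := g.1) ?_ (congrArg (fun k => k.1.1) h)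
    rw [Subgroup.orderOf_coe, Subgroup.orderOf_coe, hg]
  obtain ⟨s, t, hs, ht, hst, hcs⟩ := exists_pair_lift f hf hker (x := ⟨x, hx⟩) (y := ⟨y, hy⟩)
    (by rwa [Subgroup.orderOf_mk]) (by rwa [Subgroup.orderOf_mk])
    (fun h => hxy (congrArg Subtype.val h)) (Subtype.ext hc.eq)
  refine ⟨((s : ↥N) : G), (mem_centOn_iff hW _).1 s.2, ((t : ↥N) : G),
    (mem_centOn_iff hW _).1 t.2, ?_, ?_, fun h => hst (Subtype.ext (Subtype.ext h)), ?_⟩
  · rw [Subgroup.orderOf_coe, Subgroup.orderOf_coe, hs]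
  · rw [Subgroup.orderOf_coe, Subgroup.orderOf_coe, ht]
  · exact congrArg (fun g => ((g.1 : ↥N) : G)) hcs.eq

theorem tame_range [Finite G] [Finite Ω] (hS : Setting G Ω) (hIH : IH.{u} (Nat.card G))
    (hN : Rich Ω N) (hNtop : N ≠ ⊤) :
    Tame ↥(apexHom (Ω := Ω) N).range ↥(apexSet N : Set Ω) := by
  obtain ⟨hset, hrich⟩ := setting_range hS hN
  obtain ⟨h1, h2⟩ := conc_range hS hIH hN hNtop
  exact ⟨hset, h1, h2, hrich⟩

theorem hasLine [Finite G] (hS : Setting G Ω) : HasLine G Ω := by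
  intro t x O ht hO htO hmove
  obtain ⟨v, -, l, -, -, -, hvx, -, hk⟩ := exists_line hS ht hO htO hmove
  refine ⟨v • x, hvx, fun k hk' hkx hki => ?_⟩
  have h := hk k hk' hkx hki 1
  rwa [zpow_one] at h

end TameAux

open TameAux IHFacts

variable [Finite G] [Finite Ω] {N : Subgroup G} {c z : Ω} {r : ℕ} [Fact r.Prime] {P : Subgroup G}

/-- TAME-TWINS, point form. -/
theorem twins_point (hS : Setting G Ω) (hIH : IH.{u} (Nat.card G)) (hN : Rich Ω N) (hNtop : N ≠ ⊤)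
    (hc : c ∈ apexSet N) (hz : z ∈ apexSet N) (hcz : c ≠ z) (hP : P ≤ N ⊓ pairStab c z)
    (hPcard : Nat.card P = r ^ ((Nat.card ↥(N ⊓ pairStab (G := G) c z)).factorization r))
    {x : Ω} (hx : x ∈ fixedOn P (apexSet N)) (hxc : x ≠ c) (hxz : x ≠ z) :
    ∃ t ∈ N, InvAt t c ∧ ∀ p ∈ P, ∀ y ∈ (apexSet N : Set Ω), t • p • y = p • t • y := by
  have hT := tame_range hS hIH hN hNtop
  have hsyl : IsSyl r (img Ω N P)
      (pairStab (G := ↥(apexHom (Ω := Ω) N).range) (⟨c, hc⟩ : ↥(apexSet N : Set Ω)) ⟨z, hz⟩) := by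
    rw [← img_pairStab]
    exact isSyl_img inf_le_left hP hPcard
  have hPN : P ≤ N := hP.trans inf_le_left
  have h3 : 2 < (fixPts ↥(apexSet N : Set Ω) (img Ω N P)).ncard := by
    rw [ncard_fixPts_img hPN, Set.two_lt_ncard (Set.toFinite _)]
    exact ⟨c, ⟨hc, fun p hp => (hP hp).2.1⟩, z, ⟨hz, fun p hp => (hP hp).2.2⟩, x, hx, hcz,
      hxc.symm, hxz.symm⟩
  obtain ⟨k, ⟨hk2, hkc⟩, hcomm⟩ := exists_invAt_centralizing hT
    (fun h => hcz (congrArg Subtype.val h)) hsyl h3 (y := ⟨c, hc⟩)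
    ((mem_fixPts_img hPN).2 ⟨hc, fun p hp => (hP hp).2.1⟩)
  obtain ⟨t, ht2, rfl⟩ := exists_lift hS hN.2 hk2
  refine ⟨t, t.2, ⟨ht2, congrArg Subtype.val hkc⟩, fun p hp y hy => ?_⟩
  exact commute_apply (hcomm _ (img_mem ⟨p, hPN hp⟩ hp)).eq hy

/-- TAME-TWINS. -/
theorem twins (hS : Setting G Ω) (hIH : IH.{u} (Nat.card G)) (hN : Rich Ω N) (hNtop : N ≠ ⊤)
    (hc : c ∈ apexSet N) (hz : z ∈ apexSet N) (hcz : c ≠ z) (hP : P ≤ N ⊓ pairStab c z)
    (hPcard : Nat.card P = r ^ ((Nat.card ↥(N ⊓ pairStab (G := G) c z)).factorization r))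
    {x : Ω} (hx : x ∈ fixedOn P (apexSet N)) (hxc : x ≠ c) (hxz : x ≠ z)
    {W : Subgroup G} (hW : W ≤ N ⊓ pairStab c z)
    (hWn : ∀ g ∈ N ⊓ pairStab (G := G) c z, ∀ w ∈ W, g * w * g⁻¹ ∈ W)
    (hWr : ∀ w ∈ W, ∃ k : ℕ, w ^ r ^ k ∈ fixTo (G := G) (apexSet N : Set Ω)) :
    Rich Ω (centOn N (apexSet N : Set Ω) W) ∧ c ∈ apexSet (centOn N (apexSet N : Set Ω) W) ∧
      z ∈ apexSet (centOn N (apexSet N : Set Ω) W) ∧
      ∀ w ∈ W, ∀ y ∈ (apexSet (centOn N (apexSet N : Set Ω) W) : Set Ω), w • y = y := by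
  have hT := tame_range hS hIH hN hNtop
  have hsyl : IsSyl r (img Ω N P)
      (pairStab (G := ↥(apexHom (Ω := Ω) N).range) (⟨c, hc⟩ : ↥(apexSet N : Set Ω)) ⟨z, hz⟩) := by
    rw [← img_pairStab]
    exact isSyl_img inf_le_left hP hPcard
  have hPN : P ≤ N := hP.trans inf_le_left
  have hWN : W ≤ N := hW.trans inf_le_left
  have h3 : 2 < (fixPts ↥(apexSet N : Set Ω) (img Ω N P)).ncard := by
    rw [ncard_fixPts_img hPN, Set.two_lt_ncard (Set.toFinite _)]
    exact ⟨c, ⟨hc, fun p hp => (hP hp).2.1⟩, z, ⟨hz, fun p hp => (hP hp).2.2⟩, x, hx, hcz,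
      hxc.symm, hxz.symm⟩
  have hW' : img Ω N W ≤
      pairStab (G := ↥(apexHom (Ω := Ω) N).range) (⟨c, hc⟩ : ↥(apexSet N : Set Ω)) ⟨z, hz⟩ := by
    rw [← img_pairStab]
    exact Subgroup.map_mono fun g hg => hW hg
  have hWr' : IsPGroup r ↥(img Ω N W) := by
    rintro ⟨k, g, hg, rfl⟩
    obtain ⟨n, hn⟩ := hWr g hg
    refine ⟨n, Subtype.ext ?_⟩
    rw [SubmonoidClass.coe_pow, OneMemClass.coe_one, ← map_pow]
    exact Subtype.ext (apexHom_eq_one.2 hn)
  have hWn' : ∀ k ∈ pairStab (G := ↥(apexHom (Ω := Ω) N).range)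
      (⟨c, hc⟩ : ↥(apexSet N : Set Ω)) ⟨z, hz⟩,
      ∀ w ∈ img Ω N W, k * w * k⁻¹ ∈ img Ω N W := by
    rw [← img_pairStab]
    rintro k ⟨g, hg, rfl⟩ w ⟨a, ha, rfl⟩
    rw [← map_inv, ← map_mul, ← map_mul]
    exact img_mem _ (hWn g hg a ha)
  obtain ⟨hR, hcC, hzC, hfix⟩ :=
    TameAux.twins hT (fun h => hcz (congrArg Subtype.val h)) hsyl h3 hW' hWr' hWn'
  refine ⟨rich_centOn hS hN hWN hR, (mem_apexSet_centOn hS hN hWN).1 hcC,
    (mem_apexSet_centOn hS hN hWN).1 hzC, fun w hw y hy => ?_⟩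
  exact congrArg Subtype.val (hfix _ (img_mem ⟨w, hWN hw⟩ hw) ⟨y, apexSet_centOn_subset hy⟩
    ((mem_apexSet_centOn hS hN hWN).2 hy))

theorem fixPts_img_pair {hc : c ∈ apexSet N} {hz : z ∈ apexSet N} (hP : P ≤ N)
    (hPF : fixedOn P (apexSet N : Set Ω) = {c, z}) :
    fixPts ↥(apexSet N : Set Ω) (img Ω N P) = {⟨c, hc⟩, ⟨z, hz⟩} := by
  ext y
  rw [mem_fixPts_img hP, hPF]
  simp [Subtype.ext_iff]

theorem mem_apexSet_of_fixedOn (hPF : fixedOn P (apexSet N : Set Ω) = {c, z}) :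
    c ∈ (apexSet N : Set Ω) ∧ z ∈ (apexSet N : Set Ω) := by
  have hc : c ∈ fixedOn P (apexSet N : Set Ω) := hPF.symm ▸ Or.inl rfl
  have hz : z ∈ fixedOn P (apexSet N : Set Ω) := hPF.symm ▸ Or.inr rfl
  exact ⟨hc.1, hz.1⟩

/-- The number of apexes when some `r`-subgroup fixes exactly two of them. -/
theorem card_apexSet_modEq (hP : P ≤ N) (hPr : IsPGroup r P)
    (hPF : fixedOn P (apexSet N) = {c, z}) (hcz : c ≠ z) :
    (apexSet N : Set Ω).ncard ≡ 2 [MOD r] := by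
  obtain ⟨hc, hz⟩ := mem_apexSet_of_fixedOn hPF
  have h := card_modEq_two (r := r) (isPGroup_img (Ω := Ω) (N := N) hPr)
    (fun h => hcz (congrArg Subtype.val h)) (fixPts_img_pair (hc := hc) (hz := hz) hP hPF)
  rwa [Set.ncard_univ, Nat.card_coe_set_eq] at h

/-- TAME-STAR. -/
theorem star (hS : Setting G Ω) (hIH : IH.{u} (Nat.card G)) (hN : Rich Ω N) (hNtop : N ≠ ⊤)
    (hP : P ≤ N) (hPr : IsPGroup r P) (hPF : fixedOn P (apexSet N) = {c, z}) (hcz : c ≠ z)
    {Q : Subgroup G} (hQ : Q ≤ N) (hQr : IsPGroup r Q)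
    (hQF : 2 < (fixedOn Q (apexSet N : Set Ω)).ncard) :
    Rich Ω (centOn N (apexSet N : Set Ω) Q) ∧
      apexSet (centOn N (apexSet N : Set Ω) Q) = fixedOn Q (apexSet N : Set Ω) := by
  obtain ⟨hc, hz⟩ := mem_apexSet_of_fixedOn hPF
  have hT := tame_range hS hIH hN hNtop
  have hne : (⟨c, hc⟩ : ↥(apexSet N : Set Ω)) ≠ ⟨z, hz⟩ := fun h => hcz (congrArg Subtype.val h)
  have hPr' := isPGroup_img (Ω := Ω) (N := N) hPr
  have hQr' := isPGroup_img (Ω := Ω) (N := N) hQr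
  have hPF' := fixPts_img_pair (hc := hc) (hz := hz) hP hPF
  have h3 : 2 < (fixPts ↥(apexSet N : Set Ω) (img Ω N Q)).ncard := by
    rwa [ncard_fixPts_img hQ]
  refine ⟨rich_centOn hS hN hQ (exists_pair_centralizer hT
    (TameAux.hasLine (setting_range hS hN).1) hne hPr' hPF' hQr' h3), ?_⟩
  have hap := apexSet_centralizer hT hne hPr' hPF' hQr' h3
  ext x
  constructor
  · intro hx
    have h : (⟨x, apexSet_centOn_subset hx⟩ : ↥(apexSet N : Set Ω)) ∈
        apexSet (Subgroup.centralizer (img Ω N Q : Set ↥(apexHom (Ω := Ω) N).range)) :=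
      (mem_apexSet_centOn hS hN hQ).2 hx
    rw [hap] at h
    exact (mem_fixPts_img hQ).1 h
  · intro hx
    have h : (⟨x, hx.1⟩ : ↥(apexSet N : Set Ω)) ∈
        fixPts ↥(apexSet N : Set Ω) (img Ω N Q) := (mem_fixPts_img hQ).2 hx
    rw [← hap] at h
    exact (mem_apexSet_centOn hS hN hQ).1 h

end Cfsg.Agent.H14.Bender
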