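import Cfsg.Agent.H14.Bender.Defs
import Cfsg.Agent.H14.Bender.IHFacts
import Cfsg.Agent.H14.Bender.Coprime
import Cfsg.Agent.H14.Bender.Tame

/-!
Groundwork for `Final.lean`: counting involutions at a point and inverted elements, fixed points of
`p`-subgroups of a proper rich subgroup holding all involutions at a point, the odd core.
-/

set_option autoImplicit false

namespace Cfsg.Agent.H14.Bender

universe u

variable {G : Type u} [Group G] {Ω : Type u} [MulAction G Ω]


namespace Final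

open IHFacts
open scoped Pointwise

/-! ### Involutions and pairs of points -/

theorem inv_eq_self {t : G} (ht : orderOf t = 2) : t⁻¹ = t :=
  inv_eq_of_mul_eq_one_right (sq_eq_one ht)

theorem invAt_conj {t : G} {c : Ω} (h : InvAt t c) (g : G) : InvAt (g * t * g⁻¹) (g • c) := by
  refine ⟨?_, by rw [mul_smul, mul_smul, inv_smul_smul, h.2]⟩
  rw [← h.1]
  exact orderOf_injective (MulAut.conj g).toMonoidHom (MulAut.conj g).injective t

/-- A group fixing two points has odd order. -/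
theorem odd_of_le_pairStab [Finite G] (hS : Setting G Ω) {a b : Ω} (hab : a ≠ b) {D : Subgroup G}
    (hD : D ≤ pairStab a b) : Odd (Nat.card D) := by
  haveI : Fact (Nat.Prime 2) := ⟨Nat.prime_two⟩
  by_contra h
  rw [Nat.not_odd_iff_even, even_iff_two_dvd] at h
  obtain ⟨⟨t, ht⟩, ht2⟩ := exists_prime_orderOf_dvd_card' 2 h
  rw [Subgroup.orderOf_mk] at ht2
  exact hab (hS.fix_unique t ht2 a b (hD ht).1 (hD ht).2)

/-- The middle involution of two involutions with different apexes. -/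
theorem exists_middle [Finite G] (hS : Setting G Ω) {M : Subgroup G} {s t : G} {x y : Ω}
    (hsM : s ∈ M) (htM : t ∈ M) (hs : InvAt s x) (ht : InvAt t y) (hxy : x ≠ y) :
    ∃ i ∈ M, orderOf i = 2 ∧ i * s * i⁻¹ = t ∧ i • x = y ∧ i • y = x := by
  have hss := sq_eq_one hs.1
  have htt := sq_eq_one ht.1
  set r := s * t with hr
  have hsr : s * r * s⁻¹ = r⁻¹ := by
    rw [inv_eq_self hs.1, hr, mul_inv_rev, inv_eq_self hs.1, inv_eq_self ht.1, ← mul_assoc, hss,
      one_mul]
  have htr : t * r * t⁻¹ = r⁻¹ := by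
    rw [inv_eq_self ht.1, hr, mul_inv_rev, inv_eq_self hs.1, inv_eq_self ht.1, mul_assoc,
      mul_assoc, htt, mul_one]
  have hn : Odd (orderOf r) := by
    by_contra hcon
    rw [Nat.not_odd_iff_even] at hcon
    obtain ⟨m, hm⟩ := hcon
    have hpos : 0 < orderOf r := orderOf_pos r
    have hz2 : orderOf (r ^ m) = 2 := by
      apply orderOf_eq_prime
      · rw [← pow_mul, show m * 2 = orderOf r by omega, pow_orderOf_eq_one]
      · exact pow_ne_one_of_lt_orderOf (by omega) (by omega)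
    have key : ∀ a : G, a * r * a⁻¹ = r⁻¹ → Commute a (r ^ m) := fun a ha => by
      have h : a * r ^ m * a⁻¹ = r ^ m := by rw [← conj_pow, ha, inv_pow, inv_eq_self hz2]
      exact mul_inv_eq_iff_eq_mul.1 h
    obtain ⟨w, hw⟩ := hS.exists_fix _ hz2
    exact hxy ((apex_eq_of_commute hS hs ⟨hz2, hw⟩ (key s hsr)).trans
      (apex_eq_of_commute hS ht ⟨hz2, hw⟩ (key t htr)).symm)
  obtain ⟨k, hk⟩ := hn
  have hsk : s * r ^ k * s⁻¹ = (r ^ k)⁻¹ := by rw [← conj_pow, hsr, inv_pow]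
  have hsk' : s * r ^ k * s = (r ^ k)⁻¹ := by
    have := hsk
    rwa [inv_eq_self hs.1] at this
  have hii : r ^ k * s * (r ^ k * s) = 1 := by
    calc r ^ k * s * (r ^ k * s) = r ^ k * (s * r ^ k * s) := by simp [mul_assoc]
      _ = 1 := by rw [hsk', mul_inv_cancel]
  have hconj : r ^ k * s * s * (r ^ k * s)⁻¹ = t := by
    have h2 : r ^ (k + k) = r⁻¹ := by
      refine eq_inv_of_mul_eq_one_left ?_
      rw [← pow_succ, show k + k + 1 = orderOf r by omega, pow_orderOf_eq_one]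
    have h1 : s * (r ^ k)⁻¹ * s⁻¹ = r ^ k := by rw [← conj_inv, hsk, inv_inv]
    calc r ^ k * s * s * (r ^ k * s)⁻¹ = r ^ k * (s * (r ^ k)⁻¹ * s⁻¹) * s := by group
      _ = r ^ (k + k) * s := by rw [h1, pow_add]
      _ = r⁻¹ * s := by rw [h2]
      _ = t := by rw [hr, mul_inv_rev, inv_eq_self ht.1, inv_mul_cancel_right]
  have hne : r ^ k * s ≠ 1 := by
    intro h
    have hs1 : s = (r ^ k)⁻¹ := eq_inv_of_mul_eq_one_right h
    have h2 : s ^ orderOf r = 1 := by
      rw [hs1, inv_pow, ← pow_mul, mul_comm, pow_mul, pow_orderOf_eq_one, one_pow, inv_one]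
    obtain ⟨l, hl⟩ := hs.1 ▸ orderOf_dvd_of_pow_eq_one h2
    omega
  have hix : (r ^ k * s) • x = y := by
    refine hS.fix_unique t ht.1 _ _ ?_ ht.2
    rw [← hconj, mul_smul, inv_smul_smul, mul_smul, hs.2]
  refine ⟨r ^ k * s, mul_mem (pow_mem (mul_mem hsM htM) k) hsM,
    orderOf_eq_prime (by rw [sq, hii]) hne, hconj, hix, ?_⟩
  rw [← hix, ← mul_smul, hii, one_smul]

/-- Conjugation by the stabiliser of a pair is transitive on the involutions at either point. -/
theorem exists_conj_pair [Finite G] (hS : Setting G Ω) {M : Subgroup G} {a b : Ω} (hab : a ≠ b)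
    {s₁ s₂ t : G} (h₁M : s₁ ∈ M) (h₂M : s₂ ∈ M) (htM : t ∈ M) (h₁ : InvAt s₁ a) (h₂ : InvAt s₂ a)
    (ht : InvAt t b) : ∃ g ∈ M ⊓ pairStab a b, g * s₁ * g⁻¹ = s₂ := by
  obtain ⟨i, hiM, -, hic, hia, hib⟩ := exists_middle hS h₁M htM h₁ ht hab
  obtain ⟨k, hkM, -, hkc, hka, hkb⟩ := exists_middle hS h₂M htM h₂ ht hab
  refine ⟨k⁻¹ * i, Subgroup.mem_inf.2 ⟨mul_mem (inv_mem hkM) hiM, ?_⟩, ?_⟩
  · rw [mem_pairStab, mul_smul, mul_smul, hia, hib, inv_smul_eq_iff, inv_smul_eq_iff, hka, hkb]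
    exact ⟨rfl, rfl⟩
  · calc k⁻¹ * i * s₁ * (k⁻¹ * i)⁻¹ = k⁻¹ * (i * s₁ * i⁻¹) * k := by group
      _ = s₂ := by rw [hic, ← hkc]; group

theorem exists_invAt (hS : Setting G Ω) (hR : Rich Ω (⊤ : Subgroup G)) (x : Ω) :
    ∃ t : G, InvAt t x := by
  obtain ⟨y, t, -, ht⟩ := hR.2.nonempty
  obtain ⟨g, rfl⟩ := hS.exists_smul y x
  exact ⟨_, invAt_conj ht g⟩

/-- A rich group has two commuting involutions at each of its apexes. -/
theorem exists_comm_at [Finite G] (hS : Setting G Ω) {M : Subgroup G} (hM : Rich Ω M) {x : Ω}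
    (hx : x ∈ apexSet M) :
    ∃ s ∈ M, ∃ t ∈ M, InvAt s x ∧ InvAt t x ∧ s ≠ t ∧ Commute s t := by
  obtain ⟨s, hsM, t, htM, hs2, ht2, hst, hc⟩ := hM.1
  obtain ⟨y, hy⟩ := hS.exists_fix s hs2
  obtain ⟨y', hy'⟩ := hS.exists_fix t ht2
  obtain rfl : y = y' := apex_eq_of_commute hS ⟨hs2, hy⟩ ⟨ht2, hy'⟩ hc
  obtain ⟨v, hvM, hv⟩ := hx
  by_cases hyx : y = x
  · subst hyx
    exact ⟨s, hsM, t, htM, ⟨hs2, hy⟩, ⟨ht2, hy'⟩, hst, hc⟩
  obtain ⟨g, hgM, rfl⟩ := conj_of_apex_ne hS hsM hvM ⟨hs2, hy⟩ hv hyx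
  exact ⟨_, mul_mem (mul_mem hgM hsM) (inv_mem hgM), _, mul_mem (mul_mem hgM htM) (inv_mem hgM),
    invAt_conj ⟨hs2, hy⟩ g, invAt_conj ⟨ht2, hy'⟩ g, fun h => hst (by simpa using h),
    hc.map (MulAut.conj g)⟩

theorem ncard_conj_orbit (D : Subgroup G) (s : G) :
    ((fun g : G => g * s * g⁻¹) '' (D : Set G)).ncard =
      (Subgroup.centralizer ({s} : Set G)).relIndex D := by
  rw [← Nat.card_coe_set_eq, Subgroup.relIndex, Subgroup.index]
  set C := Subgroup.centralizer ({s} : Set G)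
  let f : D → ↥((fun g : G => g * s * g⁻¹) '' (D : Set G)) :=
    fun g => ⟨(g : G) * s * (g : G)⁻¹, g, g.2, rfl⟩
  have hf : ∀ a b : D, f a = f b ↔ a⁻¹ * b ∈ C.subgroupOf D := by
    intro a b
    rw [Subgroup.mem_subgroupOf, Subgroup.mem_centralizer_singleton_iff, Subtype.ext_iff]
    simp only [f, Subgroup.coe_mul, InvMemClass.coe_inv]
    constructor
    · intro h
      calc (a : G)⁻¹ * b * s = (a : G)⁻¹ * ((b : G) * s * (b : G)⁻¹) * b := by group
        _ = (a : G)⁻¹ * ((a : G) * s * (a : G)⁻¹) * b := by rw [h]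
        _ = s * ((a : G)⁻¹ * b) := by group
    · intro h
      calc (a : G) * s * (a : G)⁻¹ = (a : G) * (s * ((a : G)⁻¹ * b)) * (b : G)⁻¹ := by group
        _ = (a : G) * ((a : G)⁻¹ * b * s) * (b : G)⁻¹ := by rw [h]
        _ = (b : G) * s * (b : G)⁻¹ := by group
  refine (Nat.card_congr (Equiv.ofBijective (Quotient.lift f (fun a b hab =>
    (hf a b).2 (QuotientGroup.leftRel_apply.1 hab))) ⟨?_, ?_⟩)).symm
  · rintro ⟨a⟩ ⟨b⟩ hab
    exact Quotient.sound (QuotientGroup.leftRel_apply.2 ((hf a b).1 hab))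
  · rintro ⟨_, g, hg, rfl⟩
    exact ⟨Quotient.mk'' ⟨g, hg⟩, rfl⟩

/-- The number of involutions at a point as the index of a centraliser. -/
theorem ncard_invAt [Finite G] (hS : Setting G Ω) (hR : Rich Ω (⊤ : Subgroup G)) {a b : Ω}
    (hab : a ≠ b) {s : G} (hs : InvAt s a) {D : Subgroup G} (hbD : pairStab a b ≤ D)
    (hDa : ∀ g ∈ D, g • a = a) :
    {t : G | InvAt t a}.ncard = (Subgroup.centralizer ({s} : Set G)).relIndex D := by
  rw [← ncard_conj_orbit]
  congr 1
  ext t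
  constructor
  · intro ht
    obtain ⟨v, hv⟩ := exists_invAt hS hR b
    obtain ⟨g, hg, rfl⟩ := exists_conj_pair hS (M := ⊤) hab (Subgroup.mem_top s)
      (Subgroup.mem_top t) (Subgroup.mem_top v) hs ht hv
    exact ⟨g, hbD hg.2, rfl⟩
  · rintro ⟨g, hg, rfl⟩
    have h := invAt_conj hs g
    rwa [hDa g hg] at h

theorem card_pairStab_smul (g : G) (x y : Ω) :
    Nat.card (pairStab (G := G) (g • x) (g • y)) = Nat.card (pairStab (G := G) x y) := by
  rw [pairStab, pairStab, MulAction.stabilizer_smul_eq_stabilizer_map_conj,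
    MulAction.stabilizer_smul_eq_stabilizer_map_conj, ← Subgroup.map_inf _ _ _
      (MulAut.conj g).injective,
    Subgroup.card_map_of_injective (MulAut.conj g).injective]

/-! ### Inverted elements -/

theorem invAt_mul_of_mem_J (hS : Setting G Ω) {u j : G} {c z : Ω} (hu : InvAt u c) (hzc : z ≠ c)
    (hj : j ∈ J u c z) : InvAt (u * j) c := by
  obtain ⟨hjc, hjz, hinv⟩ := hj
  refine ⟨orderOf_eq_prime ?_ ?_, by rw [mul_smul, hjc, hu.2]⟩
  · rw [inv_eq_self hu.1] at hinv
    rw [sq, ← mul_assoc, hinv, inv_mul_cancel]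
  · intro h
    have hj' : j = u := by rw [eq_inv_of_mul_eq_one_right h, inv_eq_self hu.1]
    subst hj'
    exact hzc (hS.fix_unique j hu.1 _ _ hjz hu.2)

theorem conj_image_J (g u : G) (c z : Ω) :
    J (g * u * g⁻¹) (g • c) (g • z) = (fun j => g * j * g⁻¹) '' J u c z := by
  ext j
  constructor
  · rintro ⟨h1, h2, h3⟩
    refine ⟨g⁻¹ * j * g, ⟨?_, ?_, ?_⟩, by group⟩
    · rw [mul_smul, mul_smul, h1, inv_smul_smul]
    · rw [mul_smul, mul_smul, h2, inv_smul_smul]
    · calc u * (g⁻¹ * j * g) * u⁻¹ = g⁻¹ * (g * u * g⁻¹ * j * (g * u * g⁻¹)⁻¹) * g := by group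
        _ = (g⁻¹ * j * g)⁻¹ := by rw [h3]; group
  · rintro ⟨i, ⟨h1, h2, h3⟩, rfl⟩
    refine ⟨?_, ?_, ?_⟩
    · rw [mul_smul, mul_smul, inv_smul_smul, h1]
    · rw [mul_smul, mul_smul, inv_smul_smul, h2]
    · calc g * u * g⁻¹ * (g * i * g⁻¹) * (g * u * g⁻¹)⁻¹ = g * (u * i * u⁻¹) * g⁻¹ := by group
        _ = (g * i * g⁻¹)⁻¹ := by rw [h3]; group

theorem ncard_J_conj (g u : G) (c z : Ω) :
    (J (g * u * g⁻¹) (g • c) (g • z)).ncard = (J u c z).ncard := by
  rw [conj_image_J]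
  exact Set.ncard_image_of_injective _ (MulAut.conj g).injective

/-- The number of inverted elements does not depend on the involution. -/
theorem ncard_J_indep [Finite G] (hS : Setting G Ω) (hR : Rich Ω (⊤ : Subgroup G)) {a b : Ω}
    (hab : a ≠ b) {s s' : G} (hs : InvAt s a) (hs' : InvAt s' a) :
    (J s' a b).ncard = (J s a b).ncard := by
  obtain ⟨v, hv⟩ := exists_invAt hS hR b
  obtain ⟨g, hg, rfl⟩ := exists_conj_pair hS (M := ⊤) hab (Subgroup.mem_top s)
    (Subgroup.mem_top s') (Subgroup.mem_top v) hs hs' hv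
  conv_lhs => rw [← hg.2.1, ← hg.2.2]
  exact ncard_J_conj g s a b

/-- The involutions at `c` split into equal classes by their effect on `z`. -/
theorem ncard_invAt_eq_mul [Finite G] (hS : Setting G Ω) (hR : Rich Ω (⊤ : Subgroup G)) {u : G}
    {c z : Ω} (hu : InvAt u c) (hzc : z ≠ c) :
    {t : G | InvAt t c}.ncard =
      ((fun t : G => t • z) '' {t : G | InvAt t c}).ncard * (J u c z).ncard := by
  classical
  set I : Set G := {t : G | InvAt t c} with hI
  have hfib : ∀ t₀ ∈ I, {t ∈ I | t • z = t₀ • z}.ncard = (J u c z).ncard := by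
    intro t₀ ht₀
    rw [← ncard_J_indep hS hR hzc.symm hu ht₀]
    have he : {t ∈ I | t • z = t₀ • z} = (fun j => t₀ * j) '' J t₀ c z := by
      ext t
      constructor
      · rintro ⟨ht, htz⟩
        refine ⟨t₀ * t, ⟨?_, ?_, ?_⟩, by simp only [← mul_assoc, sq_eq_one ht₀.1, one_mul]⟩
        · rw [mul_smul, ht.2, ht₀.2]
        · rw [mul_smul, htz, ← mul_smul, sq_eq_one ht₀.1, one_smul]
        · rw [mul_inv_rev, inv_eq_self ht.1, ← mul_assoc, sq_eq_one ht₀.1, one_mul]
      · rintro ⟨j, hj, rfl⟩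
        exact ⟨invAt_mul_of_mem_J hS ht₀ hzc hj, by rw [mul_smul, hj.2.1]⟩
    rw [he, Set.ncard_image_of_injective _ (mul_right_injective t₀)]
  haveI := Fintype.ofFinite G
  rw [Set.ncard_eq_toFinset_card', Set.ncard_eq_toFinset_card' ((fun t : G => t • z) '' I),
    Set.toFinset_image, Finset.card_eq_sum_card_image (fun t : G => t • z) I.toFinset]
  refine Finset.sum_const_nat fun w hw => ?_
  obtain ⟨t₀, ht₀, rfl⟩ := Finset.mem_image.1 hw
  rw [← hfib t₀ (Set.mem_toFinset.1 ht₀), ← Set.ncard_coe_finset]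
  congr 1
  ext t
  simp

/-- An element inverting another one normalises the group it generates. -/
theorem mem_normalizer_zpowers {u e : G} (he : u * e * u⁻¹ = e⁻¹) :
    u ∈ Subgroup.normalizer ((Subgroup.zpowers e : Subgroup G) : Set G) := by
  rw [Subgroup.mem_normalizer_iff]
  intro x
  constructor
  · intro hx
    obtain ⟨k, rfl⟩ := Subgroup.mem_zpowers_iff.1 hx
    rw [← conj_zpow, he]
    exact zpow_mem (inv_mem (Subgroup.mem_zpowers e)) k
  · intro hx
    obtain ⟨k, hk⟩ := Subgroup.mem_zpowers_iff.1 hx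
    have : x = u⁻¹ * e ^ k * u := by rw [hk]; group
    rw [this]
    have he' : u⁻¹ * e * u = e⁻¹ := by
      calc u⁻¹ * e * u = u⁻¹ * (u * e * u⁻¹)⁻¹ * u := by rw [he, inv_inv]
        _ = e⁻¹ := by group
    have := conj_zpow (i := k) (a := u⁻¹) (b := e)
    rw [inv_inv, he'] at this
    rw [← this]
    exact zpow_mem (inv_mem (Subgroup.mem_zpowers e)) k

/-- A subgroup with a normal subgroup: the index of a centraliser divides. -/
theorem relIndex_dvd_of_normal [Finite G] {N H : Subgroup G} (C : Subgroup G) (hNH : N ≤ H)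
    (hn : H ≤ Subgroup.normalizer (N : Set G)) : C.relIndex N ∣ C.relIndex H := by
  set C' := C.subgroupOf H
  set N' := N.subgroupOf H
  haveI : N'.Normal := (Subgroup.normal_subgroupOf_iff_le_normalizer hNH).2 hn
  rw [← Subgroup.relIndex_subgroupOf hNH]
  show C'.relIndex N' ∣ C'.index
  have hmul : ∀ A B : Subgroup ↥H, Nat.card ↥(B ⊓ A) * A.relIndex B = Nat.card B := fun A B => by
    rw [inf_comm, ← Subgroup.inf_relIndex_right, ← Subgroup.relIndex_bot_left,
      ← Subgroup.relIndex_bot_left]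
    exact Subgroup.relIndex_mul_relIndex _ _ _ bot_le inf_le_right
  have e : C'.relIndex (C' ⊔ N') = C'.relIndex N' := by
    have h1 := hmul C' (C' ⊔ N')
    have h2 := hmul N' (C' ⊔ N')
    rw [inf_eq_right.2 le_sup_left] at h1
    rw [inf_eq_right.2 le_sup_right, Subgroup.relIndex_sup_right] at h2
    have h3 := hmul N' C'
    have h4 := hmul C' N'
    rw [inf_comm] at h4
    refine Nat.eq_of_mul_eq_mul_left (Nat.card_pos (α := C')) ?_
    rw [h1, ← h2, ← h3, ← h4]
    ring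
  rw [← e]
  exact Subgroup.relIndex_dvd_index_of_le le_sup_left

/-- An invariant Sylow subgroup meets a normal subgroup in a Sylow subgroup. -/
theorem card_inf_of_normal [Finite G] {p : ℕ} [Fact p.Prime] {N A P : Subgroup G} (hAN : A ≤ N)
    (hn : N ≤ Subgroup.normalizer (A : Set G)) (hPN : P ≤ N)
    (hP : Nat.card P = p ^ (Nat.card N).factorization p) :
    Nat.card ↥(P ⊓ A) = p ^ (Nat.card A).factorization p := by
  have hp : p.Prime := Fact.out
  haveI : (A.subgroupOf N).Normal := (Subgroup.normal_subgroupOf_iff_le_normalizer hAN).2 hn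
  have hd : A.relIndex P ∣ A.relIndex N := by
    rw [← Subgroup.relIndex_subgroupOf hPN]
    exact Subgroup.relIndex_dvd_index_of_normal (H := A.subgroupOf N) _
  have hmul : ∀ K : Subgroup G, Nat.card ↥(K ⊓ A) * A.relIndex K = Nat.card K := fun K => by
    rw [inf_comm, ← Subgroup.inf_relIndex_right, ← Subgroup.relIndex_bot_left,
      ← Subgroup.relIndex_bot_left]
    exact Subgroup.relIndex_mul_relIndex _ _ _ bot_le inf_le_right
  have h1 := hmul P
  have h2 := hmul N
  rw [inf_eq_right.2 hAN] at h2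
  obtain ⟨k, -, hk⟩ := (Nat.dvd_prime_pow hp).1 (hP ▸ (Dvd.intro _ h1 : _ ∣ Nat.card P))
  obtain ⟨i, -, hi⟩ := (Nat.dvd_prime_pow hp).1 (hP ▸ (Dvd.intro_left _ h1 : _ ∣ Nat.card P))
  rw [hk, hi, hP, ← pow_add] at h1
  have hki := Nat.pow_right_injective hp.two_le h1
  have hN : i + (Nat.card A).factorization p ≤ (Nat.card N).factorization p := by
    rw [← hp.pow_dvd_iff_le_factorization Nat.card_pos.ne', ← h2, pow_add, mul_comm]
    exact mul_dvd_mul (Nat.ordProj_dvd _ _) (hi ▸ hd)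
  have hA : k ≤ (Nat.card A).factorization p := by
    rw [← hp.pow_dvd_iff_le_factorization Nat.card_pos.ne', ← hk]
    exact Subgroup.card_dvd_of_le inf_le_right
  rw [hk, show k = (Nat.card A).factorization p by omega]

/-- An invariant Sylow subgroup of a pair stabiliser carries the full part of the index. -/
theorem pow_le_ncard_inverted [Finite G] {p : ℕ} [Fact p.Prime] {t : G} (ht : orderOf t = 2)
    {D S : Subgroup G} (hD : Odd (Nat.card D)) (hSD : S ≤ D)
    (hSn : t ∈ Subgroup.normalizer (S : Set G))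
    (hS : Nat.card S = p ^ (Nat.card D).factorization p) :
    p ^ ((Subgroup.centralizer ({t} : Set G)).relIndex D).factorization p ≤
      {j | j ∈ S ∧ t * j * t⁻¹ = j⁻¹}.ncard := by
  have hp : p.Prime := Fact.out
  set C := Subgroup.centralizer ({t} : Set G)
  rw [ncard_inverted ht (hD.of_dvd_nat (Subgroup.card_dvd_of_le hSD)) hSn]
  have hmul : ∀ K : Subgroup G, Nat.card ↥(K ⊓ C) * C.relIndex K = Nat.card K := fun K => by
    rw [inf_comm, ← Subgroup.inf_relIndex_right, ← Subgroup.relIndex_bot_left,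
      ← Subgroup.relIndex_bot_left]
    exact Subgroup.relIndex_mul_relIndex _ _ _ bot_le inf_le_right
  have h1 := hmul S
  obtain ⟨k, -, hk⟩ := (Nat.dvd_prime_pow hp).1 (hS ▸ (Dvd.intro _ h1 : _ ∣ Nat.card S))
  obtain ⟨i, -, hi⟩ := (Nat.dvd_prime_pow hp).1 (hS ▸ (Dvd.intro_left _ h1 : _ ∣ Nat.card S))
  rw [hk, hi, hS, ← pow_add] at h1
  have hki := Nat.pow_right_injective hp.two_le h1
  rw [hi]
  refine Nat.pow_le_pow_right hp.pos ?_
  have h2 : k + (C.relIndex D).factorization p ≤ (Nat.card D).factorization p := by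
    rw [← hp.pow_dvd_iff_le_factorization Nat.card_pos.ne', ← hmul D, pow_add, ← hk]
    exact mul_dvd_mul (Subgroup.card_dvd_of_le (inf_le_inf_right _ hSD)) (Nat.ordProj_dvd _ _)
  omega

/-! ### A subgroup holding every involution at a point -/

/-- A proper rich subgroup containing every involution at `c`. -/
structure FullAt (M : Subgroup G) (c : Ω) : Prop where
  rich : Rich Ω M
  proper : M ≠ ⊤
  mem : ∀ t : G, InvAt t c → t ∈ M

theorem FullAt.mem_apexSet {M : Subgroup G} {c : Ω} (hF : FullAt M c) {u : G} (hu : InvAt u c) :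
    c ∈ apexSet M := ⟨u, hF.mem u hu, hu⟩

theorem FullAt.J_subset [Finite G] [Finite Ω] (hS : Setting G Ω) (hIH : IH.{u} (Nat.card G))
    {M : Subgroup G} {c z : Ω} (hF : FullAt M c) {u : G} (hu : InvAt u c) (hz : z ∈ apexSet M)
    (hzc : z ≠ c) : J u c z ⊆ (fixTo (G := G) (apexSet M : Set Ω) : Set G) := by
  intro j hj
  have hjM : j ∈ M := by
    have h := mul_mem (inv_mem (hF.mem u hu)) (hF.mem _ (invAt_mul_of_mem_J hS hu hzc hj))
    rwa [inv_mul_cancel_left] at h
  exact mem_fixTo_of_mem_J hS hIH hF.rich hF.proper (hF.mem u hu) hu hz hzc hjM hj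

theorem FullAt.J_eq [Finite G] [Finite Ω] (hS : Setting G Ω) (hIH : IH.{u} (Nat.card G))
    {M : Subgroup G} {c z : Ω} (hF : FullAt M c) {u : G} (hu : InvAt u c) (hz : z ∈ apexSet M)
    (hzc : z ≠ c) :
    J u c z = {j | j ∈ fixTo (G := G) (apexSet M : Set Ω) ∧ u * j * u⁻¹ = j⁻¹} := by
  ext j
  exact ⟨fun hj => ⟨hF.J_subset hS hIH hu hz hzc hj, hj.2.2⟩,
    fun hj => ⟨hj.1 c (hF.mem_apexSet hu), hj.1 z hz, hj.2⟩⟩

theorem mem_normalizer_fixTo {Λ : Set Ω} {g : G} (h : ∀ x ∈ Λ, g • x ∈ Λ)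
    (h' : ∀ x ∈ Λ, g⁻¹ • x ∈ Λ) :
    g ∈ Subgroup.normalizer ((fixTo (G := G) Λ : Subgroup G) : Set G) := by
  rw [Subgroup.mem_normalizer_iff]
  intro a
  constructor
  · intro ha x hx
    rw [mul_smul, mul_smul, ha _ (h' x hx), smul_inv_smul]
  · intro ha x hx
    have := ha (g • x) (h x hx)
    rwa [mul_smul, mul_smul, inv_smul_smul, smul_left_cancel_iff] at this

/-- A `p`-subgroup fixing `c` fixes another apex when `p` divides the number of classes. -/
theorem FullAt.exists_fixed_other [Finite G] [Finite Ω] (hS : Setting G Ω)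
    (hR : Rich Ω (⊤ : Subgroup G)) (hIH : IH.{u} (Nat.card G)) {M : Subgroup G} {c z : Ω}
    (hF : FullAt M c) {u : G} (hu : InvAt u c) (hz : z ∈ apexSet M) (hzc : z ≠ c) {p : ℕ}
    [Fact p.Prime]
    (hlt : (J u c z).ncard.factorization p < {t : G | InvAt t c}.ncard.factorization p)
    {Q : Subgroup G} (hQM : Q ≤ M) (hQp : IsPGroup p Q) (hQc : ∀ q ∈ Q, q • c = c) :
    ∃ z' ∈ (apexSet M : Set Ω), z' ≠ c ∧ ∀ q ∈ Q, q • z' = z' := by
  have hp : p.Prime := Fact.out
  have hc := hF.mem_apexSet hu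
  set img := (fun t : G => t • z) '' {t : G | InvAt t c} with himg
  have hdvd : p ∣ img.ncard := by
    by_contra hnd
    have h := ncard_invAt_eq_mul hS hR hu hzc
    rw [← himg] at h
    have hJ0 : (J u c z).ncard ≠ 0 :=
      Set.ncard_ne_zero_of_mem (a := 1) ⟨one_smul G c, one_smul G z, by simp⟩
    have himg0 : img.ncard ≠ 0 := Set.ncard_ne_zero_of_mem (a := u • z) ⟨u, hu, rfl⟩
    rw [h, Nat.factorization_mul himg0 hJ0, Finsupp.add_apply,
      Nat.factorization_eq_zero_of_not_dvd hnd, zero_add] at hlt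
    exact lt_irrefl _ hlt
  set X := M ⊓ pairStab (G := G) c z with hX
  obtain ⟨P⟩ : Nonempty (Sylow p ↥X) := inferInstance
  set P' := (P : Subgroup ↥X).map X.subtype with hP'
  have hP'X : P' ≤ X := Subgroup.map_subtype_le _
  obtain ⟨v, hvM, hv⟩ := hz
  have hfix : fixedOn P' (apexSet M : Set Ω) = {c, z} := by
    refine Set.Subset.antisymm ?_ ?_
    · intro x hx
      by_contra hne
      simp only [Set.mem_insert_iff, Set.mem_singleton_iff, not_or] at hne
      obtain ⟨t, htM, ht, htc⟩ := twins_point hS hIH hF.rich hF.proper hc ⟨v, hvM, hv⟩ hzc.symm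
        hP'X (H20.card_map_sylow P) hx hne.1 hne.2
      have horb : MulAction.orbit ↥X (t • z) = img := by
        ext w
        constructor
        · rintro ⟨⟨g, hgM, hgc, hgz⟩, rfl⟩
          refine ⟨g * t * g⁻¹, ?_, ?_⟩
          · have h := invAt_conj ht g
            rwa [show g • c = c from hgc] at h
          · show (g * t * g⁻¹) • z = g • (t • z)
            rw [mul_smul, mul_smul, inv_smul_eq_iff.2 (show z = g • z from (hgz).symm)]
        · rintro ⟨t', ht', rfl⟩
          obtain ⟨g, hg, hgt⟩ := exists_conj_pair hS hzc.symm htM (hF.mem t' ht') hvM ht ht' hv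
          refine ⟨⟨g, hg⟩, ?_⟩
          show g • (t • z) = t' • z
          rw [← hgt, mul_smul, mul_smul, inv_smul_eq_iff.2 (show z = g • z from hg.2.2.symm)]
      have hle : (P : Subgroup ↥X) ≤ MulAction.stabilizer ↥X (t • z) := by
        intro q hq
        rw [MulAction.mem_stabilizer_iff]
        have hqP : (q : G) ∈ P' := Subgroup.mem_map_of_mem _ hq
        show (q : G) • (t • z) = t • z
        rw [← htc _ hqP z ⟨v, hvM, hv⟩, (hP'X hqP).2.2]
      refine P.not_dvd_index (hdvd.trans ?_)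
      rw [← horb, ← MulAction.index_stabilizer]
      exact Subgroup.index_dvd_of_le hle
    · intro x hx
      rcases hx with rfl | rfl
      · exact ⟨hc, fun q hq => (hP'X hq).2.1⟩
      · exact ⟨⟨v, hvM, hv⟩, fun q hq => (hP'X hq).2.2⟩
  have h2 := card_apexSet_modEq (Ω := Ω) (hP'X.trans inf_le_left)
    (H20.isPGroup_map_sylow P) hfix hzc.symm
  by_contra hcon
  push Not at hcon
  letI : MulAction Q ↥(apexSet M : Set Ω) :=
    { smul := fun q x => ⟨(q : G) • (x : Ω), smul_mem_apexSet (hQM q.2) x.2⟩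
      one_smul := fun x => Subtype.ext (one_smul G (x : Ω))
      mul_smul := fun q r x => Subtype.ext (mul_smul (q : G) (r : G) (x : Ω)) }
  have h1 := hQp.card_modEq_card_fixedPoints ↥(apexSet M : Set Ω)
  have hfp : MulAction.fixedPoints Q ↥(apexSet M : Set Ω) = {⟨c, hc⟩} := by
    ext x
    constructor
    · intro hx
      refine Subtype.ext ?_
      by_contra hxc
      obtain ⟨q, hq, hqx⟩ := hcon x x.2 hxc
      exact hqx (congrArg Subtype.val (hx ⟨q, hq⟩))
    · rintro rfl q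
      exact Subtype.ext (hQc q q.2)
  rw [Nat.card_coe_set_eq, Nat.card_coe_set_eq, hfp, Set.ncard_singleton] at h1
  have h3 : 1 ≡ 2 [MOD p] := h1.symm.trans h2
  exact hp.not_dvd_one (by simpa using (Nat.modEq_iff_dvd' (by norm_num)).1 h3)

/-! ### The odd core of a subgroup -/

theorem conj_map_eq {x : G} {A : Subgroup G} (hx : x ∈ Subgroup.normalizer (A : Set G)) :
    A.map (MulAut.conj x).toMonoidHom = A := by
  ext a
  rw [Subgroup.mem_map]
  constructor
  · rintro ⟨b, hb, rfl⟩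
    exact (Subgroup.mem_normalizer_iff.1 hx b).1 hb
  · intro ha
    refine ⟨x⁻¹ * a * x, (Subgroup.mem_normalizer_iff''.1 hx a).1 ha, ?_⟩
    show x * (x⁻¹ * a * x) * x⁻¹ = a
    group

theorem mem_normalizer_of_map_eq {x : G} {A : Subgroup G}
    (h : A.map (MulAut.conj x).toMonoidHom = A) : x ∈ Subgroup.normalizer (A : Set G) := by
  rw [Subgroup.mem_normalizer_iff]
  intro a
  conv_rhs => rw [← h]
  exact (Subgroup.mem_map_iff_mem (MulAut.conj x).injective).symm

theorem odd_sup [Finite G] {A B : Subgroup G} (hn : A ≤ Subgroup.normalizer (B : Set G))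
    (hA : Odd (Nat.card A)) (hB : Odd (Nat.card B)) : Odd (Nat.card ↥(A ⊔ B)) := by
  haveI : Fact (Nat.Prime 2) := ⟨Nat.prime_two⟩
  by_contra h
  rw [Nat.not_odd_iff_even, even_iff_two_dvd] at h
  obtain ⟨⟨t, ht⟩, ht2⟩ := exists_prime_orderOf_dvd_card' 2 h
  rw [Subgroup.orderOf_mk] at ht2
  have htAB : t ∈ (A : Set G) * (B : Set G) := by
    rw [← Subgroup.coe_mul_of_left_le_normalizer_right A B hn]
    exact ht
  obtain ⟨a, ha, b, hb, rfl⟩ := htAB
  have hsq : a * a ∈ B := by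
    have h1 : a * b * (a * b) = 1 := sq_eq_one ht2
    have h2 : a⁻¹ * b⁻¹ * a ∈ B := (Subgroup.mem_normalizer_iff''.1 (hn ha) _).1 (inv_mem hb)
    have h3 : a * a = b⁻¹ * (a⁻¹ * b⁻¹ * a) := by
      have h4 : a * b * a = b⁻¹ := eq_inv_of_mul_eq_one_left (by rw [mul_assoc]; exact h1)
      calc a * a = (a * b * a) * (a⁻¹ * b⁻¹ * a) := by group
        _ = b⁻¹ * (a⁻¹ * b⁻¹ * a) := by rw [h4]
    rw [h3]
    exact mul_mem (inv_mem hb) h2
  obtain ⟨n, hn2⟩ := exists_sq_eq_of_odd (odd_orderOf_of_mem hA ha)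
  have haB : a ∈ B := by
    rw [← hn2, ← (Commute.refl a).mul_pow]
    exact pow_mem hsq n
  have h5 := odd_orderOf_of_mem hB (mul_mem haB hb)
  rw [ht2] at h5
  exact (by decide : ¬ Odd 2) h5

/-- The largest normal subgroup of odd order. -/
theorem exists_oddCore [Finite G] (U : Subgroup G) :
    ∃ N : Subgroup G, N ≤ U ∧ Odd (Nat.card N) ∧ U ≤ Subgroup.normalizer (N : Set G) ∧
      ∀ A : Subgroup G, A ≤ U → Odd (Nat.card A) → U ≤ Subgroup.normalizer (A : Set G) → A ≤ N := by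
  haveI : Nonempty {A : Subgroup G //
      A ≤ U ∧ Odd (Nat.card A) ∧ U ≤ Subgroup.normalizer (A : Set G)} :=
    ⟨⟨⊥, bot_le, by simp, fun x _ => mem_normalizer_of_map_eq (Subgroup.map_bot _)⟩⟩
  obtain ⟨⟨N, hNU, hN, hNn⟩, hmax⟩ := Finite.exists_max
    (fun A : {A : Subgroup G // A ≤ U ∧ Odd (Nat.card A) ∧ U ≤ Subgroup.normalizer (A : Set G)} =>
      Nat.card A.1)
  refine ⟨N, hNU, hN, hNn, fun A hAU hA hAn => ?_⟩
  have h := hmax ⟨A ⊔ N, sup_le hAU hNU, odd_sup (hAU.trans hNn) hA hN, fun x hx =>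
    mem_normalizer_of_map_eq (by rw [Subgroup.map_sup, conj_map_eq (hAn hx), conj_map_eq (hNn hx)])⟩
  have he : N = A ⊔ N := Subgroup.eq_of_le_of_card_ge le_sup_right h
  exact le_sup_left.trans he.ge

end Final

end Cfsg.Agent.H14.Bender
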