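import Cfsg.Agent.H23.ZJElementary
import Cfsg.Agent.H14.Bender.Defs

/-!
`Z(J(S))` meets a normal `p`-subgroup in a normal subgroup, with the stability hypothesis restricted
to what the induction of `H23.inf_centerThompsonOf_normal` uses.
-/

set_option autoImplicit false

namespace Cfsg.Agent.H14.Bender

open Subgroup Cfsg.Agent.H23
open scoped commutatorElement

universe u

variable {G : Type u} [Group G]

/-- An involution centralising the factor group of a `p`-group of class two (`p` odd) by its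
commutator subgroup centralises the group. -/
theorem involution_centralizes_of_class_two {p : ℕ} [hpf : Fact p.Prime] (hp : p ≠ 2) {Y : Subgroup G}
    (hY : IsPGroup p Y) (hcl : ∀ x ∈ Y, ∀ y ∈ Y, ∀ z ∈ Y, Commute ⁅x, y⁆ z) {t : G}
    (ht : t * t = 1)
    (hq : ∀ y ∈ Y, y⁻¹ * (t * y * t⁻¹) ∈ ⁅Y, Y⁆) : ∀ y ∈ Y, Commute t y := by
  have hcen : ∀ c ∈ ⁅Y, Y⁆, ∀ z ∈ Y, Commute c z := fun c hc z hz => by
    have h : ⁅Y, Y⁆ ≤ centralizer ({z} : Set G) := commutator_le.2 fun x hx y hy =>
      mem_centralizer_singleton_iff.2 (hcl x hx y hy z hz).eq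
    exact mem_centralizer_singleton_iff.1 (h hc)
  have hfix : ∀ c ∈ ⁅Y, Y⁆, Commute t c := by
    have h : ⁅Y, Y⁆ ≤ centralizer ({t} : Set G) := commutator_le.2 fun x hx y hy => by
      rw [mem_centralizer_singleton_iff]
      set c := x⁻¹ * (t * x * t⁻¹) with hc
      set d := y⁻¹ * (t * y * t⁻¹) with hd
      have hxc : t * x * t⁻¹ = x * c := by rw [hc, mul_inv_cancel_left]
      have hyd : t * y * t⁻¹ = y * d := by rw [hd, mul_inv_cancel_left]
      have h1 : ∀ z ∈ Y, Commute c z := hcen c (hq x hx)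
      have h2 : ∀ z ∈ Y, Commute d z := hcen d (hq y hy)
      have h3 : ⁅x * c, y * d⁆ = ⁅x, y⁆ := by
        have hcy : Commute c (y * d) := h1 _ (mul_mem hy ((commutator_le_self Y) (hq y hy)))
        rw [commutatorElement_def, commutatorElement_def]
        calc x * c * (y * d) * (x * c)⁻¹ * (y * d)⁻¹
            = x * (c * (y * d)) * c⁻¹ * x⁻¹ * (y * d)⁻¹ := by group
          _ = x * y * (d * x⁻¹) * (d⁻¹ * y⁻¹) := by rw [hcy.eq]; group
          _ = x * y * (x⁻¹ * d) * (d⁻¹ * y⁻¹) := by rw [(h2 _ (inv_mem hx)).eq]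
          _ = x * y * x⁻¹ * y⁻¹ := by group
      have h4 : t * ⁅x, y⁆ * t⁻¹ = ⁅x, y⁆ := by
        conv_rhs => rw [← h3, ← hxc, ← hyd]
        rw [commutatorElement_def, commutatorElement_def]
        group
      calc ⁅x, y⁆ * t = t * ⁅x, y⁆ * t⁻¹ * t := by rw [h4]
        _ = t * ⁅x, y⁆ := inv_mul_cancel_right _ _
    exact fun c hc => (mem_centralizer_singleton_iff.1 (h hc)).symm
  intro y hy
  set c := y⁻¹ * (t * y * t⁻¹) with hc
  have hcY : c ∈ ⁅Y, Y⁆ := hq y hy
  have hyc : t * y * t⁻¹ = y * c := by rw [hc, mul_inv_cancel_left]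
  have htinv : t⁻¹ = t := inv_eq_of_mul_eq_one_right ht
  have h2 : c ^ 2 = 1 := by
    have h5 : t * (t * y * t⁻¹) * t⁻¹ = y := by
      calc t * (t * y * t⁻¹) * t⁻¹ = (t * t) * y * (t * t)⁻¹ := by group
        _ = y := by rw [ht, one_mul, inv_one, mul_one]
    have h6 : t * (y * c) * t⁻¹ = y * c * c := by
      calc t * (y * c) * t⁻¹ = t * y * t⁻¹ * (t * c * t⁻¹) := by group
        _ = y * c * c := by rw [hyc, (hfix c hcY).eq, mul_inv_cancel_right]
    rw [hyc, h6, mul_assoc] at h5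
    rw [pow_two]
    exact mul_eq_left.1 h5
  have h7 : c = 1 := by
    obtain ⟨k, hk⟩ := hY ⟨c, commutator_le_self Y hcY⟩
    have hk' : c ^ p ^ k = 1 := congrArg Subtype.val hk
    have hcop : (2 : ℕ).Coprime (p ^ k) :=
      ((Nat.coprime_primes Nat.prime_two hpf.out).2 (Ne.symm hp)).pow_right k
    have := pow_gcd_eq_one.2 ⟨h2, hk'⟩
    rwa [hcop.gcd_eq_one, pow_one] at this
  rw [h7, mul_one] at hyc
  exact mul_inv_eq_iff_eq_mul.1 hyc

/-- A subgroup normalising an abelian subgroup is stabilised by it in two steps. -/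
theorem commutator_commutator_eq_bot {Y A : Subgroup G} (hA : ∀ a ∈ A, ∀ b ∈ A, Commute a b)
    (hYA : Y ≤ Subgroup.normalizer (A : Set G)) : ⁅⁅Y, A⁆, A⁆ = ⊥ := by
  have h1 : ⁅Y, A⁆ ≤ A := commutator_le.2 fun x hx y hy => by
    have := mul_mem ((mem_normalizer_iff.1 (hYA hx) y).1 hy) (inv_mem hy)
    simpa [commutatorElement_def] using this
  exact le_bot_iff.1 ((commutator_mono h1 le_rfl).trans
    (commutator_eq_bot_iff_le_centralizer.2 fun x hx => mem_centralizer_iff.2 fun y hy =>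
      (hA y hy x hx).eq).le)

variable [Finite G] {p : ℕ} [hpf : Fact p.Prime]

/-- `Z(J(S))` meets every normal `p`-subgroup in a normal subgroup, with `p`-stability only
required for members of `𝒜(S)` acting on normal subgroups of class two and exponent `p`. -/
theorem inf_centerThompsonOf_normal_of (hp : p ≠ 2) (S : Sylow p G)
    (hkey : ∀ (Y : Subgroup G) [Y.Normal], IsPGroup p Y → (∀ y ∈ Y, y ^ p = 1) →
      (∀ x ∈ Y, ∀ y ∈ Y, ∀ z ∈ Y, Commute ⁅x, y⁆ z) → ∀ A, IsMaxEA p (S : Subgroup G) A →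
      Y ≤ Subgroup.normalizer (A : Set G) → ∀ a ∈ A,
      (QuotientGroup.mk a : G ⧸ Subgroup.centralizer (Y : Set G)) ∈
        Cfsg.pCore p (G ⧸ Subgroup.centralizer (Y : Set G)))
    (B : Subgroup G) [hBn : B.Normal] (hB : IsPGroup p B) :
    (B ⊓ centerThompsonOf p (S : Subgroup G)).Normal := by
  set J := thompsonSubgroupOf p (S : Subgroup G) with hJ
  set Z := centerThompsonOf p (S : Subgroup G) with hZdef
  have hNJZ : normalizer (J : Set G) ≤ normalizer (Z : Set G) :=
    normalizer_le_normalizer_inf_centralizer J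
  have hSZ : (S : Subgroup G) ≤ normalizer (Z : Set G) :=
    (le_normalizer_thompsonSubgroupOf _).trans hNJZ
  have hAJ : ∀ A, IsMaxEA p (S : Subgroup G) A → A ≤ J := fun A hA => by
    rw [hJ, thompsonSubgroupOf_eq]; exact le_sSup hA
  have hZA : ∀ A, IsMaxEA p (S : Subgroup G) A → ∀ z ∈ Z, ∀ a ∈ A, Commute a z :=
    fun A hA z hz a ha => mem_centralizer_iff.1 hz.2 a (hAJ A hA ha)
  have hZc : ∀ z ∈ Z, ∀ z' ∈ Z, Commute z z' := fun z hz z' hz' =>
    mem_centralizer_iff.1 hz'.2 z hz.1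
  induction hcard : Nat.card B using Nat.strong_induction_on generalizing B with
  | _ k ih =>
  subst hcard
  by_cases hB1 : normalClosure ((B ⊓ Z : Subgroup G) : Set G) ≠ B
  · set B1 := normalClosure ((B ⊓ Z : Subgroup G) : Set G) with hB1def
    have hle : B1 ≤ B := normalClosure_le_normal inf_le_left
    have hlt : Nat.card B1 < Nat.card B :=
      lt_of_le_of_ne (card_le_of_le hle) fun h => hB1 (eq_of_le_of_card_ge hle h.ge)
    have h := ih _ hlt B1 (hB.to_le hle) rfl
    have : B1 ⊓ Z = B ⊓ Z :=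
      le_antisymm (inf_le_inf_right _ hle) (le_inf subset_normalClosure inf_le_right)
    rwa [this] at h
  push Not at hB1
  by_cases hBbot : B = ⊥
  · subst hBbot; rw [bot_inf_eq]; infer_instance
  have hBS : B ≤ S := hB.le_sylow_of_normal S
  have hClt : ⁅B, B⁆ < B := by
    have : Nontrivial B := nontrivial_iff_ne_bot B |>.2 hBbot
    have : Group.IsNilpotent B := hB.isNilpotent
    refine lt_of_le_of_ne (commutator_le_self _) fun h => ?_
    have hc : commutator B = ⊤ := by
      apply map_injective B.subtype_injective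
      rw [commutator_def, map_commutator, ← MonoidHom.range_eq_map, range_subtype, h]
    have hsol : Group.IsSolvable B := inferInstance
    exact (Group.IsSolvable.commutator_lt_top_of_nontrivial B).ne hc
  have hQn : (⁅B, B⁆ ⊓ Z).Normal := ih _
    ((card_le_of_le hClt.le).lt_of_ne fun h => hClt.ne (eq_of_le_of_card_ge hClt.le h.ge)) _
    (hB.to_le hClt.le) rfl
  set Q := ⁅B, B⁆ ⊓ Z with hQ
  have hCZ : ⁅B, B⁆ ≤ Z := by
    set W := (centralizer ((B.map (QuotientGroup.mk' Q) : Subgroup (G ⧸ Q)) : Set (G ⧸ Q))).comap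
        (QuotientGroup.mk' Q)
    have hgen : B ⊓ Z ≤ W := by
      intro z hz
      rw [mem_comap, mem_centralizer_iff]
      rintro _ ⟨y, hy, rfl⟩
      rw [← map_mul, ← map_mul, QuotientGroup.mk'_apply, QuotientGroup.mk'_apply, QuotientGroup.eq]
      have h1 : ⁅z⁻¹, y⁻¹⁆ ∈ ⁅B, B⁆ := commutator_mem_commutator (inv_mem hz.1) (inv_mem hy)
      have h2 : ⁅z⁻¹, y⁻¹⁆ ∈ Z := by
        have := mul_mem (inv_mem (show z ∈ Z from hz.2))
          ((mem_normalizer_iff.1 (hSZ (hBS (inv_mem hy))) z).1 hz.2)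
        simpa [commutatorElement_def, mul_assoc] using this
      have h3 := (show ⁅z⁻¹, y⁻¹⁆ ∈ Q from ⟨h1, h2⟩)
      simpa [commutatorElement_def, mul_assoc] using h3
    have hle : B ≤ W := hB1.ge.trans (normalClosure_le_normal hgen)
    refine le_trans ?_ (inf_le_right : Q ≤ Z)
    refine commutator_le.2 fun x hx y hy => ?_
    have h1 := mem_centralizer_iff.1 (mem_comap.1 (hle hx)) _ (mem_map_of_mem _ hy)
    rw [← QuotientGroup.eq_one_iff, ← QuotientGroup.mk'_apply, map_commutatorElement,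
      commutatorElement_eq_one_iff_mul_comm]
    exact h1.symm
  -- `B` has class at most two
  have hcen : ∀ c ∈ ⁅B, B⁆, ∀ b ∈ B, Commute c b := by
    have h1 : B ≤ centralizer ((⁅B, B⁆ : Subgroup G) : Set G) := hB1.ge.trans (normalClosure_le_normal
      fun z hz => mem_centralizer_iff.2 fun c hc => (hZc c (hCZ hc) z hz.2).eq)
    exact fun c hc b hb => mem_centralizer_iff.1 (h1 hb) c hc
  have hcm : ∀ x ∈ B, ∀ y ∈ B, ∀ b ∈ B, Commute ⁅x, y⁆ b := fun x hx y hy b hb =>
    hcen _ (commutator_mem_commutator hx hy) b hb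
  -- `z ^ p` is central in `B` for `z ∈ B ⊓ Z`
  have hzp : ∀ g : G, ∀ z ∈ B ⊓ Z, ∀ b ∈ B, Commute ((g * z * g⁻¹) ^ p) b := by
    set Bp := normalClosure {x : G | ∃ z ∈ B ⊓ Z, x = z ^ p} with hBp
    have hBpB : Bp ≤ B := normalClosure_le_normal (by
      rintro _ ⟨z, hz, rfl⟩; exact pow_mem hz.1 p)
    have hne : Bp ≠ B := by
      intro heq
      let E : Subgroup G :=
        { carrier := {b | ∃ c ∈ B, ∃ d ∈ ⁅B, B⁆, b = c ^ p * d}
          one_mem' := ⟨1, B.one_mem, 1, Subgroup.one_mem _, by simp⟩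
          mul_mem' := by
            rintro _ _ ⟨c, hc, d, hd, rfl⟩ ⟨c', hc', d', hd', rfl⟩
            refine ⟨c * c', B.mul_mem hc hc', (⁅c', c⁆ ^ p.choose 2)⁻¹ * (d * d'),
              Subgroup.mul_mem _ (Subgroup.inv_mem _ (Subgroup.pow_mem _
                (commutator_mem_commutator hc' hc) _)) (Subgroup.mul_mem _ hd hd'), ?_⟩
            rw [mul_pow_class_two (hcm c' hc' c hc c hc) (hcm c' hc' c hc c' hc')]
            calc c ^ p * d * (c' ^ p * d') = c ^ p * (d * c' ^ p) * d' := by simp only [mul_assoc]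
              _ = c ^ p * (c' ^ p * d) * d' := by rw [((hcen d hd c' hc').pow_right p).eq]
              _ = _ := by simp only [mul_assoc, mul_inv_cancel_left]
          inv_mem' := by
            rintro _ ⟨c, hc, d, hd, rfl⟩
            refine ⟨c⁻¹, B.inv_mem hc, d⁻¹, Subgroup.inv_mem _ hd, ?_⟩
            rw [mul_inv_rev, inv_pow, ((hcen d hd c hc).inv_left.pow_right p).inv_right.eq] }
      have hBE : B ≤ E := by
        rw [← heq, hBp, normalClosure]
        refine (closure_le _).2 fun x hx => ?_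
        rw [Group.mem_conjugatesOfSet_iff] at hx
        obtain ⟨_, ⟨z, hz, rfl⟩, hconj⟩ := hx
        obtain ⟨g, rfl⟩ := isConj_iff.1 hconj
        exact ⟨g * z * g⁻¹, hBn.conj_mem z hz.1 g, 1, Subgroup.one_mem _, by
          rw [conj_pow, mul_one]⟩
      have hit : ∀ k : ℕ, ∀ b ∈ B, ∃ c ∈ B, ∃ d ∈ ⁅B, B⁆, b = c ^ (p ^ k) * d := by
        intro k
        induction k with
        | zero => exact fun b hb => ⟨b, hb, 1, Subgroup.one_mem _, by simp⟩
        | succ k ihk =>
          intro b hb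
          obtain ⟨c, hc, d, hd, rfl⟩ := ihk b hb
          obtain ⟨c', hc', d', hd', rfl⟩ := hBE hc
          refine ⟨c', hc', d' ^ (p ^ k) * d, Subgroup.mul_mem _ (Subgroup.pow_mem _ hd' _) hd, ?_⟩
          rw [((hcen d' hd' c' hc').pow_right p).symm.mul_pow, ← pow_mul, ← pow_succ', mul_assoc]
      refine hClt.not_ge fun b hb => ?_
      obtain ⟨m, hm⟩ := hB.exists_card_eq
      obtain ⟨c, hc, d, hd, rfl⟩ := hit m b hb
      rw [show c ^ p ^ m = 1 from by
        rw [← hm]; exact congrArg Subtype.val (pow_card_eq_one' (x := (⟨c, hc⟩ : B))), one_mul]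
      exact hd
    have hn := ih _ (lt_of_le_of_ne (card_le_of_le hBpB)
      fun h => hne (eq_of_le_of_card_ge hBpB h.ge)) Bp (hB.to_le hBpB) rfl
    intro g z hz b hb
    have hcz : ∀ h : G, h * z ^ p * h⁻¹ ∈ Z := fun h =>
      (hn.conj_mem _ ⟨subset_normalClosure ⟨z, hz, rfl⟩, pow_mem hz.2 p⟩ h).2
    have hBc : B ≤ centralizer {g * z ^ p * g⁻¹} := by
      rw [← hB1, normalClosure]
      refine (closure_le _).2 fun x hx => ?_
      rw [Group.mem_conjugatesOfSet_iff] at hx
      obtain ⟨w, hw, hconj⟩ := hx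
      obtain ⟨h, rfl⟩ := isConj_iff.1 hconj
      have h1 : Commute ((h⁻¹ * g) * z ^ p * (h⁻¹ * g)⁻¹) w := hZc _ (hcz _) _ hw.2
      have h2 := h1.map (MulAut.conj h).toMonoidHom
      have e : (MulAut.conj h).toMonoidHom ((h⁻¹ * g) * z ^ p * (h⁻¹ * g)⁻¹) =
          g * z ^ p * g⁻¹ := by
        change h * ((h⁻¹ * g) * z ^ p * (h⁻¹ * g)⁻¹) * h⁻¹ = _
        group
      rw [e] at h2
      exact mem_centralizer_singleton_iff.2 h2.symm.eq
    rw [conj_pow]
    exact (mem_centralizer_singleton_iff.1 (hBc hb)).symm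
  -- commutators of `B` have order dividing `p`
  have hCexp : ∀ c ∈ ⁅B, B⁆, c ^ p = 1 := by
    let K : Subgroup G :=
      { carrier := {c | c ∈ ⁅B, B⁆ ∧ c ^ p = 1}
        one_mem' := ⟨Subgroup.one_mem _, one_pow p⟩
        mul_mem' := fun {a b} ha hb => ⟨Subgroup.mul_mem _ ha.1 hb.1, by
          rw [(hcen a ha.1 b (commutator_le_self B hb.1)).mul_pow, ha.2, hb.2, one_mul]⟩
        inv_mem' := fun {a} ha => ⟨Subgroup.inv_mem _ ha.1, by rw [inv_pow, ha.2, inv_one]⟩ }
    let X : Subgroup G :=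
      { carrier := {x | x ∈ B ∧ ∀ y ∈ B, ⁅x, y⁆ ∈ K}
        one_mem' := ⟨B.one_mem, fun y _ => by rw [commutatorElement_one_left]; exact K.one_mem⟩
        mul_mem' := fun {a b} ha hb => ⟨B.mul_mem ha.1 hb.1, fun y hy => by
          rw [commutator_mul_left, ← (hcm b hb.1 y hy a ha.1).eq, mul_inv_cancel_right]
          exact K.mul_mem (hb.2 y hy) (ha.2 y hy)⟩
        inv_mem' := fun {a} ha => ⟨B.inv_mem ha.1, fun y hy => by
          have h1 := commutator_mul_left a⁻¹ a y
          rw [inv_mul_cancel, commutatorElement_one_left,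
            ← (hcm a ha.1 y hy a⁻¹ (B.inv_mem ha.1)).eq, mul_inv_cancel_right] at h1
          rw [eq_inv_of_mul_eq_one_right h1.symm]
          exact K.inv_mem (ha.2 y hy)⟩ }
    have hBX : B ≤ X := by
      intro b hb
      have : normalClosure ((B ⊓ Z : Subgroup G) : Set G) ≤ X := by
        rw [normalClosure]
        refine (closure_le _).2 fun x hx => ?_
        rw [Group.mem_conjugatesOfSet_iff] at hx
        obtain ⟨z, hz, hconj⟩ := hx
        obtain ⟨g, rfl⟩ := isConj_iff.1 hconj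
        have hxB : g * z * g⁻¹ ∈ B := hBn.conj_mem z hz.1 g
        refine ⟨hxB, fun y hy => ⟨commutator_mem_commutator hxB hy, ?_⟩⟩
        rw [← commutator_pow_left (hcm _ hxB y hy _ hxB), commutatorElement_eq_one_iff_commute]
        exact hzp g z hz y hy
      exact this (hB1.symm ▸ hb)
    intro c hc
    have : ⁅B, B⁆ ≤ K := commutator_le.2 fun x hx y hy => (hBX hx).2 y hy
    exact (this hc).2
  have hCA : ∀ A, IsMaxEA p (S : Subgroup G) A → ⁅B, B⁆ ≤ A := fun A hA c hc =>
    hA.mem_of_commute (hBS (commutator_le_self B hc)) (hZA A hA c (hCZ hc)) (hCexp c hc)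
  have hmulpow : ∀ x ∈ B, ∀ y ∈ B, (x * y) ^ p = x ^ p * y ^ p := by
    intro x hx y hy
    rw [mul_pow_class_two (hcm y hy x hx x hx) (hcm y hy x hx y hy)]
    have h2 : 2 < p := lt_of_le_of_ne hpf.out.two_le (Ne.symm hp)
    obtain ⟨k, hk⟩ := hpf.out.dvd_choose_self (two_ne_zero) h2
    rw [hk, pow_mul, hCexp _ (commutator_mem_commutator hy hx), one_pow, mul_one]
  let Y : Subgroup G :=
    { carrier := {x | x ∈ B ∧ x ^ p = 1}
      one_mem' := ⟨B.one_mem, one_pow p⟩
      mul_mem' := fun {a b} ha hb => ⟨B.mul_mem ha.1 hb.1, by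
        rw [hmulpow a ha.1 b hb.1, ha.2, hb.2, one_mul]⟩
      inv_mem' := fun {a} ha => ⟨B.inv_mem ha.1, by rw [inv_pow, ha.2, inv_one]⟩ }
  have hYB : Y ≤ B := fun x hx => hx.1
  have hYn : Y.Normal := ⟨fun y hy g =>
    ⟨hBn.conj_mem y hy.1 g, by rw [conj_pow, hy.2, mul_one, mul_inv_cancel]⟩⟩
  set L := (normalizer ((B ⊓ Z : Subgroup G) : Set G)).normalCore with hL
  have hLle : L ≤ normalizer ((B ⊓ Z : Subgroup G) : Set G) := normalCore_le _
  have hNZBZ : normalizer (Z : Set G) ≤ normalizer ((B ⊓ Z : Subgroup G) : Set G) := by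
    intro g hg
    rw [mem_normalizer_iff] at hg ⊢
    exact fun z => and_congr
      ⟨fun hz => hBn.conj_mem z hz g, fun hz => by simpa [mul_assoc] using hBn.conj_mem _ hz g⁻¹⟩
      (hg z)
  have hmove : ∀ m ∈ normalizer (((S : Subgroup G) ⊓ L : Subgroup G) : Set G),
      ∀ A, IsMaxEA p (S : Subgroup G) A → A ≤ L → rconj m A ≤ (S : Subgroup G) := by
    intro m hm A hA hAL x hx
    have hxA : m * x * m⁻¹ ∈ (S : Subgroup G) ⊓ L :=
      ⟨hA.1 (mem_rconj.1 hx), hAL (mem_rconj.1 hx)⟩
    exact ((mem_normalizer_iff.1 hm x).2 hxA).1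
  by_cases hall : ∀ A, IsMaxEA p (S : Subgroup G) A → A ≤ L
  · rw [← normalizer_eq_top_iff, eq_top_iff, ← H35.sup_normalizer_sylow_inf S L]
    refine sup_le hLle fun g hg => hNZBZ (hNJZ ?_)
    exact mem_normalizer_thompsonSubgroupOf fun A hA => hmove g hg A hA (hall A hA)
  push Not at hall
  -- `C(Y)` normalises `B ⊓ Z`
  have hCY : centralizer (Y : Set G) ≤ normalizer ((B ⊓ Z : Subgroup G) : Set G) := by
    set C := centralizer (Y : Set G) with hC
    have hCn : C.Normal := Subgroup.normal_centralizer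
    have hcentB : ∀ d ∈ C, (orderOf d).Coprime p → ∀ v ∈ B, Commute d v := by
      intro d hd hdp
      suffices ∀ k : ℕ, ∀ v ∈ B, v ^ (p ^ k) = 1 → Commute d v by
        intro v hv
        obtain ⟨k, hk⟩ := hB ⟨v, hv⟩
        exact this k v hv (congrArg Subtype.val hk)
      intro k
      induction k with
      | zero => intro v _ h; rw [pow_zero, pow_one] at h; rw [h]; exact Commute.one_right d
      | succ k ihk =>
        intro v hv hk
        obtain ⟨w, hw⟩ : ∃ w, w = d * v * d⁻¹ * v⁻¹ := ⟨_, rfl⟩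
        have hdv : d * v * d⁻¹ ∈ B := hBn.conj_mem v hv d
        have hwB : w ∈ B := hw ▸ B.mul_mem hdv (B.inv_mem hv)
        have hvp : Commute d (v ^ p) :=
          ihk _ (B.pow_mem hv p) (by rw [← pow_mul, ← pow_succ']; exact hk)
        have hwp : w ^ p = 1 := by
          rw [hw, hmulpow _ hdv _ (B.inv_mem hv), conj_pow, inv_pow, hvp.eq,
            mul_inv_cancel_right, mul_inv_cancel]
        have hdw : Commute d w := ((mem_centralizer_iff.1 hd w ⟨hwB, hwp⟩).symm : d * w = w * d)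
        have hit : ∀ i : ℕ, d ^ i * v * (d ^ i)⁻¹ = w ^ i * v := by
          intro i
          induction i with
          | zero => simp
          | succ i ihi =>
            calc d ^ (i + 1) * v * (d ^ (i + 1))⁻¹ = d * (d ^ i * v * (d ^ i)⁻¹) * d⁻¹ := by
                  rw [pow_succ']; group
              _ = w ^ i * (d * v * d⁻¹) := by
                  rw [ihi, ← mul_assoc, (hdw.pow_right i).eq]; group
              _ = w ^ (i + 1) * v := by
                  rw [show d * v * d⁻¹ = w * v by rw [hw, inv_mul_cancel_right], pow_succ, mul_assoc]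
        have h2 : w ^ orderOf d = 1 := by
          have := hit (orderOf d)
          rw [pow_orderOf_eq_one, one_mul, inv_one, mul_one] at this
          exact mul_eq_right.1 this.symm
        have h3 : w = 1 := by
          have := pow_gcd_eq_one.2 ⟨h2, hwp⟩
          rwa [hdp.gcd_eq_one, pow_one] at this
        rw [hw] at h3
        exact mul_inv_eq_iff_eq_mul.1 (mul_inv_eq_one.1 h3)
    have hP : IsPGroup p ((S : Subgroup G).subgroupOf C) := S.2.comap_subtype
    have hsup := H22.pResidual_sup_sylow (hP.toSylow (H22.sylow_not_dvd_relIndex_normal S C))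
    intro c hc
    obtain ⟨r, hr, s, hs, hrs⟩ : ∃ r ∈ pResidual p C, ∃ s ∈ (S : Subgroup G).subgroupOf C,
        r * s = (⟨c, hc⟩ : C) := by
      have hn : (pResidual p C).Normal := H22.pResidual_normal
      exact mem_sup_of_normal_left.1 (hsup.ge (mem_top _))
    have hr' : (r : G) ∈ centralizer (B : Set G) := by
      have hle : (pResidual p C).map C.subtype ≤ centralizer (B : Set G) := by
        rw [pResidual, MonoidHom.map_closure, closure_le]
        rintro _ ⟨d, hd, rfl⟩
        exact mem_centralizer_iff.2 fun v hv =>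
          (hcentB d d.2 (by rw [Subgroup.orderOf_coe]; exact hd) v hv).symm.eq
      exact hle ⟨r, hr, rfl⟩
    have hcd : c = (r : G) * (s : G) := congrArg Subtype.val hrs.symm
    rw [hcd]
    refine mul_mem ?_ (hNZBZ (hSZ hs))
    exact centralizer_le_normalizer _ (centralizer_le inf_le_left hr')
  -- no member outside `L` is normalised by `Y`
  have hnone : ∀ A, IsMaxEA p (S : Subgroup G) A → ¬ A ≤ L → ¬ Y ≤ normalizer (A : Set G) := by
    intro A hA hAL hYA
    apply hAL
    intro a ha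
    have hmem := hkey Y (hB.to_le hYB) (fun y hy => hy.2)
      (fun x hx y hy z hz => hcm x hx.1 y hy.1 z hz.1) A hA hYA a ha
    set q := QuotientGroup.mk' (centralizer (Y : Set G))
    set K := (pCore p (G ⧸ centralizer (Y : Set G))).comap q with hK
    have hKle : K ≤ normalizer ((B ⊓ Z : Subgroup G) : Set G) := by
      have hq : Function.Surjective q := QuotientGroup.mk'_surjective _
      have h1 : pCore p (G ⧸ centralizer (Y : Set G)) ≤ (S : Subgroup G).map q := by
        rw [← Sylow.coe_mapSurjective hq S]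
        exact sSup_le fun N hN => by
          have := hN.1
          exact hN.2.le_sylow_of_normal _
      refine (comap_mono h1).trans ?_
      rw [comap_map_eq, QuotientGroup.ker_mk']
      exact sup_le (hSZ.trans hNZBZ) hCY
    exact normal_le_normalCore.2 hKle hmem
  obtain ⟨A, ⟨hA, hAL⟩, hmax⟩ := Set.Finite.exists_maximalFor
    (fun A : Subgroup G => Nat.card ↥(A ⊓ Y)) {A | IsMaxEA p (S : Subgroup G) A ∧ ¬ A ≤ L}
    (Set.toFinite _) (by obtain ⟨A, hA, hAL⟩ := hall; exact ⟨A, hA, hAL⟩)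
  have hAc : IsMulCommutative A := ⟨⟨fun a b => Subtype.ext (hA.2.1 a a.2 b b.2).eq⟩⟩
  obtain ⟨A', hA'S, hA'ab, hA'card, hA'exp, -, hlt1, hlt2⟩ :=
    H35.exists_replacement_in_subgroup hp S.isPGroup' (hYB.trans hBS)
      (le_top.trans (normalizer_eq_top Y).ge) hA.1 hAc
      ((commutator_mono hYB hYB).trans (hCA A hA)) (hnone A hA hAL)
  have hA' : IsMaxEA p (S : Subgroup G) A' := by
    refine ⟨hA'S, fun a ha b hb => congrArg Subtype.val (mul_comm' (⟨a, ha⟩ : A') ⟨b, hb⟩),
      fun a ha => ?_, fun B' h1 h2 h3 => hA'card ▸ hA.2.2.2 B' h1 h2 h3⟩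
    have hd : Monoid.exponent A ∣ p :=
      Monoid.exponent_dvd_of_forall_pow_eq_one fun x => Subtype.ext (by simpa using hA.2.2.1 x x.2)
    have h := Monoid.exponent_dvd_iff_forall_pow_eq_one.1 (hA'exp.trans hd) ⟨a, ha⟩
    simpa using congrArg Subtype.val h
  have hA'L : A' ≤ L := by
    by_contra h
    exact hlt1.ne (eq_of_le_of_card_ge hlt1.le (hmax ⟨hA', h⟩ (card_le_of_le hlt1.le)))
  exfalso
  have hBc : B ≤ centralizer (A' : Set G) := by
    rw [← hB1, normalClosure]
    refine (closure_le _).2 fun x hx => ?_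
    rw [Group.mem_conjugatesOfSet_iff] at hx
    obtain ⟨z, hz, hzx⟩ := hx
    obtain ⟨g, rfl⟩ := isConj_iff.1 hzx
    have hg : g ∈ (⊤ : Subgroup G) := mem_top g
    rw [← H35.sup_normalizer_sylow_inf S L, sup_comm] at hg
    obtain ⟨m, hm, l, hl, rfl⟩ := mem_sup_of_normal_right.1 hg
    refine mem_centralizer_iff.2 fun a ha => ?_
    have hlz : l * z * l⁻¹ ∈ B ⊓ Z := (mem_normalizer_iff.1 (hLle hl) z).1 hz
    have hmA : IsMaxEA p (S : Subgroup G) (rconj m A') := hA'.rconj (hmove m hm A' hA' hA'L)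
    have h1 : Commute (m⁻¹ * a * m) (l * z * l⁻¹) := hZA _ hmA _ hlz.2 _ (by
      rw [mem_rconj]; simpa [mul_assoc] using ha)
    have h2 := h1.map (MulAut.conj m).toMonoidHom
    have e1 : (MulAut.conj m).toMonoidHom (m⁻¹ * a * m) = a := by
      change m * (m⁻¹ * a * m) * m⁻¹ = a
      group
    have e2 : (MulAut.conj m).toMonoidHom (l * z * l⁻¹) = m * l * z * (m * l)⁻¹ := by
      change m * (l * z * l⁻¹) * m⁻¹ = _
      group
    rw [e1, e2] at h2
    exact h2.eq
  refine hlt2.ne (inf_eq_right.2 fun y hy => ?_)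
  exact hA'.mem_of_commute (hBS hy.1) (fun a ha => mem_centralizer_iff.1 (hBc hy.1) a ha) hy.2

end Cfsg.Agent.H14.Bender
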