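import Cfsg.Agent.H14.Bender.EndgameZJ
import Cfsg.Agent.H14.Bender.IHFacts
import Cfsg.Agent.H20.Generation

/-!
Elementary facts used in the central case of PLAN sec. 5: rigid pairs, odd centralisers, the four-group lemma, and
configurations cut out by apex sets.
-/

set_option autoImplicit false
set_option linter.style.haveILetI false
set_option linter.unusedSectionVars false

namespace Cfsg.Agent.H14.Bender

universe u

open Subgroup

variable {G : Type u} [Group G] {Ω : Type u} [MulAction G Ω] [Finite G] [Finite Ω]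

namespace PartE

theorem rich_mono {M M' : Subgroup G} (h : M ≤ M') (hM : Rich Ω M) : Rich Ω M' := by
  obtain ⟨⟨s, hs, t, ht, h1, h2, h3, h4⟩, hnt⟩ := hM
  exact ⟨⟨s, h hs, t, h ht, h1, h2, h3, h4⟩, hnt.mono fun x ⟨a, ha, hax⟩ => ⟨a, h ha, hax⟩⟩

theorem exists_apex (hS : Setting G Ω) {M : Subgroup G} {t : G} (htM : t ∈ M) (ht : orderOf t = 2) :
    ∃ x ∈ (apexSet M : Set Ω), InvAt t x := by
  obtain ⟨x, hx⟩ := hS.exists_fix t ht
  exact ⟨x, ⟨t, htM, ht, hx⟩, ht, hx⟩

theorem exists_other_apex {M : Subgroup G} (hnt : (apexSet M : Set Ω).Nontrivial) (x : Ω) :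
    ∃ s ∈ M, ∃ y : Ω, InvAt s y ∧ y ≠ x := by
  obtain ⟨y, ⟨s, hs, hsy⟩, hyx⟩ := hnt.exists_ne x
  exact ⟨s, hs, y, hsy, hyx⟩

/-- One class of involutions. -/
theorem conj_mem (hS : Setting G Ω) {M : Subgroup G} (hnt : (apexSet M : Set Ω).Nontrivial) {s t : G}
    (hs : s ∈ M) (hs2 : orderOf s = 2) (ht : t ∈ M) (ht2 : orderOf t = 2) : ∃ g ∈ M, g * s * g⁻¹ = t := by
  obtain ⟨x, -, hx⟩ := exists_apex hS hs hs2
  obtain ⟨y, -, hy⟩ := exists_apex hS ht ht2
  have key : ∀ {a b : G} {p q : Ω}, a ∈ M → b ∈ M → InvAt a p → InvAt b q → p ≠ q → ∃ g ∈ M, g * a * g⁻¹ = b := by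
    intro a b p q ha hb hap hbq hpq
    obtain ⟨i, hi, -, hib, -⟩ := exists_middle hS hap hbq hpq
    exact ⟨i, (closure_le _).2 (by rintro g (rfl | rfl) <;> assumption) hi, hib⟩
  by_cases hxy : x = y
  · obtain ⟨w, hw, z, hwz, hzx⟩ := exists_other_apex hnt x
    obtain ⟨g, hg, hgs⟩ := key hs hw hx hwz (Ne.symm hzx)
    obtain ⟨h, hh, hhw⟩ := key hw ht hwz hy (hxy ▸ hzx)
    exact ⟨h * g, mul_mem hh hg, by rw [← hhw, ← hgs]; group⟩
  · exact key hs ht hx hy hxy

/-- An element of odd order inverted and centralised by involutions with different apexes is trivial. -/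
theorem rigid (hS : Setting G Ω) {i t j : G} {x y : Ω} (hi : InvAt i x) (ht : InvAt t y) (hxy : x ≠ y)
    (hj : Odd (orderOf j)) (hinv : i * j * i⁻¹ = j⁻¹) (hc : Commute t j) : j = 1 := by
  obtain ⟨k, hk, -, hkt, -⟩ := exists_middle hS hi ht hxy
  let H : Subgroup G :=
    { carrier := {g | g * j * g⁻¹ = j ∨ g * j * g⁻¹ = j⁻¹}
      one_mem' := Or.inl (by simp)
      mul_mem' := by
        intro a b ha hb
        have e : a * b * j * (a * b)⁻¹ = a * (b * j * b⁻¹) * a⁻¹ := by group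
        have e' : a * j⁻¹ * a⁻¹ = (a * j * a⁻¹)⁻¹ := by group
        rcases ha with ha | ha <;> rcases hb with hb | hb <;>
          simp only [Set.mem_setOf_eq, e, hb, e', ha, inv_inv, true_or, or_true]
      inv_mem' := by
        intro a ha
        have e : a⁻¹ * (a * j * a⁻¹) * a⁻¹⁻¹ = j := by group
        rcases ha with ha | ha <;> rw [ha] at e
        · exact Or.inl e
        · refine Or.inr ?_
          have e' : a⁻¹ * j * a⁻¹⁻¹ = (a⁻¹ * j⁻¹ * a⁻¹⁻¹)⁻¹ := by group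
          rw [e', e] }
  have hkH : k ∈ H := by
    refine (closure_le H).2 ?_ hk
    rintro g (rfl | rfl)
    · exact Or.inr hinv
    · exact Or.inl (mul_inv_eq_iff_eq_mul.2 hc.eq)
  have h1 : t * j * t⁻¹ = j⁻¹ := by
    rcases inv_mem hkH with h | h <;> rw [inv_inv] at h
    · calc t * j * t⁻¹ = k * (i * (k⁻¹ * j * k) * i⁻¹) * k⁻¹ := by rw [← hkt]; group
        _ = k * j⁻¹ * k⁻¹ := by rw [h, hinv]
        _ = (k * (k⁻¹ * j * k) * k⁻¹)⁻¹ := by rw [h]; group
        _ = j⁻¹ := by group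
    · calc t * j * t⁻¹ = k * (i * (k⁻¹ * j * k) * i⁻¹) * k⁻¹ := by rw [← hkt]; group
        _ = k * (i * j * i⁻¹)⁻¹ * k⁻¹ := by rw [h]; group
        _ = k * (k⁻¹ * j * k)⁻¹ * k⁻¹ := by rw [hinv, h]
        _ = j⁻¹ := by group
  rw [hc.eq, mul_inv_cancel_right] at h1
  exact orderOf_eq_one_iff.1 (Nat.eq_one_of_dvd_coprimes (Nat.Coprime.symm hj.coprime_two_left)
    dvd_rfl (orderOf_dvd_of_pow_eq_one (by rw [pow_two]; nth_rewrite 1 [h1]; exact inv_mul_cancel j)))

/-- The centraliser of an odd `Q` on which no involution of a normalising `M` acts trivially is odd. -/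
theorem cent_odd (hS : Setting G Ω) {M Q : Subgroup G} (hnt : (apexSet M : Set Ω).Nontrivial)
    (hQ : Odd (Nat.card Q)) (hMQ : M ≤ normalizer (Q : Set G))
    (hne : ∀ s ∈ M, orderOf s = 2 → ∃ y ∈ Q, ¬ Commute s y) :
    Odd (Nat.card (centralizer (Q : Set G))) := by
  rw [← Nat.not_even_iff_odd, even_iff_two_dvd]
  intro h
  obtain ⟨⟨t, htC⟩, ht⟩ := exists_prime_orderOf_dvd_card' 2 h (hp := ⟨Nat.prime_two⟩)
  rw [Subgroup.orderOf_mk] at ht
  obtain ⟨x, hx⟩ := hS.exists_fix t ht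
  obtain ⟨s, hs, y, hsy, hyx⟩ := exists_other_apex hnt x
  obtain ⟨q, hq, hnc⟩ := hne s hs hsy.1
  set e := q⁻¹ * (s * q * s⁻¹) with he
  have heQ : e ∈ Q := mul_mem (inv_mem hq) ((mem_normalizer_iff.1 (hMQ hs) q).1 hq)
  have hss : s⁻¹ = s := H28.inv_eq_self_of_orderOf_two hsy.1
  have hinv : s * e * s⁻¹ = e⁻¹ := by
    rw [he, show s * (q⁻¹ * (s * q * s⁻¹)) * s⁻¹ = (s * q⁻¹ * s⁻¹) * ((s * s) * q * (s * s)⁻¹) by group,
      mul_self_inv hsy.1, mul_inv_rev]
    group
  have he1 : e = 1 := rigid hS hsy ⟨ht, hx⟩ hyx (hQ.of_dvd_nat (Subgroup.orderOf_mk e heQ ▸ orderOf_dvd_natCard _))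
    hinv (mem_centralizer_iff.1 htC e heQ).symm
  refine hnc (mul_inv_eq_iff_eq_mul.1 ?_)
  rw [he, inv_mul_eq_one] at he1
  exact he1.symm

/-- A commuting pair of involutions at `x` normalising an odd `O` forces `O` to fix `x`. -/
theorem fix_of_pair (hS : Setting G Ω) {s t : G} {x : Ω} (hs : InvAt s x) (ht : InvAt t x) (hne : s ≠ t)
    (hst : Commute s t) {O : Subgroup G} (hO : Odd (Nat.card O)) (hsO : s ∈ normalizer (O : Set G))
    (htO : t ∈ normalizer (O : Set G)) : O ≤ MulAction.stabilizer G x := by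
  set A := closure ({s, t} : Set G) with hA
  haveI hcomm : IsMulCommutative A := isMulCommutative_closure (by
    rintro a (rfl | rfl) b (rfl | rfl)
    exacts [rfl, hst.eq, hst.eq.symm, rfl])
  have hexp : ∀ a ∈ A, a ^ 2 = 1 := by
    intro a ha
    induction ha using closure_induction with
    | mem a ha => rcases ha with rfl | rfl <;> rw [pow_two]
                  exacts [mul_self_inv hs.1, mul_self_inv ht.1]
    | one => simp
    | mul a b ha hb iha ihb =>
      have : Commute a b := congrArg Subtype.val (hcomm.is_comm.comm (⟨a, ha⟩ : A) ⟨b, hb⟩)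
      rw [this.mul_pow, iha, ihb, one_mul]
    | inv a _ iha => rw [inv_pow, iha, inv_one]
  have hnc : ¬ IsCyclic A := by
    intro hc
    have hle : Nat.card A ∣ 2 := by
      rw [← IsCyclic.exponent_eq_card]
      exact Monoid.exponent_dvd_of_forall_pow_eq_one fun a => Subtype.ext (hexp a a.2)
    have h3 : 3 ≤ Nat.card A := by
      have hf : Function.Injective (![⟨1, one_mem _⟩, ⟨s, subset_closure (by simp)⟩,
          ⟨t, subset_closure (by simp)⟩] : Fin 3 → A) := by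
        have h1 := H28.ne_one_of_orderOf_two hs.1
        have h2 := H28.ne_one_of_orderOf_two ht.1
        intro a b h
        fin_cases a <;> fin_cases b <;> simp_all [Subtype.ext_iff, eq_comm]
      simpa using Nat.card_le_card_of_injective _ hf
    exact absurd (Nat.le_of_dvd (by norm_num) hle) (by omega)
  haveI : Fact (Nat.Prime 2) := ⟨Nat.prime_two⟩
  have hA2 : IsPGroup 2 A := fun a => ⟨1, Subtype.ext (by simpa using hexp a a.2)⟩
  obtain ⟨n, hn⟩ := hA2.exists_card_eq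
  refine H20.le_of_centralizers_le hnc ((closure_le _).2 (by rintro g (rfl | rfl) <;> assumption))
    (hn ▸ hO.coprime_two_left.pow_left n) fun a ha ha1 => ?_
  rintro y ⟨-, hy⟩
  have hax : a • x = x := (closure_le (MulAction.stabilizer G x)).2 (by
    rintro g (rfl | rfl)
    exacts [hs.2, ht.2]) ha
  have ha2 : orderOf a = 2 := orderOf_eq_prime (hexp a ha) ha1
  refine hS.fix_unique a ha2 (y • x) x ?_ hax
  rw [← mul_smul, ← mem_centralizer_singleton_iff.1 hy, mul_smul, hax]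

/-- A rich group normalising an odd `O`: `O` fixes all its apexes. -/
theorem le_fixTo_of_normalizes (hS : Setting G Ω) {M O : Subgroup G} (hM : Rich Ω M) (hO : Odd (Nat.card O))
    (hMO : M ≤ normalizer (O : Set G)) : O ≤ fixTo (apexSet M : Set Ω) := by
  intro o ho x hx
  obtain ⟨a, haM, hax⟩ := hx
  obtain ⟨⟨s, hs, t, ht, hs2, ht2, hne, hst⟩, hnt⟩ := hM
  obtain ⟨y, hy⟩ := hS.exists_fix s hs2
  have hty : t • y = y :=
    hS.fix_unique s hs2 _ _ (by rw [← mul_smul, hst.eq, mul_smul, hy]) hy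
  have key : ∃ g ∈ M, g • y = x := by
    by_cases hxy : y = x
    · exact ⟨1, one_mem _, by rw [one_smul, hxy]⟩
    · exact IHFacts.conj_of_apex_ne hS hs haM ⟨hs2, hy⟩ hax hxy
  obtain ⟨g, hg, rfl⟩ := key
  exact fix_of_pair hS (invAt_conj ⟨hs2, hy⟩ g) (invAt_conj ⟨ht2, hty⟩ g)
    (fun e => hne (mul_left_cancel (mul_right_cancel e))) (Commute.map hst (MulAut.conj g).toMonoidHom) hO
    (hMO (mul_mem (mul_mem hg hs) (inv_mem hg))) (hMO (mul_mem (mul_mem hg ht) (inv_mem hg))) ho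

theorem le_setStab_apexSet (M : Subgroup G) : M ≤ setStab (apexSet M : Set Ω) := fun g hg x =>
  ⟨fun h => by simpa using IHFacts.smul_mem_apexSet (inv_mem hg) h, fun h => IHFacts.smul_mem_apexSet hg h⟩

theorem apexSet_setStab (hS : Setting G Ω) {M : Subgroup G} (hne : (apexSet M : Set Ω).Nonempty) :
    apexSet (setStab (G := G) (apexSet M : Set Ω)) = (apexSet M : Set Ω) := by
  classical
  haveI := Fintype.ofFinite Ω
  haveI : Fact (Nat.Prime 2) := ⟨Nat.prime_two⟩
  set Λ : Set Ω := apexSet M with hΛ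
  have hpar : ∀ (t : G) (x : Ω), InvAt t x → t ∈ setStab Λ → (Odd (Fintype.card Λ) ↔ x ∈ Λ) := by
    intro t x ht htΛ
    have hσ : ∀ y : Λ, t • (y : Ω) ∈ Λ := fun y => (htΛ y).2 y.2
    let σ : Equiv.Perm Λ := ⟨fun y => ⟨t • (y : Ω), hσ y⟩, fun y => ⟨t • (y : Ω), hσ y⟩,
      fun y => Subtype.ext (smul_smul_self ht.1 _), fun y => Subtype.ext (smul_smul_self ht.1 _)⟩
    have h := Equiv.Perm.card_compl_support_modEq (p := 2) (n := 1) (σ := σ)
      (Equiv.ext fun y => Subtype.ext (smul_smul_self ht.1 _))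
    have hfix : ∀ y : Λ, y ∈ σ.supportᶜ ↔ (y : Ω) = x := fun y => by
      rw [Finset.mem_compl, Equiv.Perm.notMem_support]
      exact ⟨fun e => hS.fix_unique t ht.1 _ _ (congrArg Subtype.val e) ht.2,
        fun e => Subtype.ext (show t • (y : Ω) = y by rw [e, ht.2])⟩
    by_cases hx : x ∈ Λ
    · have h1 : σ.supportᶜ.card = 1 := Finset.card_eq_one.2 ⟨⟨x, hx⟩, by
        ext y; rw [hfix, Finset.mem_singleton, Subtype.ext_iff]⟩
      rw [h1] at h
      exact iff_of_true (Nat.odd_iff.2 h.symm) hx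
    · have h0 : σ.supportᶜ.card = 0 := Finset.card_eq_zero.2 (by
        ext y; simp only [hfix, Finset.notMem_empty, iff_false]; exact fun e => hx (e ▸ y.2))
      rw [h0] at h
      refine iff_of_false (fun ho => ?_) hx
      rw [Nat.odd_iff] at ho
      rw [Nat.ModEq, ho] at h
      omega
  refine Set.Subset.antisymm (fun x ⟨t, ht, htx⟩ => ?_) fun x ⟨t, ht, htx⟩ =>
    ⟨t, le_setStab_apexSet M ht, htx⟩
  obtain ⟨y, s, hs, hsy⟩ := hne
  exact (hpar t x htx ht).1 ((hpar s y hsy (le_setStab_apexSet M hs)).2 ⟨s, hs, hsy⟩)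

/-- The configuration cut out by the apexes of a rich subgroup fixed pointwise by some `j ≠ 1`. -/
theorem config_apexSet (hS : Setting G Ω) {M : Subgroup G} (hM : Rich Ω M) {j : G}
    (hj : j ∈ fixTo (G := G) (apexSet M : Set Ω)) (hj1 : j ≠ 1) :
    Config (setStab (G := G) (apexSet M : Set Ω)) (apexSet M : Set Ω) := by
  refine ⟨rich_mono (le_setStab_apexSet M) hM, apexSet_setStab hS hM.2.nonempty, rfl, fun htop => ?_⟩
  obtain ⟨x, hx⟩ := hM.2.nonempty
  refine hj1 (hS.faithful j fun y => hj y ?_)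
  obtain ⟨g, rfl⟩ := hS.exists_smul x y
  exact (((htop.symm ▸ mem_top g) : g ∈ setStab (G := G) (apexSet M : Set Ω)) x).2 hx

end PartE

end Cfsg.Agent.H14.Bender
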