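import Cfsg.Agent.H14.Bender.InfThompson
import Cfsg.Agent.H14.Bender.PartEAux

/-!
`B ∩ Z(J(R))` is normal in a rich group generated by its involutions and a Sylow `r`-subgroup `R`
(PLAN sec. 5, INF-THOMPSON step).
-/

set_option autoImplicit false
set_option linter.unusedSectionVars false

namespace Cfsg.Agent.H14.Bender

universe u

open Subgroup
open scoped commutatorElement

variable {G : Type u} [Group G] {Ω : Type u} [MulAction G Ω]

namespace PartE

/-- A member of `𝒜(R)` computed inside `G₀ ≥ R` is one computed in `G`. -/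
theorem isMaxEA_map_subtype {r : ℕ} {G0 R : Subgroup G} (hR : R ≤ G0) {A : Subgroup G0}
    (hA : H23.IsMaxEA r (R.subgroupOf G0) A) : H23.IsMaxEA r R (A.map G0.subtype) := by
  refine ⟨fun x hx => ?_, ?_, ?_, fun B hB hc he => ?_⟩
  · obtain ⟨a, ha, rfl⟩ := hx
    exact hA.1 ha
  · rintro _ ⟨a, ha, rfl⟩ _ ⟨b, hb, rfl⟩
    exact (hA.2.1 a ha b hb).map _
  · rintro _ ⟨a, ha, rfl⟩
    rw [← map_pow, hA.2.2.1 a ha, map_one]
  · rw [card_map_of_injective G0.subtype_injective,
      ← Nat.card_congr (subgroupOfEquivOfLe (hB.trans hR)).toEquiv]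
    exact hA.2.2.2 _ (fun x hx => hB hx) (fun a ha b hb => Subtype.ext (hc _ ha _ hb).eq)
      fun a ha => Subtype.ext (by simpa using he _ ha)

/-- `Z(J(R))` does not depend on the ambient group. -/
theorem map_centerThompsonOf_subgroupOf {r : ℕ} {G0 R : Subgroup G} (hR : R ≤ G0) :
    (Cfsg.centerThompsonOf r (R.subgroupOf G0)).map G0.subtype = Cfsg.centerThompsonOf r R := by
  rw [Cfsg.centerThompsonOf, Cfsg.centerThompsonOf,
    H23.map_inf_centralizer _ _ G0.subtype_injective.injOn,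
    H23.map_thompsonSubgroupOf _ _ G0.subtype_injective.injOn, map_subgroupOf_eq_of_le hR]

/-- `hst` is `st` (stable action lemma) specialised to `N = G₀`, `P = R`. -/
theorem inf_zj_le_normalizer_of [Finite G] [Finite Ω] (hS : Setting G Ω) {r : ℕ}
    [hr : Fact r.Prime] (hr2 : r ≠ 2) {G0 R : Subgroup G} (hG0 : Rich Ω G0) {c z : Ω}
    (hst : ∀ {V : Type u} [CommGroup V] [Finite V], (∀ v : V, v ^ r = 1) → ∀ (φ : G0 →* MulAut V),
      Odd (Nat.card φ.ker) → ∀ {A : Subgroup G} (hA : A ≤ G0), A ≤ pairStab c z → IsPGroup r A →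
      (∀ a ∈ A, ∀ b ∈ A, Commute a b) →
      (∀ (a : G) (ha : a ∈ A) (v : V), φ ⟨a, hA ha⟩ (φ ⟨a, hA ha⟩ v * v⁻¹) = φ ⟨a, hA ha⟩ v * v⁻¹) →
      ∃ x ∈ fixedOn A (apexSet G0 : Set Ω), x ≠ c ∧ x ≠ z)
    (hR : H23.IsSylowIn r R G0)
    (hgen : G0 ≤ Subgroup.closure {t : G | t ∈ G0 ∧ orderOf t = 2} ⊔ R)
    (hRfix : fixedOn R (apexSet G0) = {c, z})
    (hA : ∀ A : Subgroup G, H23.IsMaxEA r R A → fixedOn A (apexSet G0) = {c, z}) {B : Subgroup G}
    (hBR : B ≤ R) (hBn : G0 ≤ Subgroup.normalizer (B : Set G)) :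
    G0 ≤ Subgroup.normalizer ((B ⊓ Cfsg.centerThompsonOf r R : Subgroup G) : Set G) := by
  have hRr : IsPGroup r (R.subgroupOf G0) := hR.2.1.of_equiv (subgroupOfEquivOfLe hR.1).symm
  let S : Sylow r G0 := hRr.toSylow hR.2.2
  have hSR : (S : Subgroup G0) = R.subgroupOf G0 := rfl
  have hRfix' : R ≤ pairStab c z := fun g hg => by
    have hc : c ∈ fixedOn R (apexSet G0 : Set Ω) := hRfix.symm ▸ Set.mem_insert _ _
    have hz : z ∈ fixedOn R (apexSet G0 : Set Ω) :=
      hRfix.symm ▸ Set.mem_insert_of_mem _ (Set.mem_singleton z)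
    exact ⟨hc.2 g hg, hz.2 g hg⟩
  have hkey : ∀ (Y : Subgroup G0) [Y.Normal], IsPGroup r Y → (∀ y ∈ Y, y ^ r = 1) →
      (∀ x ∈ Y, ∀ y ∈ Y, ∀ w ∈ Y, Commute ⁅x, y⁆ w) → ∀ A, H23.IsMaxEA r (S : Subgroup G0) A →
      Y ≤ Subgroup.normalizer (A : Set G0) → ∀ a ∈ A,
      (QuotientGroup.mk a : G0 ⧸ Subgroup.centralizer (Y : Set G0)) ∈
        Cfsg.pCore r (G0 ⧸ Subgroup.centralizer (Y : Set G0)) := by
    intro Y _ hYr hYexp hcl A hAS hYA a haA
    set C := Subgroup.centralizer (Y : Set G0) with hC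
    have hCn : C.Normal := Subgroup.normal_centralizer
    by_cases hev : Even (Nat.card C)
    · obtain ⟨⟨s, hsC⟩, hs⟩ := exists_prime_orderOf_dvd_card' 2 (even_iff_two_dvd.1 hev)
        (hp := ⟨Nat.prime_two⟩)
      rw [Subgroup.orderOf_mk] at hs
      have hinv : ∀ t : G0, orderOf (t : G) = 2 → t ∈ C := fun t ht => by
        obtain ⟨g, hg, hgt⟩ := conj_mem hS hG0.2 s.2 ((Subgroup.orderOf_coe s).trans hs) t.2 ht
        rw [show t = (⟨g, hg⟩ : G0) * s * (⟨g, hg⟩ : G0)⁻¹ from Subtype.ext hgt.symm]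
        exact hCn.conj_mem s hsC _
      have hsup : (⊤ : Subgroup G0) ≤ C ⊔ (S : Subgroup G0) := by
        intro g _
        have h : Subgroup.closure {t : G | t ∈ G0 ∧ orderOf t = 2} ⊔ R ≤
            (C ⊔ (S : Subgroup G0)).map G0.subtype := by
          refine sup_le ((closure_le _).2 fun t ht => ?_) fun x hx => ?_
          · exact ⟨⟨t, ht.1⟩, mem_sup_left (hinv _ ht.2), rfl⟩
          · exact ⟨⟨x, hR.1 hx⟩, mem_sup_right hx, rfl⟩
        obtain ⟨g', hg', hgg⟩ := h (hgen g.2)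
        exact G0.subtype_injective hgg ▸ hg'
      have htop : IsPGroup r (⊤ : Subgroup (G0 ⧸ C)) := by
        refine (S.2.map (QuotientGroup.mk' C)).to_le fun q _ => ?_
        obtain ⟨g, rfl⟩ := QuotientGroup.mk'_surjective C q
        obtain ⟨x, hx, y, hy, rfl⟩ := mem_sup_of_normal_left.1 (hsup (mem_top g))
        exact ⟨y, hy, by rw [map_mul, show QuotientGroup.mk' C x = 1 from (QuotientGroup.eq_one_iff x).2 hx,
          one_mul]⟩
      have hle : (⊤ : Subgroup (G0 ⧸ C)) ≤ Cfsg.pCore r (G0 ⧸ C) :=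
        le_sSup ⟨Subgroup.Normal.mk fun _ _ _ => mem_top _, htop⟩
      exact hle (mem_top _)
    exfalso
    let φ : G0 →* MulAut (Abelianization Y) :=
      { toFun := fun g => (MulAut.conjNormal g : MulAut Y).abelianizationCongr
        map_one' := by rw [map_one]; exact abelianizationCongr_refl
        map_mul' := fun g h => by rw [map_mul]; exact (abelianizationCongr_trans _ _).symm }
    have hφ : ∀ g : G0, ∀ y : Y, φ g (Abelianization.of y) = Abelianization.of (MulAut.conjNormal g y) :=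
      fun g y => rfl
    have hV : ∀ v : Abelianization Y, v ^ r = 1 := by
      intro v
      obtain ⟨y, rfl⟩ := QuotientGroup.mk_surjective v
      exact (map_pow Abelianization.of y r).symm.trans
        (by rw [show y ^ r = 1 from Subtype.ext (by simpa using hYexp y y.2), map_one])
    have hker : Odd (Nat.card φ.ker) := by
      rw [← Nat.not_even_iff_odd]
      intro he
      obtain ⟨⟨t, htk⟩, ht⟩ := exists_prime_orderOf_dvd_card' 2 (even_iff_two_dvd.1 he)
        (hp := ⟨Nat.prime_two⟩)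
      rw [Subgroup.orderOf_mk] at ht
      have hcom := involution_centralizes_of_class_two hr2 hYr hcl (t := t)
        (IHFacts.sq_eq_one ht) (fun y hy => by
          have h1 : φ t (Abelianization.of ⟨y, hy⟩) = Abelianization.of ⟨y, hy⟩ := by
            rw [MonoidHom.mem_ker.1 htk]; rfl
          rw [hφ] at h1
          have h2 : (⟨y, hy⟩ : Y)⁻¹ * MulAut.conjNormal t ⟨y, hy⟩ ∈ commutator Y := by
            rw [← Abelianization.ker_of, MonoidHom.mem_ker, map_mul, map_inv, h1, inv_mul_cancel]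
          have h3 := mem_map_of_mem Y.subtype h2
          rw [_root_.commutator_def, map_commutator, ← MonoidHom.range_eq_map, range_subtype] at h3
          exact h3)
      refine hev (even_iff_two_dvd.2 ?_)
      rw [← ht]
      have htC : t ∈ C := mem_centralizer_iff.2 fun y hy => (hcom y hy).symm.eq
      exact Subgroup.orderOf_mk t htC ▸ orderOf_dvd_natCard _
    have hAG : A.map G0.subtype ≤ G0 := map_subtype_le A
    have hMax : H23.IsMaxEA r R (A.map G0.subtype) := isMaxEA_map_subtype hR.1 hAS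
    obtain ⟨x, hx, hxc, hxz⟩ := hst hV φ hker hAG
      (hMax.1.trans hRfix') (hR.2.1.to_le hMax.1) hMax.2.1 (by
        intro b hb v
        obtain ⟨y, rfl⟩ := QuotientGroup.mk_surjective v
        have hbA : (⟨b, hAG hb⟩ : G0) ∈ A := by
          obtain ⟨b', hb', e⟩ := id hb
          rwa [show (⟨b, hAG hb⟩ : G0) = b' from Subtype.ext e.symm]
        generalize (⟨b, hAG hb⟩ : G0) = g at hbA ⊢
        change φ g (φ g (Abelianization.of y) * (Abelianization.of y)⁻¹) =
          φ g (Abelianization.of y) * (Abelianization.of y)⁻¹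
        rw [hφ, ← map_inv, ← map_mul, hφ]
        congr 1
        refine Subtype.ext ?_
        simp only [MulAut.conjNormal_apply, Subgroup.coe_mul, InvMemClass.coe_inv]
        have hw : g * (y : G0) * g⁻¹ * (y : G0)⁻¹ ∈ A := by
          have := mul_mem hbA ((mem_normalizer_iff.1 (hYA y.2) _).1 (inv_mem hbA))
          simpa [mul_assoc] using this
        rw [(hAS.2.1 g hbA _ hw).eq, mul_inv_cancel_right])
    have := hA _ hMax ▸ hx
    rcases this with e | e
    · exact hxc e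
    · exact hxz e
  have hBn' : (B.subgroupOf G0).Normal := normal_subgroupOf_iff_le_normalizer (hBR.trans hR.1) |>.2 hBn
  have hBr : IsPGroup r (B.subgroupOf G0) :=
    (hR.2.1.to_le hBR).of_equiv (subgroupOfEquivOfLe (hBR.trans hR.1)).symm
  have hN := inf_centerThompsonOf_normal_of hr2 S hkey (B.subgroupOf G0) hBr
  have hmap : (B.subgroupOf G0 ⊓ Cfsg.centerThompsonOf r (S : Subgroup G0)).map G0.subtype =
      B ⊓ Cfsg.centerThompsonOf r R := by
    rw [map_inf _ _ _ G0.subtype_injective, map_subgroupOf_eq_of_le (hBR.trans hR.1), hSR,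
      map_centerThompsonOf_subgroupOf hR.1]
  rw [← hmap]
  intro g hg
  rw [mem_normalizer_iff]
  intro x
  constructor
  · rintro ⟨y, hy, rfl⟩
    exact ⟨⟨g, hg⟩ * y * ⟨g, hg⟩⁻¹, hN.conj_mem y hy _, rfl⟩
  · rintro ⟨y, hy, e⟩
    refine ⟨⟨g, hg⟩⁻¹ * y * (⟨g, hg⟩⁻¹)⁻¹, hN.conj_mem y hy _, ?_⟩
    have e' : (y : G) = g * x * g⁻¹ := e
    simp only [coe_subtype, Subgroup.coe_mul, InvMemClass.coe_inv, e']
    group

end PartE

end Cfsg.Agent.H14.Bender
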