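import Cfsg.Agent.H14.Bender.TameBase
import Cfsg.Agent.H14.Bender.Coprime

/-!
PLAN sec. 6, lemma TR: an involution at `x` normalising a `p`-subgroup of `G_{x,x'}` with enough
noncentral part normalises a Sylow `p`-subgroup of `G_{x,x'}`.
-/

set_option autoImplicit false

namespace Cfsg.Agent.H14.Bender

universe u

variable {G : Type u} [Group G] [Finite G] {Ω : Type u} [MulAction G Ω]

open Subgroup TameAux

theorem tr_invariant_sylow (hS : Setting G Ω) {p : ℕ} [Fact p.Prime] {t : G} {x x' : Ω}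
    (ht : InvAt t x) (hne : x' ≠ x) {R : Subgroup G} (hR : R ≤ pairStab x x') (hRp : IsPGroup p R)
    (htR : t ∈ normalizer (R : Set G))
    (hm : p ^ (Nat.card (pairStab (G := G) x x')).factorization p *
        Nat.card ↥(R ⊓ centralizer ({t} : Set G)) ≤
      Nat.card R *
        p ^ (Nat.card ↥(pairStab (G := G) x x' ⊓ centralizer ({t} : Set G))).factorization p) :
    ∃ S : Subgroup G, R ≤ S ∧ S ≤ pairStab x x' ∧ IsPGroup p S ∧
      Nat.card S = p ^ (Nat.card (pairStab (G := G) x x')).factorization p ∧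
      t ∈ normalizer (S : Set G) := by
  set D := pairStab (G := G) x x' with hD
  set D' : Subgroup G := D ⊓ MulAction.stabilizer G (t • x') with hD'
  set C := centralizer ({t} : Set G) with hC
  have hcomm : ∀ g ∈ C, g * t = t * g := fun g hg => mem_centralizer_singleton_iff.1 hg
  have htx : t⁻¹ • x = x := inv_smul_eq_iff.2 ht.2.symm
  have htt : t⁻¹ = t := H50.inv_eq_self ht.1
  have htD' : t ∈ normalizer (D' : Set G) := by
    have key : ∀ g ∈ D', t * g * t⁻¹ ∈ D' := by
      rintro g ⟨⟨hgx, hgx'⟩, hgt⟩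
      have hgx : g • x = x := hgx
      have hgx' : g • x' = x' := hgx'
      have hgt : g • t • x' = t • x' := hgt
      refine ⟨⟨?_, ?_⟩, ?_⟩
      · show (t * g * t⁻¹) • x = x
        rw [mul_smul, mul_smul, htx, hgx, ht.2]
      · show (t * g * t⁻¹) • x' = x'
        rw [mul_smul, mul_smul, htt, hgt, smul_smul_of_inv ht.1]
      · show (t * g * t⁻¹) • t • x' = t • x'
        rw [mul_smul, mul_smul, inv_smul_smul, hgx']
    rw [mem_normalizer_iff]
    intro g
    refine ⟨key g, fun hg => ?_⟩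
    have h := key _ hg
    rwa [show t * (t * g * t⁻¹) * t⁻¹ = g by
      rw [htt]; simp only [mul_assoc]
      rw [H50.inv_mul_self ht.1, mul_one, ← mul_assoc, H50.inv_mul_self ht.1, one_mul]] at h
  have hR' : R ≤ D' := by
    intro r hr
    refine ⟨hR hr, ?_⟩
    have h : (t * r * t⁻¹) • x' = x' := (hR ((mem_normalizer_iff.1 htR r).1 hr)).2
    rw [mul_smul, mul_smul, htt] at h
    show r • t • x' = t • x'
    have h2 := congrArg (t • ·) h
    simpa [smul_smul_of_inv ht.1] using h2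
  have hodd : Odd (Nat.card D') :=
    odd_card_of_fix_two hS (Ne.symm hne) fun g hg => hg.1
  have hCeq : D' ⊓ C = D ⊓ C := by
    refine le_antisymm (inf_le_inf_right _ inf_le_left) ?_
    rintro g ⟨hg, hgC⟩
    refine ⟨⟨hg, ?_⟩, hgC⟩
    show g • t • x' = t • x'
    rw [smul_smul, hcomm g hgC, mul_smul, show g • x' = x' from hg.2]
  obtain ⟨S, hRS, hSD, htS, hSp, hcard, hSC⟩ :=
    exists_invariant_sylow ht.1 hodd htD' p hR' hRp htR
  rw [hCeq] at hSC
  refine ⟨S, hRS, hSD.trans inf_le_left, hSp, ?_, htS⟩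
  -- `|R| |S ∩ C| ≤ |S| |R ∩ C|`
  have h1 : Nat.card R * Nat.card ↥(S ⊓ C) ≤ Nat.card S * Nat.card ↥(R ⊓ C) := by
    have hdiv : (C ⊓ R).relIndex R ≤ (C ⊓ S).relIndex S := by
      rw [inf_relIndex_right, inf_relIndex_right]
      exact relIndex_le_of_le_right hRS index_ne_zero_of_finite
    have e1 := card_mul_index ((C ⊓ R).subgroupOf R)
    have e2 := card_mul_index ((C ⊓ S).subgroupOf S)
    rw [Nat.card_congr (subgroupOfEquivOfLe inf_le_right).toEquiv] at e1 e2
    rw [← e1, ← e2, inf_comm S C, inf_comm R C]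
    calc Nat.card ↥(C ⊓ R) * (C ⊓ R).relIndex R * Nat.card ↥(C ⊓ S)
        = (C ⊓ R).relIndex R * (Nat.card ↥(C ⊓ R) * Nat.card ↥(C ⊓ S)) := by ring
      _ ≤ (C ⊓ S).relIndex S * (Nat.card ↥(C ⊓ R) * Nat.card ↥(C ⊓ S)) :=
          Nat.mul_le_mul_right _ hdiv
      _ = Nat.card ↥(C ⊓ S) * (C ⊓ S).relIndex S * Nat.card ↥(C ⊓ R) := by ring
  rw [hSC] at h1
  have h2 : p ^ (Nat.card D).factorization p ≤ Nat.card S := by
    have hpos : 0 < Nat.card ↥(R ⊓ C) := Nat.card_pos
    exact Nat.le_of_mul_le_mul_right (hm.trans h1) hpos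
  refine le_antisymm ?_ h2
  rw [hcard]
  exact Nat.pow_le_pow_right (Fact.out : p.Prime).pos
    (Nat.factorization_le_iff_dvd (Nat.card_pos.ne') (Nat.card_pos.ne') |>.2
      (card_dvd_of_le inf_le_left) p)

end Cfsg.Agent.H14.Bender
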