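import Mathlib
import Cfsg.Prelude.Def_Amalgam
import Cfsg.Prelude.Def_Solvable
import Cfsg.Prelude.Def_Transfer
import Cfsg.Agent.S0205
import Cfsg.Agent.H19.Fitting
import Cfsg.Agent.H72.PCore
import Cfsg.Agent.H53.ZJOddSolvable
import Cfsg.Agent.H23.GlaubermanThompson
import Cfsg.Agent.H50.BenderLemma

/-!
Lemma W of the S1220 plan: for `F(X) ≤ S ≤ X` of odd order, a nontrivial subgroup of `S`
invariant under the normaliser of `S` which is either normal in `X` or normalised by an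
`r`-element outside `S`.
-/

set_option autoImplicit false
set_option linter.style.haveILetI false
set_option linter.unusedVariables false

namespace Cfsg.Agent.H14.Bender.LemmaWAux

open Subgroup

variable {G : Type*} [Group G] [Finite G]

/-- A coprime element centralising a subgroup which contains its centraliser in a `p`-group. -/
theorem commute_of_inf_centralizer_le {s : ℕ} [Fact s.Prime] {P A : Subgroup G}
    (hP : IsPGroup s P) (hAP : A ≤ P) {x : G} (hx : (orderOf x).Coprime s)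
    (hxP : ∀ y ∈ P, x * y * x⁻¹ ∈ P) (hxA : ∀ a ∈ A, Commute x a)
    (hC : P ⊓ centralizer (A : Set G) ≤ A) : ∀ y ∈ P, Commute x y := by
  set P0 : Subgroup G := P ⊓ centralizer ({x} : Set G) with hP0
  have hmem : ∀ y, y ∈ P0 ↔ y ∈ P ∧ Commute x y := fun y => by
    rw [hP0, Subgroup.mem_inf, mem_centralizer_singleton_iff]
    exact and_congr_right fun _ => ⟨fun h => h.symm, fun h => h.symm⟩
  suffices h : P0.subgroupOf P = ⊤ by
    intro y hy
    exact ((hmem y).1 ((Subgroup.subgroupOf_eq_top.1 h) hy)).2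
  by_contra hne
  haveI := hP.isNilpotent
  have hlt := Group.normalizerCondition_of_isNilpotent (G := P) (P0.subgroupOf P)
    (lt_top_iff_ne_top.2 hne)
  obtain ⟨⟨y, hyP⟩, hyN, hy0⟩ := SetLike.exists_of_lt hlt
  refine hy0 ((hmem y).2 ⟨hyP, ?_⟩)
  set c : G := y⁻¹ * (x * y * x⁻¹) with hc
  have hcP : c ∈ P := P.mul_mem (P.inv_mem hyP) (hxP y hyP)
  have hcA : c ∈ A := by
    refine hC ⟨hcP, mem_centralizer_iff.2 fun a ha => ?_⟩
    have h1 : y * a * y⁻¹ ∈ P0 := by
      have ha0 : (⟨a, hAP ha⟩ : P) ∈ P0.subgroupOf P :=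
        (hmem a).2 ⟨hAP ha, hxA a ha⟩
      exact ((Subgroup.mem_normalizer_iff.1 hyN _).1 ha0)
    have h2 : Commute (y⁻¹ * x * y) a := by
      have h3 := ((hmem _).1 h1).2.eq
      show y⁻¹ * x * y * a = a * (y⁻¹ * x * y)
      calc y⁻¹ * x * y * a = y⁻¹ * (x * (y * a * y⁻¹)) * y := by group
        _ = y⁻¹ * ((y * a * y⁻¹) * x) * y := by rw [h3]
        _ = a * (y⁻¹ * x * y) := by group
    have h4 : Commute c a := by
      rw [hc, show y⁻¹ * (x * y * x⁻¹) = (y⁻¹ * x * y) * x⁻¹ by group]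
      exact h2.mul_left (hxA a ha).inv_left
    exact h4.eq.symm
  have hcx : Commute x c := hxA c hcA
  have hpow : ∀ n : ℕ, x ^ n * y * (x ^ n)⁻¹ = y * c ^ n := by
    intro n
    induction n with
    | zero => simp
    | succ n ih =>
      calc x ^ (n + 1) * y * (x ^ (n + 1))⁻¹ = x * (x ^ n * y * (x ^ n)⁻¹) * x⁻¹ := by
            rw [pow_succ']; group
        _ = (x * y * x⁻¹) * (x * c ^ n * x⁻¹) := by rw [ih]; group
        _ = y * c * c ^ n := by
            rw [(hcx.pow_right n).eq, hc]; group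
        _ = y * c ^ (n + 1) := by rw [pow_succ']; group
  have hcn : c ^ orderOf x = 1 := by
    have h := hpow (orderOf x)
    rw [pow_orderOf_eq_one, one_mul, inv_one, mul_one] at h
    exact mul_eq_left.1 h.symm
  have hc1 : c = 1 := by
    obtain ⟨k, hk⟩ := hP ⟨c, hcP⟩
    have hk' : c ^ s ^ k = 1 := congrArg Subtype.val hk
    have := pow_gcd_eq_one.2 ⟨hcn, hk'⟩
    rwa [Nat.Coprime.gcd_eq_one (hx.pow_right k), pow_one] at this
  have h5 : x * y * x⁻¹ = y := by
    have := congrArg (y * ·) hc1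
    simpa [hc, ← mul_assoc] using this
  exact mul_inv_eq_iff_eq_mul.1 h5

omit [Finite G] in
theorem conj_mem_iff {H : Subgroup G} {g : G} :
    g ∈ normalizer (H : Set G) ↔ ∀ h, h ∈ H ↔ g * h * g⁻¹ ∈ H :=
  mem_normalizer_iff

theorem coprime_card_of_isPGroup {s t : ℕ} [Fact s.Prime] [Fact t.Prime] (hst : s ≠ t)
    {H K : Subgroup G} (hH : IsPGroup s H) (hK : IsPGroup t K) :
    (Nat.card H).Coprime (Nat.card K) := by
  obtain ⟨a, ha⟩ := IsPGroup.iff_card.1 hH
  obtain ⟨b, hb⟩ := IsPGroup.iff_card.1 hK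
  rw [ha, hb]
  exact ((Nat.coprime_primes Fact.out Fact.out).2 hst).pow _ _

/-- Cores of one group for different primes commute. -/
theorem commute_pCoreOf {s t : ℕ} (hs : s.Prime) (ht : t.Prime) (hst : s ≠ t) {S : Subgroup G}
    {a b : G} (ha : a ∈ Cfsg.pCoreOf s S) (hb : b ∈ Cfsg.pCoreOf t S) : Commute a b := by
  haveI := Fact.mk hs
  haveI := Fact.mk ht
  have hA := H72.le_normalizer_pCoreOf s S (H72.pCoreOf_le t S hb)
  have hB := H72.le_normalizer_pCoreOf t S (H72.pCoreOf_le s S ha)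
  have h1 : a * b * a⁻¹ * b⁻¹ ∈ Cfsg.pCoreOf s S := by
    rw [show a * b * a⁻¹ * b⁻¹ = a * (b * a⁻¹ * b⁻¹) by group]
    exact Subgroup.mul_mem _ ha ((mem_normalizer_iff.1 hA _).1 (Subgroup.inv_mem _ ha))
  have h2 : a * b * a⁻¹ * b⁻¹ ∈ Cfsg.pCoreOf t S :=
    Subgroup.mul_mem _ ((mem_normalizer_iff.1 hB _).1 hb) (Subgroup.inv_mem _ hb)
  have h3 := (Subgroup.disjoint_of_coprime_natCard (coprime_card_of_isPGroup hst
    (H72.pCoreOf_isPGroup s S) (H72.pCoreOf_isPGroup t S))).le_bot ⟨h1, h2⟩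
  rw [Subgroup.mem_bot] at h3
  exact mul_inv_eq_iff_eq_mul.1 (mul_inv_eq_one.1 h3)

/-- An automorphism-like conjugation fixes the `r'`-core of a subgroup. -/
theorem conj_mem_core (r : ℕ) {K : Subgroup G} {g : G} (hg : g ∈ normalizer (K : Set G)) {o : G}
    (ho : o ∈ (Cfsg.pPrimeCore r K).map K.subtype) :
    g * o * g⁻¹ ∈ (Cfsg.pPrimeCore r K).map K.subtype := by
  let e : K →* K :=
    { toFun := fun k => ⟨g * k * g⁻¹, (mem_normalizer_iff.1 hg _).1 k.2⟩
      map_one' := Subtype.ext (by simp)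
      map_mul' := fun a b => Subtype.ext (by simp [mul_assoc]) }
  have hsur : Function.Surjective e := fun k =>
    ⟨⟨g⁻¹ * k * g, (mem_normalizer_iff.1 hg _).2 (by
      rw [show g * (g⁻¹ * (k : G) * g) * g⁻¹ = k by group]; exact k.2)⟩,
      Subtype.ext (show g * (g⁻¹ * (k : G) * g) * g⁻¹ = k by group)⟩
  obtain ⟨k, hk, rfl⟩ := ho
  refine ⟨e k, H19.le_pPrimeCore ((H19.pPrimeCore_normal r K).map e hsur) ?_
    (Subgroup.mem_map_of_mem e hk), rfl⟩
  exact Nat.Coprime.coprime_dvd_left (Subgroup.card_map_dvd _ _) (H19.pPrimeCore_coprime r)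

/-- A normal subgroup of `X` centralising `O_s(X)` for `s ≠ r` has central `r'`-core. -/
theorem central_core {r : ℕ} (hr : r.Prime) {X K : Subgroup G} (hodd : Odd (Nat.card K))
    (hKX : K ≤ X) (hXK : X ≤ normalizer (K : Set G))
    (hcent : ∀ s : ℕ, s.Prime → s ≠ r → ∀ a ∈ Cfsg.pCoreOf s X, ∀ k ∈ K, Commute a k) :
    ∀ o ∈ (Cfsg.pPrimeCore r K).map K.subtype, ∀ k ∈ K, Commute o k := by
  haveI := Fact.mk hr
  set O := (Cfsg.pPrimeCore r K).map K.subtype with hOdef
  have hOK : O ≤ K := map_subtype_le _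
  haveI : Group.IsSolvable O :=
    S0205.result (hodd.of_dvd_nat (card_dvd_of_le hOK))
  have hOcop : (Nat.card O).Coprime r :=
    Nat.Coprime.coprime_dvd_left (card_map_dvd _ _) (H19.pPrimeCore_coprime r)
  have hXO : ∀ g ∈ X, ∀ o ∈ O, g * o * g⁻¹ ∈ O := fun g hg o ho =>
    conj_mem_core r (hXK hg) ho
  -- the Fitting subgroup of the core is centralised by `K`
  have hF : ∀ f ∈ Cfsg.fittingSubgroup O, ∀ k ∈ K, Commute (f : G) k := by
    intro f hf k hk
    have hle : Cfsg.fittingSubgroup O ≤ (centralizer ({k} : Set G)).comap O.subtype := by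
      rw [H19.fitting_eq_iSup_pCore]
      refine iSup_le fun q => ?_
      intro a ha
      haveI : Fact (q : ℕ).Prime := ⟨q.2⟩
      have haO : (a : G) ∈ Cfsg.pCoreOf (q : ℕ) O := H72.mem_pCoreOf.2 ⟨a.2, ha⟩
      rw [mem_comap, mem_centralizer_singleton_iff]
      by_cases hqr : (q : ℕ) = r
      · have h1 : (a : G) = 1 := by
          have hd := Subgroup.disjoint_of_coprime_natCard (H := O)
            (K := Cfsg.pCoreOf (q : ℕ) O) (by
              obtain ⟨b, hb⟩ := IsPGroup.iff_card.1 (H72.pCoreOf_isPGroup (q : ℕ) O)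
              rw [hb, hqr]
              exact hOcop.pow_right b)
          simpa using hd.le_bot ⟨a.2, haO⟩
        simp [h1]
      · refine hcent q q.2 hqr a (H72.le_pCoreOf ((H72.pCoreOf_le _ _).trans (hOK.trans hKX)) ?_
          (H72.pCoreOf_isPGroup _ _) haO) k hk
        intro g hg
        have hmap : O.map (MulAut.conj g).toMonoidHom = O := by
          refine Subgroup.eq_of_le_of_card_ge ?_ (le_of_eq (Subgroup.card_map_of_injective
            (MulAut.conj g).injective).symm)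
          rintro _ ⟨o, ho, rfl⟩
          simpa using hXO g hg o ho
        have h := H72.pCoreOf_map_equiv (MulAut.conj g) (q : ℕ) O
        rw [hmap] at h
        rw [mem_normalizer_iff]
        intro y
        constructor
        · intro hy
          rw [h]
          exact ⟨y, hy, by simp⟩
        · intro hy
          rw [h] at hy
          obtain ⟨y', hy', e⟩ := hy
          have : y' = y := (MulAut.conj g).injective (by simpa using e)
          exact this ▸ hy'
    have := hle hf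
    rw [mem_comap, mem_centralizer_singleton_iff] at this
    exact this
  intro o ho k hk
  have : (⟨o, ho⟩ : O) ∈ Cfsg.fittingSubgroup O :=
    H19.centralizer_fitting_le (mem_centralizer_iff.2 fun f hf =>
      Subtype.ext (hF f hf o (hOK ho)).eq)
  exact hF _ this k hk

/-- With a central `r'`-core, `Z(J(R))` is invariant under the normaliser of the group. -/
theorem zj_invariant {r : ℕ} [Fact r.Prime] {K : Subgroup G} (hodd : Odd (Nat.card K))
    (hcent : ∀ o ∈ (Cfsg.pPrimeCore r K).map K.subtype, ∀ k ∈ K, Commute o k) (R : Sylow r K)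
    {g : G} (hg : g ∈ normalizer (K : Set G)) :
    g ∈ normalizer (Cfsg.centerThompsonOf r ((R : Subgroup K).map K.subtype) : Set G) := by
  haveI : Group.IsSolvable K := S0205.result hodd
  set O := Cfsg.pPrimeCore r K
  set Z := Cfsg.centerThompsonOf r (R : Subgroup K) with hZ
  haveI hOn : O.Normal := H19.pPrimeCore_normal r K
  have hcK : ∀ o ∈ O, ∀ k : K, Commute o k := fun o ho k =>
    Subtype.ext (hcent _ (mem_map_of_mem _ ho) _ k.2).eq
  have hM := H53.centerThompsonOf_sup_pPrimeCore_normal hodd R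
  have hZp : IsPGroup r Z := R.2.to_le (H23.centerThompsonOf_le _)
  -- `Z` is normal in `K`
  have hZn : ∀ k : K, ∀ z ∈ Z, k * z * k⁻¹ ∈ Z := by
    intro k z hz
    have hm : k * z * k⁻¹ ∈ Z ⊔ O := hM.conj_mem z (mem_sup_left hz) k
    rw [← SetLike.mem_coe, Subgroup.mul_normal] at hm
    obtain ⟨z', hz', o, ho, he⟩ := hm
    obtain ⟨a, ha⟩ := hZp ⟨z, hz⟩
    obtain ⟨b, hb⟩ := hZp ⟨z', hz'⟩
    have ha' : z ^ r ^ a = 1 := congrArg Subtype.val ha
    have hb' : z' ^ r ^ b = 1 := congrArg Subtype.val hb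
    have h1 : (k * z * k⁻¹) ^ r ^ (a + b) = 1 := by
      rw [conj_pow, pow_add, pow_mul, ha', one_pow, mul_one, mul_inv_cancel]
    rw [← he, (hcK o ho z').symm.mul_pow, pow_add, mul_comm (r ^ a), pow_mul z', hb',
      one_pow, one_mul] at h1
    have ho1 : o = 1 := by
      have h2 : o ^ Nat.card O = 1 := congrArg Subtype.val (pow_card_eq_one' (x := (⟨o, ho⟩ : O)))
      have := pow_gcd_eq_one.2 ⟨h2, h1⟩
      rwa [Nat.Coprime.gcd_eq_one (Nat.Coprime.mul_right
        ((H19.pPrimeCore_coprime (G := K) r).pow_right b)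
        ((H19.pPrimeCore_coprime (G := K) r).pow_right a)), pow_one] at this
    rw [← he, ho1]
    simpa using hz'
  -- conjugation by `g`
  let e : K →* K :=
    { toFun := fun k => ⟨g * k * g⁻¹, (mem_normalizer_iff.1 hg _).1 k.2⟩
      map_one' := Subtype.ext (by simp)
      map_mul' := fun a b => Subtype.ext (by simp [mul_assoc]) }
  have he : Function.Injective e := fun a b h => Subtype.ext (by
    simpa [e] using congrArg Subtype.val h)
  have hsur : Function.Surjective e := Finite.surjective_of_injective he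
  obtain ⟨k, hk⟩ := MulAction.exists_smul_eq K R (R.mapSurjective hsur)
  have hk' : (R : Subgroup K).map e = (R : Subgroup K).map (MulAut.conj k).toMonoidHom := by
    have h := congrArg (fun P : Sylow r K => (P : Subgroup K)) hk
    simp only [Sylow.coe_mapSurjective] at h
    rw [← h]
    rfl
  have hZe : Z.map e = Z := by
    rw [hZ, H23.map_centerThompsonOf e _ he.injOn, hk',
      ← H23.map_centerThompsonOf _ _ (MulAut.conj k).injective.injOn]
    refine Subgroup.eq_of_le_of_card_ge ?_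
      (le_of_eq (Subgroup.card_map_of_injective (MulAut.conj k).injective).symm)
    rintro _ ⟨z, hz, rfl⟩
    exact hZn k z hz
  rw [← H23.map_centerThompsonOf K.subtype _ K.subtype_injective.injOn, mem_normalizer_iff]
  intro y
  constructor
  · rintro ⟨z, hz, rfl⟩
    refine ⟨e z, ?_, rfl⟩
    show e z ∈ Z
    rw [← hZe]
    exact mem_map_of_mem e hz
  · rintro ⟨z, hz, hzy⟩
    rw [← hZ, ← hZe] at hz
    obtain ⟨w, hw, rfl⟩ := hz
    refine ⟨w, hw, ?_⟩
    have : g * (w : G) * g⁻¹ = g * y * g⁻¹ := hzy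
    simpa using this

end Cfsg.Agent.H14.Bender.LemmaWAux

namespace Cfsg.Agent.H14.Bender

open Subgroup LemmaWAux

variable {G : Type*} [Group G] [Finite G]

/-- An element of `O_s(S)` centralising `O_s(X)` lies in `O_s(X)`. -/
theorem centralizer_pCoreOf_le {X S : Subgroup G} (hodd : Odd (Nat.card X)) (hSX : S ≤ X)
    (hF : (Cfsg.fittingSubgroup ↥X).map X.subtype ≤ S) {s : ℕ} (hs : s.Prime) {q : G}
    (hq : q ∈ Cfsg.pCoreOf s S) (hc : ∀ a ∈ Cfsg.pCoreOf s X, Commute q a) :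
    q ∈ Cfsg.pCoreOf s X := by
  haveI := Fact.mk hs
  haveI : Group.IsSolvable X := S0205.result hodd
  have hqS := H72.pCoreOf_le s S hq
  set q' : X := ⟨q, hSX hqS⟩ with hq'
  have hfit : ∀ f ∈ Cfsg.fittingSubgroup X, Commute q' f := by
    intro f hf
    have hle : Cfsg.fittingSubgroup X ≤ centralizer ({q'} : Set X) := by
      rw [H19.fitting_eq_iSup_pCore]
      refine iSup_le fun t => ?_
      haveI : Fact (t : ℕ).Prime := ⟨t.2⟩
      intro a ha
      have haX : (a : G) ∈ Cfsg.pCoreOf (t : ℕ) X := H72.mem_pCoreOf.2 ⟨a.2, ha⟩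
      rw [mem_centralizer_singleton_iff]
      refine Subtype.ext (Commute.eq ?_).symm
      show Commute q (a : G)
      by_cases hts : (t : ℕ) = s
      · exact hc _ (hts ▸ haX)
      · refine commute_pCoreOf hs t.2 (fun h => hts h.symm) hq ?_
        refine H72.le_pCoreOf ?_ (hSX.trans (H72.le_normalizer_pCoreOf _ X))
          (H72.pCoreOf_isPGroup _ _) haX
        refine le_trans ?_ hF
        exact Subgroup.map_mono (H19.pCore_le_fitting _)
    have := hle hf
    rw [mem_centralizer_singleton_iff] at this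
    exact this.symm
  have hqF : q' ∈ Cfsg.fittingSubgroup X :=
    H19.centralizer_fitting_le (mem_centralizer_iff.2 fun f hf => (hfit f hf).eq.symm)
  obtain ⟨k, hk⟩ := H72.pCoreOf_isPGroup s S ⟨q, hq⟩
  have hk' : q' ^ s ^ k = 1 := Subtype.ext (by simpa [hq'] using congrArg Subtype.val hk)
  obtain ⟨m, -, hm⟩ := (Nat.dvd_prime_pow hs).1 (orderOf_dvd_of_pow_eq_one hk')
  exact H72.mem_pCoreOf.2 ⟨hSX hqS, H50.mem_pCore_of_mem_fitting hqF hm⟩

/-- Lemma W. -/
theorem exists_lemmaW {X S : Subgroup G} (hodd : Odd (Nat.card X)) (hSX : S ≤ X)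
    (hF : (Cfsg.fittingSubgroup ↥X).map X.subtype ≤ S) {r : ℕ} (hr : r.Prime)
    (hrF : r ∣ Nat.card (Cfsg.fittingSubgroup ↥X)) :
    ∃ Q : Subgroup G, Q ≤ S ∧ Q ≠ ⊥ ∧
      (∀ g ∈ Subgroup.normalizer (S : Set G), g ∈ Subgroup.normalizer (Q : Set G)) ∧
      (X ≤ Subgroup.normalizer (Q : Set G) ∨
        ∃ x ∈ X, x ∉ S ∧ x ∈ Subgroup.normalizer (Q : Set G) ∧ (∃ k : ℕ, x ^ r ^ k = 1) ∧
          ∀ s : ℕ, s.Prime → s ≠ r → ∀ a ∈ Cfsg.pCoreOf s X, Commute x a) := by
  haveI := Fact.mk hr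
  have hAQ : ∀ s, s.Prime → Cfsg.pCoreOf s X ≤ Cfsg.pCoreOf s S := by
    intro s hs
    haveI := Fact.mk hs
    refine H72.le_pCoreOf (le_trans ?_ hF) (hSX.trans (H72.le_normalizer_pCoreOf s X))
      (H72.pCoreOf_isPGroup s X)
    exact Subgroup.map_mono (H19.pCore_le_fitting s)
  set TS : Set G := {a | ∃ s : ℕ, s.Prime ∧ s ≠ r ∧ a ∈ Cfsg.pCoreOf s S} with hTS
  set TX : Set G := {a | ∃ s : ℕ, s.Prime ∧ s ≠ r ∧ a ∈ Cfsg.pCoreOf s X} with hTX
  set K : Subgroup G := S ⊓ centralizer TS with hKdef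
  set N : Subgroup G := X ⊓ centralizer TX with hNdef
  have hKc : ∀ s : ℕ, s.Prime → s ≠ r → ∀ a ∈ Cfsg.pCoreOf s S, ∀ k ∈ K, Commute a k :=
    fun s hs hsr a ha k hk => mem_centralizer_iff.1 hk.2 a ⟨s, hs, hsr, ha⟩
  have hNc : ∀ s : ℕ, s.Prime → s ≠ r → ∀ a ∈ Cfsg.pCoreOf s X, ∀ k ∈ N, Commute a k :=
    fun s hs hsr a ha k hk => mem_centralizer_iff.1 hk.2 a ⟨s, hs, hsr, ha⟩
  have hKN : K ≤ N := fun k hk => ⟨hSX hk.1, mem_centralizer_iff.2 fun a ⟨s, hs, hsr, ha⟩ =>
    (hKc s hs hsr a (hAQ s hs ha) k hk).eq⟩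
  -- normalisers of the centralised sets
  have hnorm : ∀ (Y : Subgroup G) (g : G), g ∈ normalizer (Y : Set G) →
      g ∈ normalizer ((Y ⊓ centralizer {a | ∃ s : ℕ, s.Prime ∧ s ≠ r ∧ a ∈ Cfsg.pCoreOf s Y} :
        Subgroup G) : Set G) := by
    intro Y g hg
    have key : ∀ g' ∈ normalizer (Y : Set G), ∀ s : ℕ, ∀ a ∈ Cfsg.pCoreOf s Y,
        g' * a * g'⁻¹ ∈ Cfsg.pCoreOf s Y := by
      intro g' hg' s a ha
      have hmap : Y.map (MulAut.conj g').toMonoidHom = Y := by
        refine Subgroup.eq_of_le_of_card_ge ?_ (le_of_eq (Subgroup.card_map_of_injective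
          (MulAut.conj g').injective).symm)
        rintro _ ⟨o, ho, rfl⟩
        simpa using (mem_normalizer_iff.1 hg' o).1 ho
      have h := H72.pCoreOf_map_equiv (MulAut.conj g') s Y
      rw [hmap] at h
      rw [h]
      exact ⟨a, ha, by simp⟩
    have one : ∀ g' ∈ normalizer (Y : Set G), ∀ y ∈ Y ⊓ centralizer
        {a | ∃ s : ℕ, s.Prime ∧ s ≠ r ∧ a ∈ Cfsg.pCoreOf s Y}, g' * y * g'⁻¹ ∈ Y ⊓ centralizer
        {a | ∃ s : ℕ, s.Prime ∧ s ≠ r ∧ a ∈ Cfsg.pCoreOf s Y} := by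
      rintro g' hg' y ⟨hy, hyc⟩
      refine ⟨(mem_normalizer_iff.1 hg' y).1 hy, mem_centralizer_iff.2 ?_⟩
      rintro a ⟨s, hs, hsr, ha⟩
      have ha' := key g'⁻¹ (inv_mem hg') s a ha
      rw [inv_inv] at ha'
      have h := mem_centralizer_iff.1 hyc _ ⟨s, hs, hsr, ha'⟩
      calc a * (g' * y * g'⁻¹) = g' * ((g'⁻¹ * a * g') * y) * g'⁻¹ := by group
        _ = g' * (y * (g'⁻¹ * a * g')) * g'⁻¹ := by rw [h]
        _ = g' * y * g'⁻¹ * a := by group
    rw [mem_normalizer_iff]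
    intro y
    refine ⟨one g hg y, fun hy => ?_⟩
    have := one g⁻¹ (inv_mem hg) _ hy
    simpa [mul_assoc] using this
  have hKodd : Odd (Nat.card K) := hodd.of_dvd_nat (card_dvd_of_le (inf_le_left.trans hSX))
  have hNodd : Odd (Nat.card N) := hodd.of_dvd_nat (card_dvd_of_le inf_le_left)
  have hKcore := central_core hr hKodd inf_le_left
    (fun g hg => hnorm S g (Subgroup.le_normalizer hg)) hKc
  have hNcore := central_core hr hNodd inf_le_left
    (fun g hg => hnorm X g (Subgroup.le_normalizer hg)) hNc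
  obtain ⟨R⟩ : Nonempty (Sylow r K) := inferInstance
  set R' : Subgroup G := (R : Subgroup K).map K.subtype with hR'
  have hR'K : R' ≤ K := map_subtype_le _
  have hR'r : IsPGroup r R' := R.2.map _
  -- `R` is nontrivial
  have hR0 : R' ≠ ⊥ := by
    obtain ⟨f, hf⟩ := exists_prime_orderOf_dvd_card' r hrF
    have hfo : orderOf (f : X) = r ^ 1 := by rw [orderOf_coe, hf, pow_one]
    have hfA : ((f : X) : G) ∈ Cfsg.pCoreOf r X :=
      H72.mem_pCoreOf.2 ⟨(f : X).2, H50.mem_pCore_of_mem_fitting f.2 hfo⟩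
    have hfS := hAQ r hr hfA
    have hfK : ((f : X) : G) ∈ K := ⟨H72.pCoreOf_le r S hfS, mem_centralizer_iff.2
      fun a ⟨s, hs, hsr, ha⟩ => (commute_pCoreOf hs hr hsr ha hfS).eq⟩
    have hdvd : r ∣ Nat.card K := by
      refine (dvd_of_eq ?_).trans (orderOf_dvd_natCard (⟨_, hfK⟩ : K))
      rw [orderOf_mk, orderOf_coe, orderOf_coe, hf]
    intro h
    rw [hR', map_eq_bot_iff_of_injective _ K.subtype_injective] at h
    exact R.ne_bot_of_dvd_card hdvd h
  refine ⟨Cfsg.centerThompsonOf r R', (H23.centerThompsonOf_le _).trans (hR'K.trans inf_le_left),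
    H23.centerThompsonOf_ne_bot hR'r hR0,
    fun g hg => zj_invariant hKodd hKcore R (hnorm S g hg), ?_⟩
  have hR'N : R' ≤ N := hR'K.trans hKN
  obtain ⟨P, hP⟩ := (hR'r.of_equiv (subgroupOfEquivOfLe hR'N).symm).exists_le_sylow
  set P' : Subgroup G := (P : Subgroup N).map N.subtype with hP'
  have hP'r : IsPGroup r P' := P.2.map _
  have hR'P : R' ≤ P' := by
    intro y hy
    exact ⟨⟨y, hR'N hy⟩, hP hy, rfl⟩
  by_cases hPR : P' ≤ R'
  · left
    intro g hg
    have h := zj_invariant hNodd hNcore P (hnorm X g (Subgroup.le_normalizer hg))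
    rwa [← hP', le_antisymm hPR hR'P] at h
  right
  haveI := hP'r.isNilpotent
  have hne : R'.subgroupOf P' ≠ ⊤ := fun h => hPR (Subgroup.subgroupOf_eq_top.1 h)
  obtain ⟨⟨x, hxP⟩, hxN, hx0⟩ := SetLike.exists_of_lt
    (Group.normalizerCondition_of_isNilpotent (G := P') (R'.subgroupOf P')
      (lt_top_iff_ne_top.2 hne))
  have hxmem : x ∈ N := map_subtype_le _ hxP
  have hxR : x ∈ normalizer (R' : Set G) := by
    rw [mem_normalizer_iff]
    intro y
    constructor
    · intro hy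
      exact (mem_normalizer_iff.1 hxN ⟨y, hR'P hy⟩).1 hy
    · intro hy
      have hyP : y ∈ P' := by
        have h1 := hR'P hy
        have h2 := P'.mul_mem (P'.mul_mem (P'.inv_mem hxP) h1) hxP
        rwa [show x⁻¹ * (x * y * x⁻¹) * x = y by group] at h2
      exact (mem_normalizer_iff.1 hxN ⟨y, hyP⟩).2 hy
  obtain ⟨k, hk⟩ := hP'r ⟨x, hxP⟩
  have hxk : x ^ r ^ k = 1 := congrArg Subtype.val hk
  have hxc : ∀ s : ℕ, s.Prime → s ≠ r → ∀ a ∈ Cfsg.pCoreOf s X, Commute x a :=
    fun s hs hsr a ha => (hNc s hs hsr a ha x hxmem).symm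
  refine ⟨x, hxmem.1, fun hxS => hx0 ?_,
    H23.normalizer_le_normalizer_centerThompsonOf R' hxR, ⟨k, hxk⟩, hxc⟩
  -- an `r`-element of `N ⊓ S` lies in `K`
  have hxK : x ∈ K := by
    refine ⟨hxS, mem_centralizer_iff.2 ?_⟩
    rintro a ⟨s, hs, hsr, ha⟩
    haveI := Fact.mk hs
    refine (commute_of_inf_centralizer_le (H72.pCoreOf_isPGroup s S) (hAQ s hs) ?_
      (fun y hy => ((mem_normalizer_iff.1 (H72.le_normalizer_pCoreOf s S hxS)) y).1 hy)
      (hxc s hs hsr) ?_ a ha).eq.symm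
    · exact Nat.Coprime.coprime_dvd_left (orderOf_dvd_of_pow_eq_one hxk)
        (((Nat.coprime_primes hr hs).2 (Ne.symm hsr)).pow_left k)
    · rintro q ⟨hq, hqc⟩
      exact centralizer_pCoreOf_le hodd hSX hF hs hq fun b hb =>
        (mem_centralizer_iff.1 hqc b hb).symm
  have hle : (R : Subgroup K) ≤ (P'.subgroupOf K) := fun y hy => hR'P ⟨y, hy, rfl⟩
  have hpg : IsPGroup r (P'.subgroupOf K) := by
    refine (hP'r.to_le (inf_le_left : P' ⊓ K ≤ P')).of_injective
      ((MonoidHom.comp K.subtype (P'.subgroupOf K).subtype).codRestrict (P' ⊓ K)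
        fun y => ⟨y.2, (y : K).2⟩) fun a b h => Subtype.ext (Subtype.ext (congrArg Subtype.val h :))
  have heq := R.3 hpg hle
  have : (⟨x, hxK⟩ : K) ∈ (R : Subgroup K) := heq ▸ (show x ∈ P' from hxP)
  exact ⟨_, this, rfl⟩

end Cfsg.Agent.H14.Bender
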