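import Cfsg.Agent.H14.Bender.PartEAux
import Cfsg.Agent.H14.Bender.Coprime

/-!
The central case of PLAN sec. 5, with the inputs of the other parts as hypotheses.
-/

set_option autoImplicit false
set_option linter.style.haveILetI false
set_option linter.unusedSectionVars false

namespace Cfsg.Agent.H14.Bender

universe u

open Subgroup

variable {G : Type u} [Group G] {Ω : Type u} [MulAction G Ω] [Finite G] [Finite Ω]

namespace PartE

/-- The subgroup generated by the elements of `Z` of order dividing `r`. -/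
def omegaGen (r : ℕ) (Z : Subgroup G) : Subgroup G := closure {x : G | x ∈ Z ∧ x ^ r = 1}

theorem omegaGen_le (r : ℕ) (Z : Subgroup G) : omegaGen r Z ≤ Z := (closure_le Z).2 fun _ h => h.1

theorem omegaGen_commute {r : ℕ} {Z : Subgroup G} {t : G} (h : ∀ x ∈ Z, x ^ r = 1 → Commute t x) :
    ∀ x ∈ omegaGen r Z, Commute t x := fun x hx =>
  (mem_centralizer_singleton_iff.1 ((closure_le (centralizer ({t} : Set G))).2
    (fun y hy => mem_centralizer_singleton_iff.2 (h y hy.1 hy.2).symm) hx)).symm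

theorem mem_normalizer_of_commute {Q : Subgroup G} {t : G} (h : ∀ x ∈ Q, Commute t x) :
    t ∈ normalizer (Q : Set G) := by
  refine mem_normalizer_iff.2 fun x => ⟨fun hx => ?_, fun hx => ?_⟩
  · rwa [(h x hx).eq, mul_inv_cancel_right]
  · have h1 := h _ hx
    have h2 : t * x * t⁻¹ = x := by
      have e : t⁻¹ * (t * (t * x * t⁻¹)) = t⁻¹ * ((t * x * t⁻¹) * t) := by rw [h1.eq]
      rw [inv_mul_cancel_left, inv_mul_cancel_right, inv_mul_cancel_left] at e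
      exact e
    rwa [h2] at hx

theorem normalizer_le_omegaGen (r : ℕ) (Z : Subgroup G) :
    normalizer (Z : Set G) ≤ normalizer (omegaGen r Z : Set G) := by
  intro g hg
  have key : ∀ g ∈ normalizer (Z : Set G), ∀ x ∈ omegaGen r Z, g * x * g⁻¹ ∈ omegaGen r Z := by
    intro g hg x hx
    exact (closure_le ((omegaGen r Z).comap (MulAut.conj g).toMonoidHom)).2 (fun y hy =>
      subset_closure ⟨(mem_normalizer_iff.1 hg y).1 hy.1, by
        show (g * y * g⁻¹) ^ r = 1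
        rw [conj_pow, hy.2]; group⟩) hx
  refine mem_normalizer_iff.2 fun x => ⟨key g hg x, fun hx => ?_⟩
  have := key _ (inv_mem hg) _ hx
  rwa [show g⁻¹ * (g * x * g⁻¹) * g⁻¹⁻¹ = x by group] at this

theorem omegaGen_ne_bot {r : ℕ} [Fact r.Prime] {Z : Subgroup G} (hZ : IsPGroup r Z) (hne : Z ≠ ⊥) :
    omegaGen r Z ≠ ⊥ := by
  obtain ⟨x, hx⟩ := exists_prime_orderOf_dvd_card' (G := Z) r
    (hZ.card_eq_or_dvd.resolve_left fun h => hne (card_eq_one.1 h))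
  intro h
  have hmem : (x : G) ∈ omegaGen r Z := subset_closure ⟨x.2, by
    have := pow_orderOf_eq_one x
    rw [hx] at this
    simpa using congrArg Subtype.val this⟩
  rw [h, mem_bot] at hmem
  rw [show x = 1 from Subtype.ext hmem, orderOf_one] at hx
  exact (Fact.out : r.Prime).ne_one hx.symm

theorem normalizer_le_centralizer_normalizer (Q : Subgroup G) :
    normalizer (Q : Set G) ≤ normalizer (centralizer (Q : Set G) : Set G) := by
  intro g hg
  have key : ∀ g ∈ normalizer (Q : Set G), ∀ x ∈ centralizer (Q : Set G), g * x * g⁻¹ ∈ centralizer (Q : Set G) := by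
    intro g hg x hx
    refine mem_centralizer_iff.2 fun q hq => ?_
    have h := mem_centralizer_iff.1 hx _ ((mem_normalizer_iff.1 (inv_mem hg) q).1 hq)
    calc q * (g * x * g⁻¹) = g * ((g⁻¹ * q * g⁻¹⁻¹) * x) * g⁻¹ := by group
      _ = g * (x * (g⁻¹ * q * g⁻¹⁻¹)) * g⁻¹ := by rw [h]
      _ = g * x * g⁻¹ * q := by group
  refine mem_normalizer_iff.2 fun x => ⟨key g hg x, fun hx => ?_⟩
  have := key _ (inv_mem hg) _ hx
  rwa [show g⁻¹ * (g * x * g⁻¹) * g⁻¹⁻¹ = x by group] at this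

theorem normalizer_ne_top (hS : Setting G Ω) {c : Ω} {Q : Subgroup G} (hQ : Q ≤ MulAction.stabilizer G c)
    (hne : Q ≠ ⊥) : normalizer (Q : Set G) ≠ ⊤ := by
  intro htop
  haveI : Q.Normal := normalizer_eq_top_iff.1 htop
  refine hne ((eq_bot_iff_forall _).2 fun q hq => hS.faithful q fun x => ?_)
  obtain ⟨g, rfl⟩ := hS.exists_smul c x
  have h := hQ (Normal.conj_mem inferInstance q hq g⁻¹)
  rw [MulAction.mem_stabilizer_iff, inv_inv, mul_smul, mul_smul, inv_smul_eq_iff] at h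
  exact h

/-- A nontrivial element of `Q` inverted by an involution acting nontrivially on the odd group `Q`. -/
theorem exists_inverted_of_noncommute {s : G} (hs : orderOf s = 2) {Q : Subgroup G}
    (hsQ : s ∈ normalizer (Q : Set G)) (h : ∃ y ∈ Q, ¬ Commute s y) :
    ∃ e ∈ Q, e ≠ 1 ∧ s * e * s⁻¹ = e⁻¹ := by
  obtain ⟨y, hy, hnc⟩ := h
  refine ⟨y⁻¹ * (s * y * s⁻¹), mul_mem (inv_mem hy) ((mem_normalizer_iff.1 hsQ y).1 hy), fun e => hnc ?_, ?_⟩
  · rw [inv_mul_eq_one] at e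
    exact mul_inv_eq_iff_eq_mul.1 e.symm
  · rw [show s * (y⁻¹ * (s * y * s⁻¹)) * s⁻¹ = (s * y⁻¹ * s⁻¹) * ((s * s) * y * (s * s)⁻¹) by group,
      mul_self_inv hs, mul_inv_rev]
    group

theorem isSylowIn_card {r : ℕ} [Fact r.Prime] {R H : Subgroup G} (h : H23.IsSylowIn r R H) :
    Nat.card R = r ^ (Nat.card H).factorization r := by
  have h' : IsPGroup r (R.subgroupOf H) := h.2.1.of_equiv (subgroupOfEquivOfLe h.1).symm
  rw [← (h'.toSylow h.2.2).card_eq_multiplicity]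
  exact (Nat.card_congr (subgroupOfEquivOfLe h.1).toEquiv).symm

theorem pow_le_of_isPGroup {r : ℕ} [Fact r.Prime] {S H : Subgroup G} (hS : IsPGroup r S) (hle : S ≤ H) :
    Nat.card S ≤ r ^ (Nat.card H).factorization r := by
  obtain ⟨n, hn⟩ := hS.exists_card_eq
  rw [hn]
  refine Nat.pow_le_pow_right (Fact.out : r.Prime).pos
    ((Fact.out : r.Prime).pow_dvd_iff_le_factorization Nat.card_pos.ne' |>.1 ?_)
  exact hn ▸ card_dvd_of_le hle

/-- The central case. -/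
theorem full_of_central (hS : Setting G Ω) (hR : Rich Ω (⊤ : Subgroup G)) (hIH : IH.{u} (Nat.card G))
    {r : ℕ} [Fact r.Prime] (hr2 : r ≠ 2) {u : G} {c z : Ω} (hu : IsMaxJ u c z)
    (hq : 1 < (J u c z).ncard) (hsw : SwapCentral (G := G) r c z)
    (hTwins : ∀ {N : Subgroup G}, Rich Ω N → N ≠ ⊤ → ∀ {P : Subgroup G}, c ∈ (apexSet N : Set Ω) →
      z ∈ (apexSet N : Set Ω) → P ≤ N ⊓ pairStab c z →
      Nat.card P = r ^ ((Nat.card ↥(N ⊓ pairStab (G := G) c z)).factorization r) →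
      ∀ {x : Ω}, x ∈ fixedOn P (apexSet N : Set Ω) → x ≠ c → x ≠ z →
      ∃ t ∈ N, InvAt t c ∧ ∀ p ∈ P, ∀ y ∈ (apexSet N : Set Ω), t • p • y = p • t • y)
    (hStar : ∀ {N : Subgroup G}, Rich Ω N → N ≠ ⊤ → ∀ {P : Subgroup G}, P ≤ N → IsPGroup r P →
      fixedOn P (apexSet N : Set Ω) = {c, z} → ∀ {Q : Subgroup G}, Q ≤ N → IsPGroup r Q →
      2 < (fixedOn Q (apexSet N : Set Ω)).ncard →
      Rich Ω (centOn N (apexSet N : Set Ω) Q) ∧
        apexSet (centOn N (apexSet N : Set Ω) Q) = fixedOn Q (apexSet N : Set Ω))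
    (hNorm : ∀ {M : Subgroup G} {Λ : Set Ω}, IsWeakConfig r M Λ → ∀ {B : Subgroup G},
      H23.IsSylowIn r B (fixTo (G := G) Λ) →
      Rich Ω (M ⊓ normalizer (B : Set G)) ∧ apexSet (M ⊓ normalizer (B : Set G)) = Λ ∧
        ∀ t ∈ M ⊓ normalizer (B : Set G), orderOf t = 2 → ∃ b ∈ B, ¬ Commute t b)
    (hInf : ∀ {G0 R : Subgroup G}, Rich Ω G0 → G0 ≠ ⊤ → H23.IsSylowIn r R G0 →
      G0 ≤ closure {t : G | t ∈ G0 ∧ orderOf t = 2} ⊔ R → fixedOn R (apexSet G0 : Set Ω) = {c, z} →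
      (∀ A : Subgroup G, H23.IsMaxEA r R A → fixedOn A (apexSet G0 : Set Ω) = {c, z}) →
      ∀ {B : Subgroup G}, B ≤ R → G0 ≤ normalizer (B : Set G) →
      G0 ≤ normalizer ((B ⊓ Cfsg.centerThompsonOf r R : Subgroup G) : Set G))
    {M : Subgroup G} {Λ : Set Ω} (hM : IsWeakConfig r M Λ) (hc : c ∈ Λ) (hz : z ∈ Λ)
    {B A₀ : Subgroup G} (hB : H23.IsSylowIn r B (fixTo (G := G) Λ)) (hA₀ : H23.IsMaxEA r B A₀)
    (hmax : ∀ {M' : Subgroup G} {Λ' : Set Ω}, IsWeakConfig r M' Λ' → c ∈ Λ' → z ∈ Λ' →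
      ∀ A : Subgroup G, A ≤ fixTo Λ' → (∀ a ∈ A, ∀ b ∈ A, Commute a b) → (∀ a ∈ A, a ^ r = 1) →
      Nat.card A ≤ Nat.card A₀)
    (hNnc : ∀ t ∈ M ⊓ normalizer (B : Set G), orderOf t = 2 →
      ∃ y ∈ Cfsg.thompsonSubgroupOf r B, ¬ Commute t y)
    (hcentral : ∀ t ∈ M ⊓ normalizer (B : Set G), orderOf t = 2 →
      ∀ y ∈ Cfsg.centerThompsonOf r B, y ^ r = 1 → Commute t y) :
    Full G Ω := by
  have hcz : c ≠ z := hu.2.1.symm
  set X := pairStab (G := G) c z with hX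
  have hXodd : Odd (Nat.card X) := pairStab_odd hS hcz
  obtain ⟨hNrich, hNapex, -⟩ := hNorm hM hB
  set N := M ⊓ normalizer (B : Set G) with hN
  set JB := Cfsg.thompsonSubgroupOf r B with hJB
  have hYX : fixTo (G := G) Λ ≤ X := fun g hg => ⟨hg c hc, hg z hz⟩
  have hBX : B ≤ X := hB.1.trans hYX
  obtain ⟨R, hRX, hBR⟩ := H23.exists_isSylowIn_ge hBX hB.2.1
  have hRr : IsPGroup r R := hRX.2.1
  have hJBB : JB ≤ B := H23.thompsonSubgroupOf_le B
  -- `C_R(J(B)) ≤ B`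
  have hCJ : centralizer (JB : Set G) ≤ fixTo (G := G) Λ := by
    have hNJ : N ≤ normalizer (JB : Set G) :=
      inf_le_right.trans (H23.normalizer_le_normalizer_thompsonSubgroupOf B)
    have hodd : Odd (Nat.card (centralizer (JB : Set G))) :=
      cent_odd hS hNrich.2 (hXodd.of_dvd_nat (card_dvd_of_le (hJBB.trans hBX))) hNJ hNnc
    rw [← hNapex]
    exact le_fixTo_of_normalizes hS hNrich hodd
      (hNJ.trans (normalizer_le_centralizer_normalizer JB))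
  have hRB : ∀ x ∈ R, x ∈ centralizer (JB : Set G) → x ∈ B := fun x hxR hx => by
    rw [← hB.eq_of_le (le_inf hBR hB.1) inf_le_right (hRr.to_le inf_le_left)]
    exact ⟨hxR, hCJ hx⟩
  have hkey : ∀ x ∈ R, x ^ r = 1 → x ∈ centralizer (JB : Set G) →
      ∀ t ∈ N, orderOf t = 2 → Commute t x := by
    intro x hxR hxr hx t ht ht2
    refine hcentral t ht ht2 x ⟨?_, hx⟩ hxr
    have hxA : x ∈ A₀ := hA₀.mem_of_commute (hRB x hxR hx) (fun a ha => ?_) hxr
    · rw [H23.thompsonSubgroupOf_eq]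
      exact le_sSup (show A₀ ∈ {A | H23.IsMaxEA r B A} from hA₀) hxA
    · refine mem_centralizer_iff.1 hx a ?_
      rw [hJB, H23.thompsonSubgroupOf_eq]
      exact le_sSup (show A₀ ∈ {A | H23.IsMaxEA r B A} from hA₀) ha
  have hcN : c ∈ (apexSet N : Set Ω) := by rw [hNapex]; exact hc
  have hzN : z ∈ (apexSet N : Set Ω) := by rw [hNapex]; exact hz
  obtain ⟨s, hsN, hsc⟩ := hcN
  obtain ⟨sz, hszN, hszz⟩ := hzN
  -- an inverted element of `B`
  obtain ⟨e, he, he1, hinv⟩ := exists_inverted_of_noncommute hsc.1 (inf_le_right (a := M) hsN)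
    ((hNnc s hsN hsc.1).imp fun y ⟨hy, h⟩ => ⟨hJBB hy, h⟩)
  have hBne : B ≠ ⊥ := fun h => he1 ((mem_bot).1 (h ▸ he))
  have hRne : R ≠ ⊥ := fun h => hBne (le_bot_iff.1 (h ▸ hBR))
  -- the configuration of `N(Ω₁ Z(R))`
  set W := omegaGen r (R ⊓ centralizer (R : Set G)) with hW
  have hWR : W ≤ R ⊓ centralizer (R : Set G) := omegaGen_le r _
  have hWne : W ≠ ⊥ := omegaGen_ne_bot (hRr.to_le inf_le_left) (H23.inf_centralizer_ne_bot hRr hRne)
  have hWc : ∀ t ∈ N, orderOf t = 2 → t ∈ normalizer (W : Set G) := fun t ht ht2 =>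
    mem_normalizer_of_commute (omegaGen_commute fun x hx hxr =>
      hkey x hx.1 hxr (centralizer_le (hJBB.trans hBR) hx.2) t ht ht2)
  set N' := normalizer (W : Set G) with hN'
  have hN'rich : Rich Ω N' := by
    obtain ⟨⟨a, ha, b, hb, ha2, hb2, hab, hcom⟩, hnt⟩ := hNrich
    exact ⟨⟨a, hWc a ha ha2, b, hWc b hb hb2, ha2, hb2, hab, hcom⟩,
      hnt.mono fun x ⟨q, hq, hqx⟩ => ⟨q, hWc q hq hqx.1, hqx⟩⟩
  have hN'ne : N' ≠ ⊤ := normalizer_ne_top hS (fun g hg => (hRX.1 (hWR hg).1).1) hWne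
  set Λ2 : Set Ω := apexSet N' with hΛ2
  have hc2 : c ∈ Λ2 := ⟨s, hWc s hsN hsc.1, hsc⟩
  have hz2 : z ∈ Λ2 := ⟨sz, hWc sz hszN hszz.1, hszz⟩
  have hRN' : R ≤ N' := fun x hx => mem_normalizer_of_commute fun w hw =>
    mem_centralizer_iff.1 (hWR hw).2 x hx
  have heY : e ∈ fixTo (G := G) Λ := hB.1 he
  have he2 : e ∈ fixTo (G := G) Λ2 :=
    mem_fixTo_of_mem_J hS hIH hN'rich hN'ne (hWc s hsN hsc.1) hsc hz2 hcz.symm (hRN' (hBR he))
      ⟨heY c hc, heY z hz, hinv⟩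
  obtain ⟨k, hk⟩ := hB.2.1 ⟨e, he⟩
  have hek : e ^ r ^ k = 1 := congrArg Subtype.val hk
  set M2 := setStab (G := G) Λ2 with hM2
  have hN'M2 : N' ≤ M2 := le_setStab_apexSet N'
  have hconf : Config M2 Λ2 := config_apexSet hS hN'rich he2 he1
  have hweak : IsWeakConfig r M2 Λ2 :=
    ⟨hconf, e, he2, s, hN'M2 (hWc s hsN hsc.1), hsc.1, he1, hinv, k, hek⟩
  have hRM2 : R ≤ M2 := hRN'.trans hN'M2
  have hRMX : R ≤ M2 ⊓ X := le_inf hRM2 hRX.1
  have hRcard : Nat.card R = r ^ (Nat.card ↥(M2 ⊓ X)).factorization r :=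
    le_antisymm (pow_le_of_isPGroup hRr hRMX) (by
      rw [isSylowIn_card hRX]
      exact Nat.pow_le_pow_right (Fact.out : r.Prime).pos
        ((Nat.factorization_le_iff_dvd Nat.card_pos.ne' Nat.card_pos.ne').2 (card_dvd_of_le inf_le_right) r))
  by_cases hbig : ∃ x ∈ fixedOn R Λ2, x ≠ c ∧ x ≠ z
  · obtain ⟨x, hx, hxc, hxz⟩ := hbig
    obtain ⟨t, -, htc, htR⟩ := hTwins hconf.rich hconf.proper (P := R) (hconf.apex.symm ▸ hc2)
      (hconf.apex.symm ▸ hz2) hRMX hRcard (hconf.apex.symm ▸ hx) hxc hxz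
    set D := X ⊓ MulAction.stabilizer G (t • z) with hD
    have hRD : R ≤ D := fun p hp => ⟨hRX.1 hp, by
      show p • t • z = t • z
      rw [← htR p hp z (hconf.apex.symm ▸ hz2), (hRX.1 hp).2]⟩
    have htD : t ∈ normalizer (D : Set G) := by
      have key : ∀ g, g ∈ D → t * g * t⁻¹ ∈ D := by
        rintro g ⟨⟨hgc, hgz⟩, hgt⟩
        have hgt' : g • t • z = t • z := hgt
        have ht' : t⁻¹ = t := H28.inv_eq_self_of_orderOf_two htc.1
        refine ⟨⟨MulAction.mem_stabilizer_iff.2 ?_, MulAction.mem_stabilizer_iff.2 ?_⟩, MulAction.mem_stabilizer_iff.2 ?_⟩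
        · rw [ht', mul_smul, mul_smul, htc.2, hgc, htc.2]
        · rw [ht', mul_smul, mul_smul, hgt', smul_smul_self htc.1]
        · rw [ht', mul_smul, mul_smul, smul_smul_self htc.1, hgz]
      refine mem_normalizer_iff.2 fun g => ⟨key g, fun hg => ?_⟩
      have := key _ hg
      rwa [show t * (t * g * t⁻¹) * t⁻¹ = (t * t) * g * (t * t)⁻¹ by group, mul_self_inv htc.1, one_mul,
        inv_one, mul_one] at this
    obtain ⟨S, -, hSD, hSt, hSr, hScard, -⟩ := exists_invariant_sylow htc.1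
      (hXodd.of_dvd_nat (card_dvd_of_le inf_le_left)) htD r (R := ⊥) bot_le IsPGroup.of_bot
      (mem_normalizer_of_commute fun y hy => by rw [mem_bot.1 hy]; exact Commute.one_right t)
    have hge : Nat.card R ≤ Nat.card S := hScard ▸ pow_le_of_isPGroup hRr hRD
    have hle : Nat.card S ≤ r ^ (Nat.card X).factorization r := pow_le_of_isPGroup hSr (hSD.trans inf_le_left)
    rw [← isSylowIn_card hRX] at hle
    refine full_of_zj hS hR hu hq hsw (hSD.trans inf_le_left) hSr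
      ((le_antisymm hle hge).trans (isSylowIn_card hRX)) (fun h => hRne (card_eq_one.1 ?_)) htc
      (H23.normalizer_le_normalizer_centerThompsonOf S hSt)
    rw [h, card_bot] at hge
    have := Nat.card_pos (α := R)
    omega
  have hRfix : fixedOn R Λ2 = {c, z} := by
    ext x
    constructor
    · intro hx
      by_contra hne
      simp only [Set.mem_insert_iff, Set.mem_singleton_iff, not_or] at hne
      exact hbig ⟨x, hx, hne⟩
    · rintro (rfl | rfl)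
      exacts [⟨hc2, fun q hq => (hRX.1 hq).1⟩, ⟨hz2, fun q hq => (hRX.1 hq).2⟩]
  by_cases hrank : ∀ A : Subgroup G, A ≤ R → (∀ a ∈ A, ∀ b ∈ A, Commute a b) → (∀ a ∈ A, a ^ r = 1) →
      Nat.card A ≤ Nat.card A₀
  · -- equal ranks
    have hJJ : JB ≤ Cfsg.thompsonSubgroupOf r R := by
      rw [hJB, H23.thompsonSubgroupOf_eq, H23.thompsonSubgroupOf_eq]
      refine sSup_le_sSup fun A hA => ⟨hA.1.trans hBR, hA.2.1, hA.2.2.1, fun A' h1 h2 h3 => ?_⟩
      exact (hrank A' h1 h2 h3).trans (hA.2.2.2 A₀ hA₀.1 hA₀.2.1 hA₀.2.2.1)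
    have hZne : Cfsg.centerThompsonOf r R ≠ ⊥ := H23.centerThompsonOf_ne_bot hRr hRne
    have hZR := H23.centerThompsonOf_le (p := r) R
    have hcomm : ∀ t ∈ N, orderOf t = 2 → t ∈ normalizer (omegaGen r (Cfsg.centerThompsonOf r R) : Set G) :=
      fun t ht ht2 => mem_normalizer_of_commute (omegaGen_commute fun x hx hxr =>
        hkey x (hZR hx) hxr (centralizer_le hJJ hx.2) t ht ht2)
    refine full_of_normalizer hS hR hu hq hsw (omegaGen_ne_bot (hRr.to_le hZR) hZne)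
      (((omegaGen_le r _).trans hZR).trans hRX.1) (fun x hx => ?_) hsc (hcomm s hsN hsc.1) hszz
      (hcomm sz hszN hszz.1)
    obtain ⟨n, hn, hnN⟩ := exists_core_conj hS hcz hRX.1 hRr (isSylowIn_card hRX) (le_normalizer hx)
    exact ⟨n, hn, n⁻¹ * x, mul_mem (inv_mem (map_subtype_le _ hn)) hx, normalizer_le_omegaGen r _ hnN,
      (mul_inv_cancel_left n x).symm⟩
  push Not at hrank
  obtain ⟨A₁, hA₁R, hA₁c, hA₁e, hA₁lt⟩ := hrank
  have hbigA : ∀ A, H23.IsMaxEA r R A → ¬ A ≤ fixTo (G := G) Λ2 := fun A hA hle =>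
    absurd ((hA₁lt.trans_le (hA.2.2.2 A₁ hA₁R hA₁c hA₁e)).trans_le (hmax hweak hc2 hz2 A hle hA.2.1 hA.2.2.1))
      (lt_irrefl _)
  have hAfix : ∀ A, H23.IsMaxEA r R A → fixedOn A Λ2 = {c, z} := by
    intro A hA
    have hsub : ({c, z} : Set Ω) ⊆ fixedOn A Λ2 := by
      rintro x (rfl | rfl)
      exacts [⟨hc2, fun q hq => (hRX.1 (hA.1 hq)).1⟩, ⟨hz2, fun q hq => (hRX.1 (hA.1 hq)).2⟩]
    by_contra hne
    have h3 : 2 < (fixedOn A Λ2).ncard := by
      rw [← Set.ncard_pair hcz]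
      exact Set.ncard_lt_ncard (Set.ssubset_iff_subset_ne.2 ⟨hsub, Ne.symm hne⟩) (Set.toFinite _)
    obtain ⟨hCrich, hCapex⟩ := hStar hconf.rich hconf.proper (P := R) hRM2 hRr
      (hconf.apex.symm ▸ hRfix) (Q := A) (hA.1.trans hRM2) (hRr.to_le hA.1) (hconf.apex.symm ▸ h3)
    rw [hconf.apex] at hCrich hCapex
    set C := centOn M2 Λ2 A with hC
    set Λ3 := (apexSet C : Set Ω) with hΛ3
    have hc3 : c ∈ Λ3 := by rw [hCapex]; exact hsub (by simp)
    have hz3 : z ∈ Λ3 := by rw [hCapex]; exact hsub (by simp)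
    have hfix3 : ∀ g ∈ fixTo (G := G) Λ2, g ∈ fixTo (G := G) Λ3 := fun g hg x hx => by
      rw [hCapex] at hx; exact hg x hx.1
    have hconf3 := config_apexSet hS hCrich (hfix3 e he2) he1
    obtain ⟨t, htC, htc⟩ := hc3
    have htM2 : t ∈ M2 := htC.1.1
    obtain ⟨g, hg, hgt⟩ := conj_mem hS hconf.rich.2 (hN'M2 (hWc s hsN hsc.1)) hsc.1 htM2 htc.1
    have hje : g * e * g⁻¹ ∈ fixTo (G := G) Λ2 := fun x hx => by
      rw [mul_smul, mul_smul, he2 _ (((inv_mem hg : g⁻¹ ∈ M2) x).2 hx), smul_inv_smul]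
    have hinv' : t * (g * e * g⁻¹) * t⁻¹ = (g * e * g⁻¹)⁻¹ := by
      rw [← hgt, show g * s * g⁻¹ * (g * e * g⁻¹) * (g * s * g⁻¹)⁻¹ = g * (s * e * s⁻¹) * g⁻¹ by group, hinv]
      group
    have hweak3 : IsWeakConfig r (setStab (G := G) Λ3) Λ3 :=
      ⟨hconf3, g * e * g⁻¹, hfix3 _ hje, t, le_setStab_apexSet C htC, htc.1,
        fun h => he1 (conj_eq_one_iff.1 h), hinv', k, by rw [conj_pow, hek]; group⟩
    have hAle : A ≤ fixTo (G := G) Λ3 := fun a ha x hx => by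
      rw [hCapex] at hx; exact hx.2 a ha
    exact absurd ((hA₁lt.trans_le (hA.2.2.2 A₁ hA₁R hA₁c hA₁e)).trans_le
      (hmax hweak3 ⟨t, htC, htc⟩ hz3 A hAle hA.2.1 hA.2.2.1)) (lt_irrefl _)
  -- `G₀`
  set Y2 := fixTo (G := G) Λ2 with hY2
  set B2 := R ⊓ Y2 with hB2
  have hY2X : Y2 ≤ X := fun g hg => ⟨hg c hc2, hg z hz2⟩
  have hY2M : Y2 ≤ M2 := fun g hg x => ⟨fun h => by
    have := hg (g • x) h
    rw [smul_left_cancel_iff] at this
    rwa [← this], fun h => by rwa [hg x h]⟩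
  have hM2Y : ∀ g ∈ M2, ∀ y ∈ Y2, g * y * g⁻¹ ∈ Y2 := fun g hg y hy x hx => by
    rw [mul_smul, mul_smul, hy _ (((inv_mem hg : g⁻¹ ∈ M2) x).2 hx), smul_inv_smul]
  have hB2S : H23.IsSylowIn r B2 Y2 := by
    obtain ⟨L, hL, hBL⟩ := H23.exists_isSylowIn_ge (p := r) (show B2 ≤ Y2 from inf_le_right)
      (hRr.to_le inf_le_left)
    obtain ⟨K, hK, hLK⟩ := H23.exists_isSylowIn_ge (p := r) (le_inf (hL.1.trans hY2M) (hL.1.trans hY2X)) hL.2.1
    have hRS : H23.IsSylowIn r R (M2 ⊓ X) := by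
      refine ⟨hRMX, hRr, fun hd => hRX.2.2 ?_⟩
      rw [← relIndex_mul_relIndex R (M2 ⊓ X) X hRMX inf_le_right]
      exact dvd_mul_of_dvd_left hd _
    obtain ⟨m, hm, hmK⟩ := hK.exists_rconj hRS
    have hsub : H23.rconj m L ≤ B2 := le_inf ((H23.rconj_mono m hLK).trans hmK.le) (by
      intro x hx
      rw [H23.mem_rconj] at hx
      have := hM2Y m⁻¹ (inv_mem hm.1) _ (hL.1 hx)
      rwa [show m⁻¹ * (m * x * m⁻¹) * m⁻¹⁻¹ = x by group] at this)
    have hcardle : Nat.card L ≤ Nat.card B2 := H23.card_rconj m L ▸ card_le_of_le hsub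
    exact eq_of_le_of_card_ge hBL hcardle ▸ hL
  obtain ⟨hN2rich, hN2apex, hN2nc⟩ := hNorm hweak hB2S
  set G0 := closure {t : G | t ∈ M2 ⊓ normalizer (B2 : Set G) ∧ orderOf t = 2} ⊔ R with hG0
  have hRN2 : R ≤ M2 ⊓ normalizer (B2 : Set G) := by
    refine le_inf hRM2 fun g hg => ?_
    have key : ∀ g ∈ R, ∀ y ∈ B2, g * y * g⁻¹ ∈ B2 := fun g hg y hy =>
      mem_inf.2 ⟨mul_mem (mul_mem hg hy.1) (inv_mem hg), hM2Y g (hRM2 hg) y hy.2⟩
    refine mem_normalizer_iff.2 fun y => ⟨key g hg y, fun hy => ?_⟩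
    have := key _ (inv_mem hg) _ hy
    rwa [show g⁻¹ * (g * y * g⁻¹) * g⁻¹⁻¹ = y by group] at this
  have hG0N2 : G0 ≤ M2 ⊓ normalizer (B2 : Set G) := sup_le ((closure_le _).2 fun t ht => ht.1) hRN2
  have hinvG0 : ∀ t ∈ M2 ⊓ normalizer (B2 : Set G), orderOf t = 2 → t ∈ G0 := fun t ht ht2 =>
    mem_sup_left (subset_closure ⟨ht, ht2⟩)
  have hG0apex : (apexSet G0 : Set Ω) = Λ2 := by
    refine Set.Subset.antisymm (fun x ⟨t, ht, htx⟩ => hconf.apex ▸ ⟨t, (hG0N2 ht).1, htx⟩) fun x hx => ?_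
    rw [← hN2apex] at hx
    obtain ⟨t, ht, htx⟩ := hx
    exact ⟨t, hinvG0 t ht htx.1, htx⟩
  have hG0rich : Rich Ω G0 := by
    obtain ⟨⟨a, ha, b, hb, ha2, hb2, hab, hcom⟩, -⟩ := hN2rich
    refine ⟨⟨a, hinvG0 a ha ha2, b, hinvG0 b hb hb2, ha2, hb2, hab, hcom⟩, ?_⟩
    rw [hG0apex, ← hconf.apex]
    exact hconf.rich.2
  have hG0ne : G0 ≠ ⊤ := fun h => hconf.proper (top_unique (h ▸ hG0N2.trans inf_le_left))
  have hRG0 : H23.IsSylowIn r R G0 := by
    refine ⟨le_sup_right, hRr, ?_⟩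
    obtain ⟨L, hL, hRL⟩ := H23.exists_isSylowIn_ge (p := r) (show R ≤ G0 from le_sup_right) hRr
    suffices L = R by rw [← this]; exact hL.2.2
    by_contra hne
    haveI : Group.IsNilpotent L := hL.2.1.isNilpotent
    have hlt : R.subgroupOf L < ⊤ := lt_top_iff_ne_top.2 fun h =>
      hne (le_antisymm (subgroupOf_eq_top.1 h) hRL)
    obtain ⟨x, hxN, hxR⟩ := SetLike.exists_of_lt (normalizerCondition_of_isNilpotent _ hlt)
    have hxR' : (x : G) ∉ R := fun h => hxR h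
    have hxn : ∀ q ∈ R, (x : G) * q * (x : G)⁻¹ ∈ R := fun q hq =>
      (mem_normalizer_iff.1 hxN ⟨q, hRL hq⟩).1 hq
    have hxn' : ∀ q ∈ R, (x : G)⁻¹ * q * (x : G) ∈ R := fun q hq => by
      have := (mem_normalizer_iff.1 (inv_mem hxN) ⟨q, hRL hq⟩).1 hq
      simpa [mem_subgroupOf] using this
    have hxM2 : (x : G) ∈ M2 := (hG0N2 (hL.1 x.2)).1
    have hperm : ∀ y : Ω, y ∈ ({c, z} : Set Ω) → (x : G) • y ∈ ({c, z} : Set Ω) := by
      intro y hy
      rw [← hRfix] at hy ⊢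
      refine ⟨(hxM2 y).2 hy.1, fun q hq => ?_⟩
      have := hy.2 _ (hxn' q hq)
      rwa [mul_smul, mul_smul, inv_smul_eq_iff] at this
    have hodd : Odd (orderOf (x : G)) := by
      rw [Subgroup.orderOf_coe]
      obtain ⟨n, hn⟩ := hL.2.1.exists_card_eq
      exact ((Fact.out : r.Prime).odd_of_ne_two hr2).pow (n := n) |>.of_dvd_nat (hn ▸ orderOf_dvd_natCard x)
    have hsq : (x : G) • (x : G) • c = c ∧ (x : G) • (x : G) • z = z := by
      have h1 := hperm c (by simp)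
      have h2 := hperm z (by simp)
      simp only [Set.mem_insert_iff, Set.mem_singleton_iff] at h1 h2
      rcases h1 with h1 | h1 <;> rcases h2 with h2 | h2
      · exact absurd (smul_left_cancel (x : G) (h1.trans h2.symm)) hcz
      · rw [h1, h1, h2, h2]; exact ⟨rfl, rfl⟩
      · rw [h1, h2, h1]; exact ⟨rfl, rfl⟩
      · exact absurd (smul_left_cancel (x : G) (h1.trans h2.symm)) hcz
    have hxX : (x : G) ∈ X := mem_of_sq_mem hodd (mem_pairStab.2 ⟨by rw [mul_smul]; exact hsq.1, by rw [mul_smul]; exact hsq.2⟩)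
    have h1 : R ⊔ zpowers (x : G) ≤ X := sup_le hRX.1 (zpowers_le.2 hxX)
    have h2 : IsPGroup r ↥(R ⊔ zpowers (x : G)) := hL.2.1.to_le (sup_le hRL (zpowers_le.2 x.2))
    exact hxR' (hRX.eq_of_le le_sup_left h1 h2 ▸ mem_sup_right (mem_zpowers _))
  have hsubset : {t : G | t ∈ M2 ⊓ normalizer (B2 : Set G) ∧ orderOf t = 2} ⊆
      {t : G | t ∈ G0 ∧ orderOf t = 2} := fun t ht => ⟨hinvG0 t ht.1 ht.2, ht.2⟩
  have hgen : G0 ≤ closure {t : G | t ∈ G0 ∧ orderOf t = 2} ⊔ R :=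
    sup_le_sup_right (Subgroup.closure_mono hsubset) R
  set Zr := Cfsg.centerThompsonOf r R with hZr
  set W2 := B2 ⊓ Zr with hW2
  have hW2n : G0 ≤ normalizer (W2 : Set G) :=
    hInf hG0rich hG0ne hRG0 hgen (hG0apex.symm ▸ hRfix) (fun A hA => hG0apex.symm ▸ hAfix A hA)
      inf_le_left (hG0N2.trans inf_le_right)
  have hW2R : W2 ≤ R := inf_le_left.trans inf_le_left
  have hW2odd : Odd (Nat.card W2) := hXodd.of_dvd_nat (card_dvd_of_le (hW2R.trans hRX.1))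
  have hG0nt : (apexSet G0 : Set Ω).Nontrivial := hG0rich.2
  by_cases hncW : ∃ t ∈ G0, orderOf t = 2 ∧ ∃ w ∈ W2, ¬ Commute t w
  · exfalso
    obtain ⟨t, ht, ht2, w, hw, hnc⟩ := hncW
    have hodd : Odd (Nat.card (centralizer (W2 : Set G))) := cent_odd hS hG0nt hW2odd hW2n fun t' ht' ht'2 => by
      obtain ⟨g, hg, rfl⟩ := conj_mem hS hG0nt ht ht2 ht' ht'2
      exact ⟨g * w * g⁻¹, (mem_normalizer_iff.1 (hW2n hg) w).1 hw, fun h => hnc (by
        have := h.map (MulAut.conj g⁻¹).toMonoidHom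
        simpa [mul_assoc] using this)⟩
    have hfix : centralizer (W2 : Set G) ≤ Y2 := by
      have := le_fixTo_of_normalizes hS hG0rich hodd (hW2n.trans (normalizer_le_centralizer_normalizer W2))
      rwa [hG0apex] at this
    obtain ⟨A, hA⟩ := H23.exists_isMaxEA (p := r) R
    refine hbigA A hA fun a ha => hfix (mem_centralizer_iff.2 fun q hq => ?_)
    have hq' : q ∈ centralizer (Cfsg.thompsonSubgroupOf r R : Set G) := hq.2.2
    exact (mem_centralizer_iff.1 hq' a (by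
      rw [H23.thompsonSubgroupOf_eq]
      exact le_sSup (show A ∈ {A | H23.IsMaxEA r R A} from hA) ha)).symm
  · push Not at hncW
    -- the kernel of `G₀` on `B2 / W2`
    let K0 : Subgroup G :=
      { carrier := {g | g ∈ G0 ∧ ∀ x ∈ B2, g * x * g⁻¹ * x⁻¹ ∈ W2}
        one_mem' := ⟨one_mem _, fun x _ => by simp⟩
        mul_mem' := fun {a b} ha hb => ⟨mul_mem ha.1 hb.1, fun x hx => by
          rw [show a * b * x * (a * b)⁻¹ * x⁻¹ =
            (a * (b * x * b⁻¹ * x⁻¹) * a⁻¹) * (a * x * a⁻¹ * x⁻¹) by group]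
          exact mul_mem ((mem_normalizer_iff.1 (hW2n ha.1) _).1 (hb.2 x hx)) (ha.2 x hx)⟩
        inv_mem' := fun {a} ha => ⟨inv_mem ha.1, fun x hx => by
          rw [show a⁻¹ * x * a⁻¹⁻¹ * x⁻¹ = a⁻¹ * (a * x * a⁻¹ * x⁻¹)⁻¹ * a⁻¹⁻¹ by group]
          exact (mem_normalizer_iff.1 (inv_mem (hW2n ha.1)) _).1 (inv_mem (ha.2 x hx))⟩ }
    have hK0odd : Odd (Nat.card K0) := by
      rw [← Nat.not_even_iff_odd, even_iff_two_dvd]
      intro h
      obtain ⟨⟨a, haK⟩, ha⟩ := exists_prime_orderOf_dvd_card' 2 h (hp := ⟨Nat.prime_two⟩)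
      rw [Subgroup.orderOf_mk] at ha
      obtain ⟨b, hb, hnb⟩ := hN2nc a (hG0N2 haK.1) ha
      have hw := haK.2 b hb
      set w := a * b * a⁻¹ * b⁻¹ with hwdef
      have hcw : a * w * a⁻¹ = w := by rw [(hncW a haK.1 ha w hw).eq, mul_inv_cancel_right]
      have hww : w * w = 1 := by
        have hab : a * b * a⁻¹ = w * b := by rw [hwdef]; group
        have hbb : w * w * b = b :=
          calc w * w * b = (a * w * a⁻¹) * (a * b * a⁻¹) := by rw [hcw, hab, mul_assoc]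
            _ = a * (w * b) * a⁻¹ := by group
            _ = a * (a * b * a⁻¹) * a⁻¹ := by rw [hab]
            _ = (a * a) * b * (a * a)⁻¹ := by group
            _ = b := by rw [mul_self_inv ha]; group
        exact mul_eq_right.1 hbb
      have hw1 : w ∈ (⊥ : Subgroup G) := mem_of_sq_mem
        (hW2odd.of_dvd_nat (Subgroup.orderOf_mk w hw ▸ orderOf_dvd_natCard _)) (by rw [hww]; exact one_mem _)
      rw [mem_bot, hwdef, mul_inv_eq_one] at hw1
      exact hnb (mul_inv_eq_iff_eq_mul.1 hw1)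
    have hG0K0 : G0 ≤ normalizer (K0 : Set G) := by
      intro g hg
      have key : ∀ g ∈ G0, ∀ a ∈ K0, g * a * g⁻¹ ∈ K0 := fun g hg a ha =>
        ⟨mul_mem (mul_mem hg ha.1) (inv_mem hg), fun x hx => by
          have hx' : g⁻¹ * x * g⁻¹⁻¹ ∈ B2 := (mem_normalizer_iff.1 (inv_mem (hG0N2 hg).2) x).1 hx
          have := (mem_normalizer_iff.1 (hW2n hg) _).1 (ha.2 _ hx')
          rwa [show g * (a * (g⁻¹ * x * g⁻¹⁻¹) * a⁻¹ * (g⁻¹ * x * g⁻¹⁻¹)⁻¹) * g⁻¹ =
            g * a * g⁻¹ * x * (g * a * g⁻¹)⁻¹ * x⁻¹ by group] at this⟩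
      refine mem_normalizer_iff.2 fun a => ⟨key g hg a, fun ha => ?_⟩
      have := key _ (inv_mem hg) _ ha
      rwa [show g⁻¹ * (g * a * g⁻¹) * g⁻¹⁻¹ = a by group] at this
    have hK0Y : K0 ≤ Y2 := by
      have := le_fixTo_of_normalizes hS hG0rich hK0odd hG0K0
      rwa [hG0apex] at this
    have hZrR : Zr ≤ R := H23.centerThompsonOf_le R
    have hZB : Zr ≤ B2 := by
      refine fun q hq => ⟨hZrR hq, hK0Y ⟨hRG0.1 (hZrR hq), fun x hx => mem_inf.2 ⟨?_, ?_⟩⟩⟩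
      · exact mul_mem ((mem_normalizer_iff.1 (hRN2 (hZrR hq)).2 x).1 hx) (inv_mem hx)
      · have hxN : x ∈ normalizer (Zr : Set G) :=
          H23.normalizer_le_normalizer_centerThompsonOf R (le_normalizer hx.1)
        rw [show q * x * q⁻¹ * x⁻¹ = q * (x * q⁻¹ * x⁻¹) by group]
        exact mul_mem hq ((mem_normalizer_iff.1 hxN _).1 (inv_mem hq))
    have hWZ : W2 = Zr := inf_eq_right.2 hZB
    obtain ⟨t, htG0, htc⟩ : c ∈ (apexSet G0 : Set Ω) := by rw [hG0apex]; exact hc2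
    exact full_of_zj hS hR hu hq hsw hRX.1 hRr (isSylowIn_card hRX) hRne htc
      (by rw [← hZr, ← hWZ]; exact hW2n htG0)

end PartE

end Cfsg.Agent.H14.Bender
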