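import Cfsg.Agent.H14.Bender.Defs
import Cfsg.Agent.H14.Bender.Coprime
import Cfsg.Agent.H14.Bender.IHFacts
import Cfsg.Agent.H14.Bender.LemmaW
import Cfsg.Prelude.Def_Amalgam
import Cfsg.Agent.H28.Dihedral
import Cfsg.Agent.H28.BaerSuzuki
import Cfsg.Agent.H48.OddInvolution
import Cfsg.Agent.H72.PCore
import Cfsg.Agent.H19.Fitting
import Cfsg.Agent.H51.Basic
import Cfsg.Agent.S0205

/-!
Part II of the proof of S1220 (see `PLAN.md`, section 4): from a configuration with a largest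
nontrivial set `J` either the full configuration, or a prime `r` such that every involution
exchanging the two apexes centralises the `r'`-core of their stabiliser.
-/

set_option autoImplicit false
set_option linter.style.haveILetI false
set_option linter.unusedSectionVars false

namespace Cfsg.Agent.H14.Bender

universe u

namespace PartII

open Subgroup

variable {G : Type u} [Group G]

/-! ### Group-theoretic preliminaries -/

theorem mem_normalizer_of_conj_mem [Finite G] {H : Subgroup G} {g : G}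
    (h : ∀ x ∈ H, g * x * g⁻¹ ∈ H) : g ∈ normalizer (H : Set G) := by
  have hle : H.map (MulAut.conj g).toMonoidHom ≤ H := by
    rintro _ ⟨x, hx, rfl⟩; exact h x hx
  have heq : H.map (MulAut.conj g).toMonoidHom = H :=
    SetLike.coe_injective (Set.eq_of_subset_of_ncard_le hle (le_of_eq (by
      rw [← Nat.card_coe_set_eq, ← Nat.card_coe_set_eq]
      exact (Nat.card_congr (H.equivMapOfInjective _ (MulAut.conj g).injective).toEquiv))) (Set.toFinite _))
  rw [mem_normalizer_iff]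
  refine fun x => ⟨h x, fun hx => ?_⟩
  rw [← heq] at hx
  obtain ⟨y, hy, hyx⟩ := hx
  simp only [MulEquiv.coe_toMonoidHom, MulAut.conj_apply, mul_left_inj, mul_right_inj] at hyx
  exact hyx ▸ hy

theorem conj_mem_of_mem_normalizer {H : Subgroup G} {g x : G} (hg : g ∈ normalizer (H : Set G))
    (hx : x ∈ H) : g * x * g⁻¹ ∈ H :=
  (mem_normalizer_iff.1 hg x).1 hx

theorem mem_normalizer_inf [Finite G] {A B : Subgroup G} {k : G} (hA : k ∈ normalizer (A : Set G))
    (hB : k ∈ normalizer (B : Set G)) : k ∈ normalizer ((A ⊓ B : Subgroup G) : Set G) :=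
  mem_normalizer_of_conj_mem fun _ hv => Subgroup.mem_inf.2
    ⟨conj_mem_of_mem_normalizer hA hv.1, conj_mem_of_mem_normalizer hB hv.2⟩

theorem mem_normalizer_pCoreOf {H : Subgroup G} {g : G} (hg : g ∈ normalizer (H : Set G)) (p : ℕ) :
    g ∈ normalizer (Cfsg.pCoreOf p H : Set G) := by
  have hmap : ∀ k ∈ normalizer (H : Set G), H.map (MulAut.conj k).toMonoidHom = H := by
    intro k hk; ext x; constructor
    · rintro ⟨y, hy, rfl⟩; exact conj_mem_of_mem_normalizer hk hy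
    · intro hx
      exact ⟨k⁻¹ * x * k, by simpa using conj_mem_of_mem_normalizer (inv_mem hk) hx, by simp [mul_assoc]⟩
  have key : ∀ k ∈ normalizer (H : Set G), ∀ x ∈ Cfsg.pCoreOf p H, k * x * k⁻¹ ∈ Cfsg.pCoreOf p H := by
    intro k hk x hx
    have := H72.pCoreOf_map_equiv (MulAut.conj k) p H
    rw [hmap k hk] at this
    rw [this]; exact ⟨x, hx, rfl⟩
  rw [mem_normalizer_iff]
  refine fun x => ⟨key g hg x, fun hx => ?_⟩
  simpa [mul_assoc] using key g⁻¹ (inv_mem hg) _ hx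

theorem pCoreOf_le_pCoreOf {H K : Subgroup G} (hHK : H ≤ K) (hn : K ≤ normalizer (H : Set G))
    (p : ℕ) : Cfsg.pCoreOf p H ≤ Cfsg.pCoreOf p K :=
  H72.le_pCoreOf ((H72.pCoreOf_le p H).trans hHK) (fun _ hk => mem_normalizer_pCoreOf (hn hk) p)
    (H72.pCoreOf_isPGroup p H)

theorem odd_orderOf_of_mem [Finite G] {D : Subgroup G} (hD : Odd (Nat.card D)) {x : G}
    (hx : x ∈ D) : Odd (orderOf x) := by
  obtain ⟨k, hk⟩ := Subgroup.orderOf_dvd_natCard D hx
  rw [hk] at hD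
  exact (Nat.odd_mul.1 hD).1

theorem eq_one_of_inv_eq {x : G} (hx : Odd (orderOf x)) (h : x⁻¹ = x) : x = 1 := by
  have h2 : x ^ 2 = 1 := by rw [pow_two]; nth_rewrite 1 [← h]; exact inv_mul_cancel x
  rcases (Nat.dvd_prime Nat.prime_two).1 (orderOf_dvd_of_pow_eq_one h2) with h1 | h1
  · exact orderOf_eq_one_iff.1 h1
  · rw [h1] at hx; exact absurd hx (by decide)

theorem eq_one_of_inverted_of_commute {w x : G} (hx : Odd (orderOf x)) (hi : w * x * w⁻¹ = x⁻¹)
    (hc : Commute w x) : x = 1 := by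
  rw [hc.eq, mul_inv_cancel_right] at hi
  exact eq_one_of_inv_eq hx hi.symm

theorem commute_of_conj_eq {w x : G} (h : w * x * w⁻¹ = x) : Commute w x :=
  mul_inv_eq_iff_eq_mul.1 h

theorem odd_card_of_le [Finite G] {H K : Subgroup G} (hle : H ≤ K) (hK : Odd (Nat.card K)) :
    Odd (Nat.card H) := by
  obtain ⟨k, hk⟩ := Subgroup.card_dvd_of_le hle
  rw [hk] at hK
  exact (Nat.odd_mul.1 hK).1

theorem eq_one_of_isPGroup_of_dvd [Finite G] {p q : ℕ} (hp : p.Prime) (hq : q.Prime) (hne : p ≠ q)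
    {P Q : Subgroup G} (hP : IsPGroup p P) (hQ : IsPGroup q Q) {x : G} (hxP : x ∈ P) (hxQ : x ∈ Q) :
    x = 1 := by
  haveI := Fact.mk hp; haveI := Fact.mk hq
  have hb := Subgroup.disjoint_def.1 (IsPGroup.disjoint_of_ne p q hne P Q hP hQ) hxP hxQ
  exact hb

theorem exists_involution_of_not_odd [Finite G] {D : Subgroup G} (h : ¬ Odd (Nat.card D)) :
    ∃ t ∈ D, orderOf t = 2 := by
  haveI := Fact.mk Nat.prime_two
  obtain ⟨x, hx⟩ := exists_prime_orderOf_dvd_card' (G := D) 2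
    (Nat.not_odd_iff_even.1 h).two_dvd
  exact ⟨x, x.2, by rw [Subgroup.orderOf_coe, hx]⟩

variable {Ω : Type u} [MulAction G Ω]

/-! ### Involutions and apexes -/

theorem invAt_conj {t : G} {c : Ω} (ht : InvAt t c) (g : G) : InvAt (g * t * g⁻¹) (g • c) :=
  ⟨by rw [H28.orderOf_conj_eq, ht.1], by rw [mul_smul, mul_smul, inv_smul_smul, ht.2]⟩

theorem invAt_unique (hS : Setting G Ω) {t : G} {a b : Ω} (ha : InvAt t a) (hb : t • b = b) :
    b = a :=
  hS.fix_unique t ha.1 b a hb ha.2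

theorem fix_of_commute (hS : Setting G Ω) {t g : G} {a : Ω} (ha : InvAt t a) (hg : Commute t g) :
    g • a = a :=
  invAt_unique hS ha (by rw [← mul_smul, hg.eq, mul_smul, ha.2])

theorem apex_eq_of_commute (hS : Setting G Ω) {s t : G} {a b : Ω} (hs : InvAt s a)
    (ht : InvAt t b) (h : Commute s t) : a = b :=
  invAt_unique hS ht (fix_of_commute hS hs h)

theorem exists_middle [Finite G] (hS : Setting G Ω) {M : Subgroup G} {s t : G} {a b : Ω}
    (hsM : s ∈ M) (htM : t ∈ M) (hs : InvAt s a) (ht : InvAt t b) (hab : a ≠ b) :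
    ∃ i ∈ M, orderOf i = 2 ∧ i * s * i⁻¹ = t ∧ i • a = b ∧ i • b = a := by
  have hss := H28.mul_self_of_orderOf_two hs.1
  have htt := H28.mul_self_of_orderOf_two ht.1
  have hodd : Odd (orderOf (s * t)) := by
    by_contra hev
    obtain ⟨hz, hzs, hzt⟩ := H28.central_involution_of_even hss htt (Nat.not_odd_iff_even.1 hev)
    set k := (s * t) ^ (orderOf (s * t) / 2) with hk
    obtain ⟨x, hx⟩ := hS.exists_fix k hz
    exact hab ((apex_eq_of_commute hS hs ⟨hz, hx⟩ hzs.symm).trans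
      (apex_eq_of_commute hS ht ⟨hz, hx⟩ hzt.symm).symm)
  obtain ⟨d, hd, hdst⟩ := H28.exists_conj_of_odd hss htt hodd
  have hcl : closure ({s, t} : Set G) ≤ M := by
    rw [closure_le]; rintro x (rfl | rfl) <;> assumption
  obtain ⟨i, hiM, hi2, hist⟩ : ∃ i ∈ M, i * i = 1 ∧ i * s * i⁻¹ = t := by
    obtain ⟨k, hk | hk⟩ := (H28.mem_closure_pair_iff hss htt).1 hd
    · refine ⟨d * s, mul_mem (hcl hd) hsM, ?_, ?_⟩
      · have h1 : d * s = s * (s * t) ^ (-k) := by
          rw [hk, H28.mul_zpow_comm hss htt, neg_neg]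
        rw [h1]; exact H28.mul_zpow_mul_self hss htt _
      · rw [← hdst, mul_inv_rev]; simp [mul_assoc]
    · refine ⟨d, hcl hd, ?_, hdst⟩
      rw [hk]; exact H28.mul_zpow_mul_self hss htt _
  have hab' : i • a = b := by
    have := invAt_conj hs i
    rw [hist] at this
    exact invAt_unique hS ht this.2
  have hi1 : i ≠ 1 := by rintro rfl; exact hab (by rw [← hab', one_smul])
  exact ⟨i, hiM, H28.orderOf_two_of_mul_self hi2 hi1, hist, hab',
    by rw [← hab', ← mul_smul, hi2, one_smul]⟩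

theorem conj_class [Finite G] (hS : Setting G Ω) {M : Subgroup G}
    (hM : (apexSet M : Set Ω).Nontrivial) {s t : G} (hs : s ∈ M) (ht : t ∈ M)
    (hs2 : orderOf s = 2) (ht2 : orderOf t = 2) : ∃ g ∈ M, g * s * g⁻¹ = t := by
  obtain ⟨a, ha⟩ := hS.exists_fix s hs2
  obtain ⟨b, hb⟩ := hS.exists_fix t ht2
  by_cases hab : a = b
  · obtain ⟨y, ⟨v, hv, hvy⟩, hya⟩ := hM.exists_ne a
    obtain ⟨i, hi, -, his, -, -⟩ := exists_middle hS hs hv ⟨hs2, ha⟩ hvy hya.symm
    obtain ⟨k, hk, -, hkv, -, -⟩ := exists_middle hS hv ht hvy ⟨ht2, hb⟩ (hab ▸ hya)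
    exact ⟨k * i, mul_mem hk hi, by rw [← hkv, ← his, mul_inv_rev]; simp [mul_assoc]⟩
  · obtain ⟨i, hi, -, his, -, -⟩ := exists_middle hS hs ht ⟨hs2, ha⟩ ⟨ht2, hb⟩ hab
    exact ⟨i, hi, his⟩

theorem exists_commuting [Finite G] (hS : Setting G Ω) {M : Subgroup G} (hM : Rich Ω M) {t : G}
    {c : Ω} (ht : t ∈ M) (htc : InvAt t c) :
    ∃ e ∈ M, InvAt e c ∧ e ≠ t ∧ Commute t e := by
  obtain ⟨⟨s, hs, s', hs', hs2, hs2', hne, hcomm⟩, hap⟩ := hM
  obtain ⟨g, hg, hgs⟩ := conj_class hS hap hs ht hs2 htc.1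
  have h1 : Commute t (g * s' * g⁻¹) := by
    rw [← hgs]; exact (Commute.map hcomm (MulAut.conj g).toMonoidHom : _)
  obtain ⟨x, hx⟩ := hS.exists_fix (g * s' * g⁻¹) (by rw [H28.orderOf_conj_eq, hs2'])
  have he : InvAt (g * s' * g⁻¹) x := ⟨by rw [H28.orderOf_conj_eq, hs2'], hx⟩
  refine ⟨g * s' * g⁻¹, mul_mem (mul_mem hg hs') (inv_mem hg),
    (apex_eq_of_commute hS htc he h1) ▸ he, ?_, h1⟩
  rw [← hgs]; simpa using hne.symm

theorem four_le_stabilizer [Finite G] (hS : Setting G Ω) {t e : G} {c : Ω} (ht : InvAt t c)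
    (he : InvAt e c) (hne : e ≠ t) (hc : Commute t e) {O : Subgroup G} (hO : Odd (Nat.card O))
    (htO : t ∈ normalizer (O : Set G)) (heO : e ∈ normalizer (O : Set G)) :
    ∀ g ∈ O, g • c = c := by
  have htt := H28.mul_self_of_orderOf_two ht.1
  have hee := H28.mul_self_of_orderOf_two he.1
  have hte : InvAt (t * e) c := by
    refine ⟨H28.orderOf_two_of_mul_self ?_ ?_, by rw [mul_smul, he.2, ht.2]⟩
    · rw [mul_assoc, ← mul_assoc e t e, ← hc.eq, mul_assoc t e e, hee, mul_one, htt]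
    · intro h; exact hne (by rw [← inv_eq_of_mul_eq_one_right h, H28.inv_eq_self_of_orderOf_two ht.1])
  have hle := H48.four_group_generation (X := O) htt (fun x hx => conj_mem_of_mem_normalizer htO hx)
    hee hc.eq (fun x hx => conj_mem_of_mem_normalizer heO hx) hO
  have hst : O ≤ MulAction.stabilizer G c := by
    refine hle.trans (sup_le (sup_le ?_ ?_) ?_) <;> rintro g ⟨-, hg⟩ <;>
      rw [MulAction.mem_stabilizer_iff]
    · exact fix_of_commute hS ht (mem_centralizer_singleton_iff.1 hg).symm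
    · exact fix_of_commute hS he (mem_centralizer_singleton_iff.1 hg).symm
    · exact fix_of_commute hS hte (mem_centralizer_singleton_iff.1 hg).symm
  exact fun g hg => hst hg

theorem rich_le_fixTo [Finite G] (hS : Setting G Ω) {N : Subgroup G} (hN : Rich Ω N)
    {O : Subgroup G} (hO : Odd (Nat.card O)) (hn : N ≤ normalizer (O : Set G)) :
    O ≤ fixTo (apexSet N : Set Ω) := by
  intro g hg x hx
  obtain ⟨t, ht, htx⟩ := hx
  obtain ⟨e, he, hex, hne, hc⟩ := exists_commuting hS hN ht htx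
  exact four_le_stabilizer hS htx hex hne hc hO (hn ht) (hn he) g hg

theorem odd_card_of_fix [Finite G] (hS : Setting G Ω) {D : Subgroup G} {a b : Ω} (hab : a ≠ b)
    (ha : ∀ g ∈ D, g • a = a) (hb : ∀ g ∈ D, g • b = b) : Odd (Nat.card D) := by
  by_contra h
  obtain ⟨t, ht, ht2⟩ := exists_involution_of_not_odd h
  exact hab (hS.fix_unique t ht2 a b (ha t ht) (hb t ht))

theorem pairStab_odd [Finite G] (hS : Setting G Ω) {a b : Ω} (hab : a ≠ b) :
    Odd (Nat.card (pairStab (G := G) a b)) :=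
  odd_card_of_fix hS hab (fun _ hg => hg.1) (fun _ hg => hg.2)

theorem swap_mem_normalizer [Finite G] {a b : Ω} {w : G} (hw : w • a = b) (hw' : w • b = a) :
    w ∈ normalizer (pairStab (G := G) a b : Set G) := by
  refine mem_normalizer_of_conj_mem fun x hx => ?_
  obtain ⟨hxa, hxb⟩ := mem_pairStab.1 hx
  rw [mem_pairStab]
  constructor
  · rw [mul_smul, mul_smul, show w⁻¹ • a = b from inv_smul_eq_iff.2 hw'.symm, hxb, hw']
  · rw [mul_smul, mul_smul, show w⁻¹ • b = a from inv_smul_eq_iff.2 hw.symm, hxa, hw]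

theorem setStab_normalizes_fixTo {Λ : Set Ω} :
    setStab Λ ≤ normalizer (fixTo (G := G) Λ : Set G) := by
  intro g hg
  have key : ∀ k ∈ setStab (G := G) Λ, ∀ x ∈ fixTo (G := G) Λ, k * x * k⁻¹ ∈ fixTo (G := G) Λ := by
    intro k hk x hx y hy
    have h1 : k⁻¹ • y ∈ Λ := ((inv_mem hk : k⁻¹ ∈ setStab (G := G) Λ) y).2 hy
    rw [mul_smul, mul_smul, hx _ h1, smul_inv_smul]
  rw [mem_normalizer_iff]
  refine fun x => ⟨key g hg x, fun hx => ?_⟩
  simpa [mul_assoc] using key g⁻¹ (inv_mem hg) _ hx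

theorem fixTo_le_setStab {Λ : Set Ω} : fixTo (G := G) Λ ≤ setStab Λ := by
  intro g hg x
  refine ⟨fun h => ?_, fun h => by rwa [hg x h]⟩
  have := hg _ h
  rwa [smul_left_cancel g this] at h

theorem fixTo_anti {Λ Λ' : Set Ω} (h : Λ ⊆ Λ') : fixTo (G := G) Λ' ≤ fixTo Λ :=
  fun _ hg x hx => hg x (h hx)

theorem le_setStab_apexSet {N : Subgroup G} : N ≤ setStab (apexSet N : Set Ω) := by
  intro g hg x
  constructor
  · rintro ⟨t, ht, htx⟩
    have := invAt_conj htx g⁻¹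
    rw [inv_smul_smul] at this
    exact ⟨_, mul_mem (mul_mem (inv_mem hg) ht) (inv_mem (inv_mem hg)), this⟩
  · rintro ⟨t, ht, htx⟩
    exact ⟨_, mul_mem (mul_mem hg ht) (inv_mem hg), invAt_conj htx g⟩

theorem sum_even_of_no_fix {S : Finset Ω} {f : Ω → Ω} (hmem : ∀ x ∈ S, f x ∈ S)
    (hinv : ∀ x, f (f x) = x) (hne : ∀ x ∈ S, f x ≠ x) : Even S.card := by
  have h : ∑ _x ∈ S, (1 : ZMod 2) = 0 :=
    Finset.sum_involution (fun x _ => f x) (fun _ _ => by decide) (fun x hx _ => hne x hx)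
      hmem (fun x _ => hinv x)
  rw [Finset.sum_const, nsmul_eq_mul, mul_one] at h
  exact (ZMod.natCast_eq_zero_iff_even).1 h

theorem apex_mem_of_mem_setStab [Finite Ω] (hS : Setting G Ω) {Λ : Set Ω} {t : G} {a : Ω}
    (ht : InvAt t a) (hts : t ∈ setStab Λ) {s : G} {c : Ω} (hs : InvAt s c)
    (hss : s ∈ setStab Λ) (hc : c ∈ Λ) : a ∈ Λ := by
  classical
  by_contra ha
  have hinv : ∀ {t : G}, orderOf t = 2 → ∀ x : Ω, t • t • x = x := fun {t} h x => by
    rw [← mul_smul, H28.mul_self_of_orderOf_two h, one_smul]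
  have hmem : ∀ {t : G}, t ∈ setStab Λ → ∀ x ∈ (Set.toFinite Λ).toFinset,
      t • x ∈ (Set.toFinite Λ).toFinset := fun {t} ht x hx => by
    rw [Set.Finite.mem_toFinset] at hx ⊢; exact (ht x).2 hx
  have h1 : Even (Set.toFinite Λ).toFinset.card :=
    sum_even_of_no_fix (f := (t • ·)) (hmem hts) (hinv ht.1) fun x hx h => ha (by
      rw [← invAt_unique hS ht h]; exact (Set.Finite.mem_toFinset _).1 hx)
  have h2 : Even ((Set.toFinite Λ).toFinset.erase c).card :=
    sum_even_of_no_fix (f := (s • ·)) (fun x hx => by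
        rw [Finset.mem_erase] at hx ⊢
        refine ⟨fun h => hx.1 ?_, hmem hss x hx.2⟩
        have h3 := congrArg (s • ·) h
        simp only [hinv hs.1, hs.2] at h3; exact h3)
      (hinv hs.1) fun x hx h => (Finset.mem_erase.1 hx).1 (invAt_unique hS hs h)
  rw [Finset.card_erase_of_mem ((Set.Finite.mem_toFinset _).2 hc)] at h2
  have hpos : 0 < (Set.toFinite Λ).toFinset.card :=
    Finset.card_pos.2 ⟨c, (Set.Finite.mem_toFinset _).2 hc⟩
  obtain ⟨k, hk⟩ := h1; obtain ⟨l, hl⟩ := h2; omega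

theorem config_of_stab [Finite G] [Finite Ω] (hS : Setting G Ω) {N : Subgroup G} {Λ : Set Ω}
    (hN : Rich Ω N) (hap : apexSet N = Λ) (hfix : fixTo (G := G) Λ ≠ ⊥) :
    Config (setStab (G := G) Λ) Λ ∧ N ≤ setStab Λ := by
  have hle : N ≤ setStab Λ := hap ▸ le_setStab_apexSet
  have hap' : (apexSet (setStab (G := G) Λ) : Set Ω) = Λ := by
    refine Set.Subset.antisymm ?_ fun x hx => ?_
    · rintro x ⟨t, ht, htx⟩
      obtain ⟨y, hy⟩ := hN.2.nonempty
      obtain ⟨s, hs, hsy⟩ := hy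
      exact apex_mem_of_mem_setStab hS htx ht hsy (hle hs) (hap ▸ ⟨s, hs, hsy⟩)
    · rw [← hap] at hx; obtain ⟨t, ht, htx⟩ := hx
      exact ⟨t, hle ht, htx⟩
  refine ⟨⟨⟨?_, ?_⟩, hap', rfl, fun htop => hfix ?_⟩, hle⟩
  · obtain ⟨s, hs, t, ht, h⟩ := hN.1
    exact ⟨s, hle hs, t, hle ht, h⟩
  · rw [hap', ← hap]; exact hN.2
  · rw [eq_bot_iff]
    intro g hg
    rw [mem_bot]
    refine hS.faithful g fun x => hg x ?_
    obtain ⟨y, hy⟩ := hN.2.nonempty
    obtain ⟨k, hk⟩ := hS.exists_smul y x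
    have : k ∈ setStab (G := G) Λ := htop ▸ mem_top k
    rw [← hk]; exact (this y).2 (hap ▸ hy)

/-! ### Configurations with a largest `J` -/

/-- A configuration together with the data of a largest nontrivial `J`. -/
structure JData (M : Subgroup G) (Λ : Set Ω) (u : G) (c z : Ω) : Prop where
  config : Config M Λ
  u_mem : u ∈ M
  z_mem : z ∈ Λ
  max : IsMaxJ u c z
  nontriv : 1 < (J u c z).ncard
  J_sub : J u c z ⊆ (M : Set G)

/-- The elements fixing all of `Λ` inverted by `t`. -/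
def invSet (Λ : Set Ω) (t : G) : Set G := {j | j ∈ fixTo (G := G) Λ ∧ t * j * t⁻¹ = j⁻¹}

/-- The primes of the fixer of `Λ` whose core is not centralised by the involutions of `M`. -/
def NC (M : Subgroup G) (Λ : Set Ω) (s : ℕ) : Prop :=
  s.Prime ∧ ∃ t ∈ M, orderOf t = 2 ∧ ∃ g ∈ Cfsg.pCoreOf s (fixTo (G := G) Λ), ¬ Commute t g

variable [Finite G] [Finite Ω] {M : Subgroup G} {Λ : Set Ω} {u : G} {c z : Ω}

theorem JData.c_mem (h : JData M Λ u c z) : c ∈ Λ := h.config.apex ▸ ⟨u, h.u_mem, h.max.1⟩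

theorem JData.le_norm (h : JData M Λ u c z) :
    M ≤ normalizer (fixTo (G := G) Λ : Set G) := by
  conv_lhs => rw [← h.config.stab]
  exact setStab_normalizes_fixTo

theorem JData.fix_le (h : JData M Λ u c z) : fixTo (G := G) Λ ≤ M := by
  conv_rhs => rw [← h.config.stab]
  exact fixTo_le_setStab

theorem JData.fix_odd (hS : Setting G Ω) (h : JData M Λ u c z) :
    Odd (Nat.card (fixTo (G := G) Λ)) :=
  odd_card_of_fix hS h.max.2.1.symm (fun _ hg => hg c h.c_mem) (fun _ hg => hg z h.z_mem)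

theorem JData.class_conj (hS : Setting G Ω) (h : JData M Λ u c z) {s t : G} (hs : s ∈ M)
    (ht : t ∈ M) (hs2 : orderOf s = 2) (ht2 : orderOf t = 2) : ∃ g ∈ M, g * s * g⁻¹ = t :=
  conj_class hS h.config.rich.2 hs ht hs2 ht2

theorem JData.invSet_self (hS : Setting G Ω) (hIH : IH.{u} (Nat.card G))
    (h : JData M Λ u c z) : invSet Λ u = J u c z := by
  refine Set.Subset.antisymm ?_ ?_
  · rintro j ⟨hj, hji⟩; exact ⟨hj c h.c_mem, hj z h.z_mem, hji⟩
  · intro j hj
    refine ⟨?_, hj.2.2⟩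
    have := mem_fixTo_of_mem_J hS hIH h.config.rich h.config.proper h.u_mem h.max.1
      (h.config.apex.symm ▸ h.z_mem) h.max.2.1 (h.J_sub hj) hj
    rwa [h.config.apex] at this

theorem JData.J_eq (hS : Setting G Ω) (hIH : IH.{u} (Nat.card G)) (h : JData M Λ u c z) {t : G}
    {x y : Ω} (ht : t ∈ M) (htx : InvAt t x) (hy : y ∈ Λ) (hyx : y ≠ x) :
    invSet Λ t = J t x y := by
  have hxΛ : x ∈ Λ := h.config.apex ▸ ⟨t, ht, htx⟩
  have hsub : invSet Λ t ⊆ J t x y := fun j hj => ⟨hj.1 x hxΛ, hj.1 y hy, hj.2⟩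
  refine Set.eq_of_subset_of_ncard_le hsub ?_ (Set.toFinite _)
  refine (h.max.2.2 t x y htx hyx).trans (le_of_eq ?_)
  obtain ⟨g, hg, hgu⟩ := h.class_conj hS h.u_mem ht h.max.1.1 htx.1
  have himg : invSet Λ t = (fun j => g * j * g⁻¹) '' J u c z := by
    rw [← h.invSet_self hS hIH, ← hgu]
    ext j
    constructor
    · rintro ⟨hj, hji⟩
      refine ⟨g⁻¹ * j * g, ⟨by simpa using conj_mem_of_mem_normalizer (h.le_norm (inv_mem hg)) hj, ?_⟩, by simp [mul_assoc]⟩
      rw [← inv_inj] at hji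
      calc u * (g⁻¹ * j * g) * u⁻¹ = g⁻¹ * (g * u * g⁻¹ * j * (g * u * g⁻¹)⁻¹) * g := by group
        _ = (g⁻¹ * j * g)⁻¹ := by rw [inv_inv] at hji; rw [← inv_inv (_ * j * _), hji]; group
    · rintro ⟨i, ⟨hi, hii⟩, rfl⟩
      refine ⟨conj_mem_of_mem_normalizer (h.le_norm hg) hi, ?_⟩
      calc g * u * g⁻¹ * (g * i * g⁻¹) * (g * u * g⁻¹)⁻¹ = g * (u * i * u⁻¹) * g⁻¹ := by group
        _ = (g * i * g⁻¹)⁻¹ := by rw [hii]; group
  rw [himg, Set.ncard_image_of_injective _ (fun a b hab => by simpa using hab)]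

theorem JData.nc_all (hS : Setting G Ω) (h : JData M Λ u c z) {s : ℕ} (hs : NC M Λ s) {t : G}
    (ht : t ∈ M) (ht2 : orderOf t = 2) :
    ∃ g ∈ Cfsg.pCoreOf s (fixTo (G := G) Λ), ¬ Commute t g := by
  obtain ⟨-, t₀, ht₀, ht₀2, g, hg, hnc⟩ := hs
  obtain ⟨k, hk, hkt⟩ := h.class_conj hS ht₀ ht ht₀2 ht2
  refine ⟨k * g * k⁻¹, conj_mem_of_mem_normalizer (mem_normalizer_pCoreOf (h.le_norm hk) s) hg,
    fun hc => hnc ?_⟩
  rw [← hkt] at hc
  exact Commute.of_map (f := (MulAut.conj k).toMonoidHom) (MulAut.conj k).injective hc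

theorem JData.normalizer_K (hS : Setting G Ω) (h : JData M Λ u c z) {t : G} (ht : t ∈ M)
    (ht2 : orderOf t = 2) :
    fixTo (G := G) Λ ≤ normalizer (closure (invSet Λ t) : Set G) :=
  le_normalizer_closure_inverted ht2 (h.fix_odd hS) (h.le_norm ht)

theorem JData.nc_iff (hS : Setting G Ω) (h : JData M Λ u c z) {t : G} (ht : t ∈ M)
    (ht2 : orderOf t = 2) (s : ℕ) :
    NC M Λ s ↔ s.Prime ∧ ∃ g ∈ Cfsg.pCoreOf s (closure (invSet Λ t)), ¬ Commute t g := by
  have hKY : closure (invSet Λ t) ≤ fixTo (G := G) Λ := (closure_le _).2 fun _ hx => hx.1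
  constructor
  · intro hs
    refine ⟨hs.1, ?_⟩
    obtain ⟨g, hg, hnc⟩ := h.nc_all hS hs ht ht2
    set P := Cfsg.pCoreOf s (fixTo (G := G) Λ) with hP
    have hPY : P ≤ fixTo (G := G) Λ := H72.pCoreOf_le _ _
    have hPodd := odd_card_of_le hPY (h.fix_odd hS)
    obtain ⟨f, -, i, hiP, hf, hi, rfl⟩ := exists_fixed_mul_inverted ht2 hPodd
      (mem_normalizer_pCoreOf (h.le_norm ht) s) hg
    have hiK : i ∈ closure (invSet Λ t) := subset_closure ⟨hPY hiP, hi⟩
    refine ⟨i, H72.le_pCoreOf (N := P ⊓ closure (invSet Λ t)) inf_le_right ?_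
      ((H72.pCoreOf_isPGroup s _).to_le inf_le_left) ⟨hiP, hiK⟩, fun hc => hnc ?_⟩
    · exact fun k hk => mem_normalizer_inf
        (mem_normalizer_pCoreOf (Subgroup.le_normalizer (hKY hk)) s) (Subgroup.le_normalizer hk)
    · rw [eq_one_of_inverted_of_commute (odd_orderOf_of_mem hPodd hiP) hi hc, mul_one]
      exact commute_of_conj_eq hf
  · rintro ⟨hs, g, hg, hnc⟩
    exact ⟨hs, t, ht, ht2, g, pCoreOf_le_pCoreOf hKY (h.normalizer_K hS ht ht2) s hg, hnc⟩

theorem JData.nc_congr (hS : Setting G Ω) (hIH : IH.{u} (Nat.card G)) (h : JData M Λ u c z)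
    {M' : Subgroup G} {Λ' : Set Ω} (h' : JData M' Λ' u c z) (s : ℕ) :
    NC M Λ s ↔ NC M' Λ' s := by
  rw [h.nc_iff hS h.u_mem h.max.1.1, h'.nc_iff hS h'.u_mem h.max.1.1, h.invSet_self hS hIH,
    h'.invSet_self hS hIH]

theorem JData.exists_nc (hS : Setting G Ω) (hIH : IH.{u} (Nat.card G)) (h : JData M Λ u c z) :
    ∃ s, NC M Λ s := by
  by_contra hno
  push Not at hno
  obtain ⟨j, hj, hj1⟩ : ∃ j ∈ J u c z, j ≠ 1 := by
    by_contra hall
    push Not at hall
    have : (J u c z).ncard ≤ ({1} : Set G).ncard := Set.ncard_le_ncard (fun j hj => hall j hj)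
    rw [Set.ncard_singleton] at this
    have := h.nontriv; omega
  rw [← h.invSet_self hS hIH] at hj
  have hfix : u * j * u⁻¹ = j := by
    refine fixes_of_fixes_pCoreOf h.max.1.1 (h.fix_odd hS) (h.le_norm h.u_mem) ?_ j hj.1
    intro s hs y hy
    have hc : Commute u y := by
      by_contra hc; exact hno s ⟨hs, u, h.u_mem, h.max.1.1, y, hy, hc⟩
    rw [hc.eq, mul_inv_cancel_right]
  exact hj1 (eq_one_of_inv_eq (odd_orderOf_of_mem (h.fix_odd hS) hj.1) (by rw [← hj.2, hfix]))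

theorem JData.derived (hS : Setting G Ω) (h : JData M Λ u c z) {Q : Subgroup G}
    (hQ : Q ≤ fixTo (G := G) Λ) (hQ1 : Q ≠ ⊥) (hn : M ≤ normalizer (Q : Set G)) :
    ∃ (M' : Subgroup G) (Λ' : Set Ω), JData M' Λ' u c z ∧ Λ ⊆ Λ' ∧
      normalizer (Q : Set G) ≤ M' := by
  set N := normalizer (Q : Set G) with hNdef
  have hsub : Λ ⊆ (apexSet N : Set Ω) := fun x hx => by
    rw [← h.config.apex] at hx
    obtain ⟨t, ht, htx⟩ := hx
    exact ⟨t, hn ht, htx⟩
  have hrich : Rich Ω N := by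
    obtain ⟨s, hs, t, ht, hst⟩ := h.config.rich.1
    exact ⟨⟨s, hn hs, t, hn ht, hst⟩, (h.config.apex ▸ h.config.rich.2).mono hsub⟩
  have hQN : Q ≤ fixTo (apexSet N : Set Ω) :=
    rich_le_fixTo hS hrich (odd_card_of_le hQ (h.fix_odd hS)) le_rfl
  obtain ⟨hcfg, hle⟩ := config_of_stab hS hrich rfl (fun h0 => hQ1 (eq_bot_iff.2 (h0 ▸ hQN)))
  exact ⟨_, _, ⟨hcfg, hle (hn h.u_mem), hsub h.z_mem, h.max, h.nontriv,
    fun j hj => hle (hn (h.J_sub hj))⟩, hsub, hle⟩

theorem JData.mem_fix_of_centralizes (hS : Setting G Ω) (h : JData M Λ u c z) {s : ℕ}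
    (hs : NC M Λ s) {a : G} (ha : a ∈ M)
    (hc : ∀ g ∈ Cfsg.pCoreOf s (fixTo (G := G) Λ), Commute a g) : a ∈ fixTo (G := G) Λ := by
  set P := Cfsg.pCoreOf s (fixTo (G := G) Λ) with hP
  set C := centralizer (P : Set G) ⊓ M with hC
  have hCodd : Odd (Nat.card C) := by
    by_contra hev
    obtain ⟨t, ht, ht2⟩ := exists_involution_of_not_odd hev
    obtain ⟨g, hg, hnc⟩ := h.nc_all hS hs ht.2 ht2
    exact hnc (mem_centralizer_iff.1 ht.1 g hg).symm
  have hn : M ≤ normalizer (C : Set G) := by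
    intro k hk
    refine mem_normalizer_inf (mem_normalizer_of_conj_mem fun x hx =>
      mem_centralizer_iff.2 fun g hg => ?_) (Subgroup.le_normalizer hk)
    have hg' : k⁻¹ * g * k ∈ P := by
      simpa using conj_mem_of_mem_normalizer
        (mem_normalizer_pCoreOf (h.le_norm (inv_mem hk)) s) hg
    have hcomm := mem_centralizer_iff.1 hx _ hg'
    calc g * (k * x * k⁻¹) = k * ((k⁻¹ * g * k) * x) * k⁻¹ := by group
      _ = k * (x * (k⁻¹ * g * k)) * k⁻¹ := by rw [hcomm]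
      _ = k * x * k⁻¹ * g := by group
  have := rich_le_fixTo hS h.config.rich hCodd hn
    (show a ∈ C from ⟨mem_centralizer_iff.2 fun g hg => (hc g hg).eq.symm, ha⟩)
  rwa [h.config.apex] at this

/-! ### The analysis of the cores of two-point stabilisers -/

theorem mem_core_fix {x y : Ω} (hxΛ : x ∈ Λ) (hyΛ : y ∈ Λ) :
    fixTo (G := G) Λ ≤ pairStab x y :=
  fun _ hg => mem_pairStab.2 ⟨hg x hxΛ, hg y hyΛ⟩

theorem JData.core_fix_trivial (hS : Setting G Ω) (hIH : IH.{u} (Nat.card G))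
    (h : JData M Λ u c z) {x y : Ω} (hx : x ∈ Λ) (hy : y ∈ Λ) {r q : ℕ} (hr : r.Prime)
    (hq : NC M Λ q) (hqr : q ≠ r)
    (hA : ¬ Cfsg.pCoreOf r (pairStab (G := G) x y) ≤ fixTo Λ) :
    Cfsg.pCoreOf r (fixTo (G := G) Λ) = ⊥ := by
  haveI := Fact.mk hr
  by_contra hQ1
  set X := pairStab (G := G) x y
  set A := Cfsg.pCoreOf r X with hAdef
  set Q := Cfsg.pCoreOf r (fixTo (G := G) Λ) with hQdef
  have hYX : fixTo (G := G) Λ ≤ X := mem_core_fix hx hy
  have hQY : Q ≤ fixTo (G := G) Λ := H72.pCoreOf_le _ _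
  have hn : Q ≤ normalizer (A : Set G) :=
    hQY.trans (hYX.trans (H72.le_normalizer_pCoreOf r X))
  have hP : IsPGroup r ↥(A ⊔ Q) :=
    IsPGroup.to_sup_of_normal_left' (H72.pCoreOf_isPGroup r X) (H72.pCoreOf_isPGroup r _) hn
  have hne : Q ≠ A ⊔ Q := fun he => hA ((le_sup_left.trans he.ge).trans hQY)
  obtain ⟨g, hg, hgQ, hgn⟩ := H28.exists_mem_normalizer_not_mem hP le_sup_right hne
  obtain ⟨a, ha, b, hb, rfl⟩ : ∃ a ∈ A, ∃ b ∈ Q, a * b = g := by
    have : g ∈ ((A ⊔ Q : Subgroup G) : Set G) := hg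
    rw [Subgroup.coe_mul_of_right_le_normalizer_left A Q hn] at this
    exact this
  have han : a ∈ normalizer (Q : Set G) := by
    have := mul_mem hgn (inv_mem (Subgroup.le_normalizer hb))
    simpa [mul_assoc] using this
  have haQ : a ∉ Q := fun h' => hgQ (mul_mem h' hb)
  have haY : a ∉ fixTo (G := G) Λ := by
    intro h'
    refine haQ (H72.le_pCoreOf (N := A ⊓ fixTo (G := G) Λ) inf_le_right ?_
      ((H72.pCoreOf_isPGroup r X).to_le inf_le_left) ⟨ha, h'⟩)
    exact fun k hk => mem_normalizer_inf (H72.le_normalizer_pCoreOf r X (hYX hk))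
      (Subgroup.le_normalizer hk)
  obtain ⟨M', Λ', h', hsub, hNM⟩ := h.derived hS hQY hQ1
    (fun k hk => mem_normalizer_pCoreOf (h.le_norm hk) r)
  have haM' := hNM han
  refine haY (fixTo_anti hsub (h'.mem_fix_of_centralizes hS
    ((h.nc_congr hS hIH h' q).1 hq) haM' fun g hg => ?_))
  have hgX : g ∈ X := hYX (fixTo_anti hsub (H72.pCoreOf_le _ _ hg))
  have h1 : a * g * a⁻¹ * g⁻¹ ∈ A := by
    have := mul_mem ha (conj_mem_of_mem_normalizer (H72.le_normalizer_pCoreOf r X hgX) (inv_mem ha))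
    simpa [mul_assoc] using this
  have h2 : a * g * a⁻¹ * g⁻¹ ∈ Cfsg.pCoreOf q (fixTo (G := G) Λ') :=
    mul_mem (conj_mem_of_mem_normalizer (mem_normalizer_pCoreOf (h'.le_norm haM') q) hg)
      (inv_mem hg)
  have h3 := eq_one_of_isPGroup_of_dvd hr hq.1 (Ne.symm hqr) (H72.pCoreOf_isPGroup r X)
    (H72.pCoreOf_isPGroup q _) h1 h2
  rw [mul_inv_eq_one, mul_inv_eq_iff_eq_mul] at h3
  exact h3

theorem JData.core_excluded (hS : Setting G Ω) (hIH : IH.{u} (Nat.card G))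
    (h : JData M Λ u c z) {x y d : Ω} (hx : x ∈ Λ) (hy : y ∈ Λ) (hxy : x ≠ y) {w : G}
    (hw : w ∈ M) (hwd : InvAt w d) (hwx : w • x = y) {r q : ℕ} (hr : r.Prime)
    (hq : NC M Λ q) (hqr : q ≠ r)
    (hA : ¬ Cfsg.pCoreOf r (pairStab (G := G) x y) ≤ fixTo Λ) :
    ∀ a ∈ Cfsg.pCoreOf r (pairStab (G := G) x y), a • d = d ∧ Commute w a := by
  haveI := Fact.mk hr
  haveI := Fact.mk hq.1
  have hO := h.core_fix_trivial hS hIH hx hy hr hq hqr hA
  set X := pairStab (G := G) x y with hX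
  set A := Cfsg.pCoreOf r X with hAdef
  set Y := fixTo (G := G) Λ with hYdef
  have hYX : Y ≤ X := mem_core_fix hx hy
  have hwy : w • y = x := by
    rw [← hwx, ← mul_smul, H28.mul_self_of_orderOf_two hwd.1, one_smul]
  have hwX : w ∈ normalizer (X : Set G) := swap_mem_normalizer hwx hwy
  have hdΛ : d ∈ Λ := h.config.apex ▸ ⟨w, hw, hwd⟩
  have hxd : x ≠ d := fun e => hxy (by rw [← hwx, e, hwd.2])
  have hXodd : Odd (Nat.card X) := pairStab_odd hS hxy
  have hAodd := odd_card_of_le (H72.pCoreOf_le r X) hXodd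
  have hwA : w ∈ normalizer (A : Set G) := mem_normalizer_pCoreOf hwX r
  have hYA : Y ≤ normalizer (A : Set G) := hYX.trans (H72.le_normalizer_pCoreOf r X)
  have hAY : ∀ a ∈ A, a ∈ Y → a = 1 := by
    intro a ha ha'
    have : a ∈ Cfsg.pCoreOf r Y := by
      refine H72.le_pCoreOf (N := A ⊓ Y) inf_le_right ?_
        ((H72.pCoreOf_isPGroup r X).to_le inf_le_left) ⟨ha, ha'⟩
      exact fun k hk => mem_normalizer_inf (hYA hk) (Subgroup.le_normalizer hk)
    rw [hO] at this; exact mem_bot.1 this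
  set A₀ := A ⊓ MulAction.stabilizer G d with hA₀
  have hstab : ∀ {k : G}, k • d = d → k ∈ normalizer (A : Set G) →
      k ∈ normalizer (A₀ : Set G) := fun {k} hkd hkA =>
    mem_normalizer_inf hkA (Subgroup.le_normalizer (MulAction.mem_stabilizer_iff.2 hkd))
  have hAd : A ≤ MulAction.stabilizer G d := by
    by_contra hAd
    have hne : A₀ ≠ A := fun e => hAd (e ▸ inf_le_right)
    obtain ⟨a, haA, haA₀, han⟩ := H28.exists_mem_normalizer_not_mem
      (H72.pCoreOf_isPGroup r X) inf_le_left hne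
    set A₁ := A ⊓ normalizer (A₀ : Set G) with hA₁
    have hstab₁ : ∀ {k : G}, k • d = d → k ∈ normalizer (A : Set G) →
        k ∈ normalizer (A₁ : Set G) := fun {k} hkd hkA =>
      mem_normalizer_inf hkA (Subgroup.le_normalizer (hstab hkd hkA))
    have hsec : ∀ b ∈ A₁, w * b * w⁻¹ * b ∈ A₀ := by
      intro b hb
      obtain ⟨f, hf, i, hi, hwf, hwi, rfl⟩ := exists_fixed_mul_inverted hwd.1
        (odd_card_of_le inf_le_left hAodd) (hstab₁ hwd.2 hwA) hb
      have hfA₀ : f ∈ A₀ := ⟨hf.1, fix_of_commute hS hwd (commute_of_conj_eq hwf)⟩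
      have he : w * (f * i) * w⁻¹ * (f * i) = f * (i⁻¹ * f * i) := by
        calc w * (f * i) * w⁻¹ * (f * i) = (w * f * w⁻¹) * (w * i * w⁻¹) * (f * i) := by group
          _ = f * (i⁻¹ * f * i) := by rw [hwf, hwi]; group
      rw [he]
      exact mul_mem hfA₀ (by simpa using conj_mem_of_mem_normalizer (inv_mem hi.2) hfA₀)
    set K := closure (invSet Λ w) with hK
    have hKY : K ≤ Y := (closure_le _).2 fun _ hk => hk.1
    have hKd : ∀ k ∈ K, k • d = d ∧ k ∈ normalizer (A : Set G) := fun k hk =>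
      ⟨hKY hk d hdΛ, hYA (hKY hk)⟩
    have hcent : ∀ k ∈ K, ∀ b ∈ A₁, b⁻¹ * (k * b * k⁻¹) ∈ A₀ := by
      intro k hk
      induction hk using closure_induction with
      | mem k hk =>
        exact inverted_centralizes_section hk.2
          (odd_orderOf_of_mem (h.fix_odd hS) hk.1)
          (hstab₁ (hk.1 d hdΛ) (hYA hk.1)) (hstab (hk.1 d hdΛ) (hYA hk.1)) hsec
      | one => intro b hb; simp
      | mul k l hk hl ihk ihl =>
        intro b hb
        have h1 := ihl b hb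
        have h2 := ihk b hb
        have h3 := conj_mem_of_mem_normalizer (hstab (hKd k hk).1 (hKd k hk).2) h1
        have : b⁻¹ * (k * l * b * (k * l)⁻¹) =
            (b⁻¹ * (k * b * k⁻¹)) * (k * (b⁻¹ * (l * b * l⁻¹)) * k⁻¹) := by group
        rw [this]; exact mul_mem h2 h3
      | inv k hk ihk =>
        intro b hb
        have hkd := hKd k hk
        have hb' : k⁻¹ * b * k ∈ A₁ := by
          simpa using conj_mem_of_mem_normalizer
            (inv_mem (hstab₁ hkd.1 hkd.2)) hb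
        have h1 := ihk _ hb'
        rw [inv_inv]
        have h4 : b⁻¹ * (k⁻¹ * b * k) = ((k⁻¹ * b * k)⁻¹ * (k * (k⁻¹ * b * k) * k⁻¹))⁻¹ := by group
        rw [h4]; exact inv_mem h1
    obtain ⟨hq', g, hgΦ, hnc⟩ := (h.nc_iff hS hw hwd.1 q).1 hq
    set Φ := Cfsg.pCoreOf q K with hΦ
    have hΦK : Φ ≤ K := H72.pCoreOf_le q K
    have hqA : ¬ q ∣ Nat.card A₀ := by
      obtain ⟨n, hn⟩ := IsPGroup.iff_card.1 ((H72.pCoreOf_isPGroup r X).to_le (inf_le_left : A₀ ≤ A))
      rw [hn]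
      intro hd
      exact hqr ((Nat.prime_dvd_prime_iff_eq hq' hr).1 (hq'.dvd_of_dvd_pow hd))
    obtain ⟨a', ha', hfix⟩ := exists_fixed_in_section (H72.pCoreOf_isPGroup q K)
      (fun k hk => hstab (hKd k (hΦK hk)).1 (hKd k (hΦK hk)).2) hqA
      (fun k hk => hcent k (hΦK hk) a ⟨haA, han⟩)
    have ha'A : a' ∈ A := by simpa using mul_mem haA ha'.1
    have ha'd : a' • d ≠ d := by
      intro e
      refine haA₀ ⟨haA, ?_⟩
      have := mul_mem (MulAction.mem_stabilizer_iff.2 e) (inv_mem ha'.2)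
      simpa using this
    have hwK : w ∈ normalizer (K : Set G) := by
      refine mem_normalizer_of_conj_mem fun k hk => ?_
      induction hk using closure_induction with
      | mem k hk =>
        refine subset_closure ⟨conj_mem_of_mem_normalizer (h.le_norm hw) hk.1, ?_⟩
        rw [hk.2, inv_inv]
        have h1 := congrArg (·⁻¹) hk.2
        simpa [mul_assoc] using h1
      | one => simp
      | mul k l _ _ ihk ihl =>
        have : w * (k * l) * w⁻¹ = (w * k * w⁻¹) * (w * l * w⁻¹) := by group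
        rw [this]; exact mul_mem ihk ihl
      | inv k _ ihk =>
        have : w * k⁻¹ * w⁻¹ = (w * k * w⁻¹)⁻¹ := by group
        rw [this]; exact inv_mem ihk
    have hwΦ : w ∈ normalizer (Φ : Set G) := mem_normalizer_pCoreOf hwK q
    set CΦ := centralizer (Φ : Set G) with hCΦ
    have haΦ : a' ∈ CΦ := mem_centralizer_iff.2 fun k hk => (commute_of_conj_eq (hfix k hk)).eq
    have hnormC : ∀ {k : G}, k ∈ normalizer (Φ : Set G) → k ∈ normalizer (CΦ : Set G) :=
      fun {k} hk => mem_normalizer_of_conj_mem fun v hv => mem_centralizer_iff.2 fun i hi => by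
        have hi' : k⁻¹ * i * k ∈ Φ := by simpa using conj_mem_of_mem_normalizer (inv_mem hk) hi
        have hcomm := mem_centralizer_iff.1 hv _ hi'
        calc i * (k * v * k⁻¹) = k * ((k⁻¹ * i * k) * v) * k⁻¹ := by group
          _ = k * (v * (k⁻¹ * i * k)) * k⁻¹ := by rw [hcomm]
          _ = k * v * k⁻¹ * i := by group
    have hCN : CΦ ≤ normalizer (Φ : Set G) := centralizer_le_normalizer _
    have hCodd : Odd (Nat.card CΦ) := by
      by_contra hev
      obtain ⟨t, ht, ht2⟩ := exists_involution_of_not_odd hev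
      have hap : (apexSet (normalizer (Φ : Set G)) : Set Ω).Nontrivial :=
        ⟨d, ⟨w, hwΦ, hwd⟩, a' • d, ⟨a' * w * a'⁻¹,
          mul_mem (mul_mem (hCN haΦ) hwΦ) (inv_mem (hCN haΦ)), invAt_conj hwd a'⟩, Ne.symm ha'd⟩
      obtain ⟨k, hk, hkt⟩ := conj_class hS hap (hCN ht) hwΦ ht2 hwd.1
      have hwC : w ∈ CΦ := hkt ▸ conj_mem_of_mem_normalizer (hnormC hk) ht
      exact hnc (mem_centralizer_iff.1 hwC g hgΦ).symm
    obtain ⟨e, he, hed, hne, hcomm⟩ := exists_commuting hS h.config.rich hw hwd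
    have heK : e ∈ normalizer (K : Set G) := by
      refine mem_normalizer_of_conj_mem fun k hk => ?_
      induction hk using closure_induction with
      | mem k hk =>
        refine subset_closure ⟨conj_mem_of_mem_normalizer (h.le_norm he) hk.1, ?_⟩
        calc w * (e * k * e⁻¹) * w⁻¹ = (w * e) * k * (w * e)⁻¹ := by group
          _ = e * (w * k * w⁻¹) * e⁻¹ := by rw [hcomm.eq]; group
          _ = (e * k * e⁻¹)⁻¹ := by rw [hk.2]; group
      | one => simp
      | mul k l _ _ ihk ihl =>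
        have : e * (k * l) * e⁻¹ = (e * k * e⁻¹) * (e * l * e⁻¹) := by group
        rw [this]; exact mul_mem ihk ihl
      | inv k _ ihk =>
        have : e * k⁻¹ * e⁻¹ = (e * k * e⁻¹)⁻¹ := by group
        rw [this]; exact inv_mem ihk
    exact ha'd (four_le_stabilizer hS hwd hed hne hcomm hCodd (hnormC hwΦ)
      (hnormC (mem_normalizer_pCoreOf heK q)) a' haΦ)
  intro a ha
  refine ⟨hAd ha, ?_⟩
  obtain ⟨f, -, i, hi, hwf, hwi, rfl⟩ := exists_fixed_mul_inverted hwd.1 hAodd hwA ha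
  have hiJ : i ∈ J w d x := ⟨hAd hi, (H72.pCoreOf_le r X hi).1, hwi⟩
  rw [← h.J_eq hS hIH hw hwd hx hxd] at hiJ
  rw [hAY i hi hiJ.1, mul_one]
  exact commute_of_conj_eq hwf

theorem centralizer_core_fix (hS : Setting G Ω) {x y d : Ω} (hxy : x ≠ y) {w : G}
    (hwd : InvAt w d) (hwx : w • x = y) {Y : Subgroup G} (hYd : ∀ g ∈ Y, g • d = d)
    (hall : ∀ s : ℕ, s.Prime → Cfsg.pCoreOf s (pairStab (G := G) x y) ≤ Y ∨
      ∀ a ∈ Cfsg.pCoreOf s (pairStab (G := G) x y), Commute w a)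
    {g : G} (hg : g ∈ pairStab x y)
    (hcent : ∀ s : ℕ, s.Prime → Cfsg.pCoreOf s (pairStab (G := G) x y) ≤ Y →
      ∀ a ∈ Cfsg.pCoreOf s (pairStab (G := G) x y), Commute g a) : g • d = d := by
  set X := pairStab (G := G) x y with hX
  have hXodd : Odd (Nat.card X) := pairStab_odd hS hxy
  haveI : Group.IsSolvable X := S0205.result hXodd
  have hww := H28.mul_self_of_orderOf_two hwd.1
  have hwy : w • y = x := by rw [← hwx, ← mul_smul, hww, one_smul]
  have hwX : w ∈ normalizer (X : Set G) := swap_mem_normalizer hwx hwy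
  set e := g⁻¹ * (w * g * w⁻¹) with he
  have heX : e ∈ X := mul_mem (inv_mem hg) (conj_mem_of_mem_normalizer hwX hg)
  have hwinv : w⁻¹ = w := H28.inv_eq_self_of_orderOf_two hwd.1
  have hcore : ∀ s : ℕ, s.Prime → ∀ a ∈ Cfsg.pCoreOf s X, Commute e a := by
    intro s hs a ha
    have hga : g * a * g⁻¹ ∈ Cfsg.pCoreOf s X :=
      conj_mem_of_mem_normalizer (H72.le_normalizer_pCoreOf s X hg) ha
    have hwa : ∀ b ∈ Cfsg.pCoreOf s X, w * b * w⁻¹ ∈ Cfsg.pCoreOf s X := fun b hb =>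
      conj_mem_of_mem_normalizer (mem_normalizer_pCoreOf hwX s) hb
    apply commute_of_conj_eq
    rcases hall s hs with hsY | hsw
    · have h1 : g * (w * a * w⁻¹) * g⁻¹ = w * a * w⁻¹ := by
        rw [(hcent s hs hsY _ (hwa a ha)).eq, mul_inv_cancel_right]
      have h2 : g⁻¹ * a * g = a := by
        rw [mul_assoc, ← (hcent s hs hsY a ha).eq, inv_mul_cancel_left]
      calc e * a * e⁻¹ = g⁻¹ * (w * (g * (w⁻¹ * a * w) * g⁻¹) * w⁻¹) * g := by rw [he]; group
        _ = g⁻¹ * (w * (w * a * w⁻¹) * w⁻¹) * g := by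
          rw [← h1, hwinv]
        _ = g⁻¹ * a * g := by rw [hwinv]; simp [mul_assoc, hww]; rw [← mul_assoc w w, hww, one_mul]
        _ = a := h2
    · have h3 : w⁻¹ * a * w = a := by
        rw [mul_assoc, ← (hsw a ha).eq, inv_mul_cancel_left]
      have h4 : w * (g * a * g⁻¹) * w⁻¹ = g * a * g⁻¹ := by
        rw [(hsw _ hga).eq, mul_inv_cancel_right]
      calc e * a * e⁻¹ = g⁻¹ * (w * (g * (w⁻¹ * a * w) * g⁻¹) * w⁻¹) * g := by rw [he]; group
        _ = g⁻¹ * (g * a * g⁻¹) * g := by rw [h3, h4]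
        _ = a := by group
  have heF : (⟨e, heX⟩ : X) ∈ Cfsg.fittingSubgroup X := by
    apply H19.centralizer_fitting_le
    have hle : Cfsg.fittingSubgroup X ≤ centralizer {(⟨e, heX⟩ : X)} := by
      rw [H19.fitting_eq_iSup_pCore]
      refine iSup_le fun p v hv => mem_centralizer_singleton_iff.2 (Subtype.ext ?_)
      exact ((hcore p p.2 v ⟨v, hv, rfl⟩).eq).symm
    exact mem_centralizer_iff.2 fun v hv => (mem_centralizer_singleton_iff.1 (hle hv))
  classical
  set GY : Subgroup X :=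
    ⨆ p : {p : Nat.Primes // Cfsg.pCoreOf (p : ℕ) X ≤ Y}, Cfsg.pCore ((p : Nat.Primes) : ℕ) X
    with hGY
  haveI hGYn : GY.Normal := by
    rw [hGY]
    haveI := fun p : {p : Nat.Primes // Cfsg.pCoreOf (p : ℕ) X ≤ Y} =>
      H72.pCore_normal (G := X) ((p : Nat.Primes) : ℕ)
    infer_instance
  have hGYY : ∀ v ∈ GY, (v : G) ∈ Y := by
    intro v hv
    have : GY ≤ Y.comap X.subtype := iSup_le fun p a ha => p.2 ⟨a, ha, rfl⟩
    exact this hv
  have hGYw : ∀ v ∈ GY.map X.subtype, w * v * w⁻¹ ∈ GY.map X.subtype := by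
    intro v hv
    rw [hGY, Subgroup.map_iSup] at hv ⊢
    have hle : (⨆ p : {p : Nat.Primes // Cfsg.pCoreOf (p : ℕ) X ≤ Y},
        (Cfsg.pCore ((p : Nat.Primes) : ℕ) X).map X.subtype) ≤
        (⨆ p : {p : Nat.Primes // Cfsg.pCoreOf (p : ℕ) X ≤ Y},
          (Cfsg.pCore ((p : Nat.Primes) : ℕ) X).map X.subtype).comap
            (MulAut.conj w).toMonoidHom :=
      iSup_le fun p a ha => le_iSup (fun p : {p : Nat.Primes // Cfsg.pCoreOf (p : ℕ) X ≤ Y} =>
          (Cfsg.pCore ((p : Nat.Primes) : ℕ) X).map X.subtype) p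
        (conj_mem_of_mem_normalizer (mem_normalizer_pCoreOf hwX ((p : Nat.Primes) : ℕ)) ha)
    exact hle hv
  have hsup : Cfsg.fittingSubgroup X ≤ GY ⊔ (centralizer {w}).comap X.subtype := by
    rw [H19.fitting_eq_iSup_pCore]
    refine iSup_le fun p => ?_
    rcases hall p p.2 with hp | hp
    · exact le_trans (le_iSup (fun q : {q : Nat.Primes // Cfsg.pCoreOf (q : ℕ) X ≤ Y} =>
        Cfsg.pCore ((q : Nat.Primes) : ℕ) X) ⟨p, hp⟩) le_sup_left
    · exact fun v hv => Subgroup.mem_sup_right (Subgroup.mem_comap.2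
        (mem_centralizer_singleton_iff.2 (hp v ⟨v, hv, rfl⟩).eq.symm))
  obtain ⟨v, hv, k, hk, hvk⟩ := Subgroup.mem_sup_of_normal_left.1 (hsup heF)
  have hek : e = v * k := (congrArg Subtype.val hvk).symm
  have hkw : w * (k : G) * w⁻¹ = k := by
    have hk' : (k : G) * w = w * k := mem_centralizer_singleton_iff.1 hk
    rw [← hk', mul_inv_cancel_right]
  have heinv : w * e * w⁻¹ = e⁻¹ := by
    rw [he, hwinv, mul_inv_rev, mul_inv_rev, mul_inv_rev, hwinv, inv_inv]
    simp [mul_assoc, hww]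
  have hkY : (k : G) ∈ Y := by
    have hv' : w * (v : G) * w⁻¹ ∈ GY.map X.subtype := hGYw _ ⟨v, hv, rfl⟩
    obtain ⟨v', hv'm, hv'eq⟩ := hv'
    have h1 : (v' : G) * k = (k : G)⁻¹ * (v : G)⁻¹ := by
      rw [show (v' : G) = w * (v : G) * w⁻¹ from hv'eq, ← mul_inv_rev]
      calc w * (v : G) * w⁻¹ * k = w * (v : G) * w⁻¹ * (w * k * w⁻¹) := by rw [hkw]
        _ = w * e * w⁻¹ := by rw [hek]; group
        _ = _ := by rw [heinv, hek]
    have h1' : v' * k = k⁻¹ * v⁻¹ := Subtype.ext h1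
    have hk2 : k * k ∈ GY := by
      have h2 : k * v' * k = v⁻¹ := by rw [mul_assoc, h1', mul_inv_cancel_left]
      have h3 := mul_mem (inv_mem (hGYn.conj_mem v' hv'm k)) (h2 ▸ inv_mem hv)
      simpa [mul_assoc] using h3
    have hkk : k ∈ Subgroup.zpowers (k * k) := by
      obtain ⟨m, hm⟩ := odd_orderOf_of_mem hXodd k.2
      rw [Subgroup.orderOf_coe] at hm
      refine ⟨(m + 1 : ℕ), ?_⟩
      show (k * k) ^ ((m + 1 : ℕ) : ℤ) = k
      rw [zpow_natCast, ← pow_two, ← pow_mul, show 2 * (m + 1) = orderOf k + 1 by omega, pow_succ,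
        pow_orderOf_eq_one, one_mul]
    exact hGYY k ((Subgroup.zpowers_le.2 hk2) hkk)
  have hed : e • d = d := hYd e (hek ▸ mul_mem (hGYY v hv) hkY)
  refine invAt_unique hS hwd ?_
  have : w * g = g * e * w := by rw [he]; group
  rw [← mul_smul, this, mul_smul, mul_smul, hwd.2, hed]

/-- In a smallest configuration, with two primes in `NC`, every core of the stabiliser of the two
apexes fixes all apexes. -/
theorem JData.all_cores_le (hS : Setting G Ω) (hIH : IH.{u} (Nat.card G))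
    (h : JData M Λ u c z)
    (hmin : ∀ (M' : Subgroup G) (Λ' : Set Ω), JData M' Λ' u c z → Λ.ncard ≤ Λ'.ncard)
    (htwo : ∀ r : ℕ, ∃ q, NC M Λ q ∧ q ≠ r) {r : ℕ} (hr : r.Prime) :
    Cfsg.pCoreOf r (pairStab (G := G) c z) ≤ fixTo Λ := by
  by_contra hA
  obtain ⟨q, hq, hqr⟩ := htwo r
  set A := Cfsg.pCoreOf r (pairStab (G := G) c z) with hAdef
  set P0 := fixedOn A Λ with hP0
  have hcz : c ≠ z := h.max.2.1.symm
  have hO := h.core_fix_trivial hS hIH h.c_mem h.z_mem hr hq hqr hA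
  have hYX : fixTo (G := G) Λ ≤ pairStab c z := mem_core_fix h.c_mem h.z_mem
  have hcP : c ∈ P0 := ⟨h.c_mem, fun g hg => (H72.pCoreOf_le _ _ hg).1⟩
  have hzP : z ∈ P0 := ⟨h.z_mem, fun g hg => (H72.pCoreOf_le _ _ hg).2⟩
  have hswap : ∀ {x y d : Ω} {w : G}, x ∈ P0 → y ∈ P0 → x ≠ y → w ∈ M → InvAt w d → w • x = y →
      d ∈ P0 := by
    intro x y d w hx hy hxy hw hwd hwx
    have hdΛ : d ∈ Λ := h.config.apex ▸ ⟨w, hw, hwd⟩
    refine ⟨hdΛ, fun g hg => centralizer_core_fix hS hxy hwd hwx (Y := fixTo (G := G) Λ)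
      (fun v hv => hv d hdΛ) (fun s hs => ?_) (mem_pairStab.2 ⟨hx.2 g hg, hy.2 g hg⟩) ?_⟩
    · by_cases hle : Cfsg.pCoreOf s (pairStab (G := G) x y) ≤ fixTo Λ
      · exact Or.inl hle
      · obtain ⟨q', hq', hq's⟩ := htwo s
        exact Or.inr fun a ha =>
          (h.core_excluded hS hIH hx.1 hy.1 hxy hw hwd hwx hs hq' hq's hle a ha).2
    · intro s hs hle a ha
      have haY := hle ha
      have hgX : g ∈ pairStab x y := mem_pairStab.2 ⟨hx.2 g hg, hy.2 g hg⟩
      have h1 : g * a * g⁻¹ * a⁻¹ ∈ A := by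
        have := mul_mem hg (conj_mem_of_mem_normalizer (H72.le_normalizer_pCoreOf r _ (hYX haY))
          (inv_mem hg))
        simpa [mul_assoc] using this
      have h2 : g * a * g⁻¹ * a⁻¹ ∈ fixTo (G := G) Λ :=
        mul_mem (hle (conj_mem_of_mem_normalizer (H72.le_normalizer_pCoreOf s _ hgX) ha))
          (inv_mem haY)
      have h3 : g * a * g⁻¹ * a⁻¹ ∈ Cfsg.pCoreOf r (fixTo (G := G) Λ) := by
        refine H72.le_pCoreOf (N := A ⊓ fixTo (G := G) Λ) inf_le_right ?_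
          ((H72.pCoreOf_isPGroup r _).to_le inf_le_left) ⟨h1, h2⟩
        exact fun k hk => mem_normalizer_inf (H72.le_normalizer_pCoreOf r _ (hYX hk))
          (Subgroup.le_normalizer hk)
      rw [hO, mem_bot, mul_inv_eq_one, mul_inv_eq_iff_eq_mul] at h3
      exact h3
  have hinv : ∀ {i : G} {y : Ω}, i ∈ M → InvAt i y → y ∈ P0 → ∀ x ∈ P0, i • x ∈ P0 := by
    intro i y hi hiy hy x hx
    by_cases hyx : y = x
    · subst hyx; rw [hiy.2]; exact hy
    obtain ⟨t, ht, htx⟩ : x ∈ (apexSet M : Set Ω) := h.config.apex.symm ▸ hx.1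
    classical
    set I' : Set G := {s | s ∈ M ∧ ∃ v ∈ P0, v ≠ x ∧ InvAt s v} with hI'
    have hmid : ∀ s ∈ I', ∃ i ∈ M, orderOf i = 2 ∧ i * t * i⁻¹ = s ∧ ∃ v ∈ P0, v ≠ x ∧
        InvAt i v ∧ i • x ∈ P0 := by
      rintro s ⟨hs, v, hv, hvx, hsv⟩
      obtain ⟨i, hi, hi2, hit, hix, -⟩ := exists_middle hS ht hs htx hsv hvx.symm
      obtain ⟨d, hd⟩ := hS.exists_fix i hi2
      refine ⟨i, hi, hi2, hit, d, hswap hx hv hvx.symm hi ⟨hi2, hd⟩ hix, ?_, ⟨hi2, hd⟩, hix ▸ hv⟩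
      intro hdx
      rw [hdx, hix] at hd
      exact hvx hd
    choose f hfM hf2 hft hfv using hmid
    let F : G → G := fun s => if hs : s ∈ I' then f s hs else s
    have hFm : Set.MapsTo F I' I' := by
      intro s hs
      obtain ⟨v, hv, hvx, hiv, -⟩ := hfv s hs
      simp only [F, dif_pos hs]
      exact ⟨hfM s hs, v, hv, hvx, hiv⟩
    have hFi : Set.InjOn F I' := by
      intro a ha b hb hab
      simp only [F, dif_pos ha, dif_pos hb] at hab
      rw [← hft a ha, hab, hft b hb]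
    have hsurj : Set.SurjOn F I' I' :=
      ((Set.toFinite I').injOn_iff_bijOn_of_mapsTo hFm).1 hFi |>.surjOn
    obtain ⟨s, hs, hFs⟩ := hsurj (show i ∈ I' from ⟨hi, y, hy, hyx, hiy⟩)
    simp only [F, dif_pos hs] at hFs
    obtain ⟨v, -, -, -, hix⟩ := hfv s hs
    rwa [hFs] at hix
  have hinvP : ∀ {i : G} {y : Ω}, i ∈ M → InvAt i y → y ∈ P0 →
      i ∈ M ⊓ setStab (G := G) P0 := by
    intro i y hi hiy hy
    refine ⟨hi, fun x => ⟨fun hx => ?_, hinv hi hiy hy x⟩⟩
    have := hinv hi hiy hy _ hx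
    rwa [← mul_smul, H28.mul_self_of_orderOf_two hiy.1, one_smul] at this
  set N := M ⊓ setStab (G := G) P0 with hN
  have hap : (apexSet N : Set Ω) = P0 := by
    refine Set.Subset.antisymm ?_ fun x hx => ?_
    · rintro x ⟨t, ht, htx⟩
      exact apex_mem_of_mem_setStab hS htx ht.2 h.max.1 (hinvP h.u_mem h.max.1 hcP).2 hcP
    · obtain ⟨t, ht, htx⟩ : x ∈ (apexSet M : Set Ω) := h.config.apex.symm ▸ hx.1
      exact ⟨t, hinvP ht htx hx, htx⟩
  have hrich : Rich Ω N := by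
    obtain ⟨e, he, hec, hne, hcomm⟩ := exists_commuting hS h.config.rich h.u_mem h.max.1
    exact ⟨⟨u, hinvP h.u_mem h.max.1 hcP, e, hinvP he hec hcP, h.max.1.1, hec.1, hne.symm, hcomm⟩,
      hap.symm ▸ ⟨c, hcP, z, hzP, hcz⟩⟩
  have hAfix : A ≤ fixTo (G := G) P0 := fun g hg x hx => hx.2 g hg
  have hfix : fixTo (G := G) P0 ≠ ⊥ := fun h0 => hA (by
    intro g hg
    have := hAfix hg
    rw [h0, mem_bot] at this
    rw [this]; exact one_mem _)
  obtain ⟨hcfg, hle⟩ := config_of_stab hS hrich hap hfix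
  have hJD : JData (setStab (G := G) P0) P0 u c z :=
    ⟨hcfg, hle (hinvP h.u_mem h.max.1 hcP), hzP, h.max, h.nontriv, fun j hj => by
      rw [← h.invSet_self hS hIH] at hj
      exact fixTo_le_setStab (fixTo_anti (fun x hx => hx.1) hj.1)⟩
  have hsub : P0 ⊆ Λ := fun x hx => hx.1
  have heq : P0 = Λ := Set.eq_of_subset_of_ncard_le hsub (hmin _ _ hJD) (Set.toFinite _)
  exact hA (heq ▸ hAfix)

end PartII

open PartII in
/-- PLAN section 4: a configuration with a largest nontrivial `J` gives `Part2Output`. -/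
theorem part2 {G Ω : Type u} [Group G] [MulAction G Ω] [Finite G] [Finite Ω] (hS : Setting G Ω)
    (hR : Rich Ω (⊤ : Subgroup G)) (hIH : IH.{u} (Nat.card G))
    {M : Subgroup G} {Λ : Set Ω} (hM : IsJConfig M Λ) : Part2Output G Ω := by
  obtain ⟨hcfg, u, c, z, hu, hz, hmax, hnt, hJ⟩ := hM
  have h₀ : JData M Λ u c z := ⟨hcfg, hu, hz, hmax, hnt, hJ⟩
  clear hR hcfg hu hz hmax hnt hJ
  classical
  obtain ⟨M, Λ, h, hmin⟩ : ∃ (M : Subgroup G) (Λ : Set Ω), JData M Λ u c z ∧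
      ∀ (M' : Subgroup G) (Λ' : Set Ω), JData M' Λ' u c z → Λ.ncard ≤ Λ'.ncard := by
    have hex : ∃ n, ∃ (M : Subgroup G) (Λ : Set Ω), JData M Λ u c z ∧ Λ.ncard = n :=
      ⟨_, _, _, h₀, rfl⟩
    obtain ⟨M, Λ, h, hn⟩ := Nat.find_spec hex
    exact ⟨M, Λ, h, fun M' Λ' h' => hn ▸ Nat.find_le ⟨M', Λ', h', rfl⟩⟩
  have hcz : c ≠ z := h.max.2.1.symm
  set X := pairStab (G := G) c z with hX
  set Y := fixTo (G := G) Λ with hY
  have hYX : Y ≤ X := mem_core_fix h.c_mem h.z_mem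
  have hXodd : Odd (Nat.card X) := pairStab_odd hS hcz
  obtain ⟨tz, htz, htzz⟩ : z ∈ (apexSet M : Set Ω) := h.config.apex.symm ▸ h.z_mem
  obtain ⟨w₀, hw₀, hw₀2, hw₀u, hw₀c, hw₀z⟩ := exists_middle hS h.u_mem htz h.max.1 htzz hcz
  obtain ⟨r₀, hr₀⟩ := h.exists_nc hS hIH
  by_cases hone : ∀ s, NC M Λ s → s = r₀
  · right
    obtain ⟨g, hg, hnc⟩ := h.nc_all hS hr₀ h.u_mem h.max.1.1
    have hgY : g ∈ Y := H72.pCoreOf_le _ _ hg
    have hr2 : r₀ ≠ 2 := by
      intro he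
      have h1 : Odd (orderOf g) := odd_orderOf_of_mem (h.fix_odd hS) hgY
      obtain ⟨k, hk⟩ := H72.pCoreOf_isPGroup r₀ Y ⟨g, hg⟩
      have hd : orderOf g ∣ 2 ^ k := orderOf_dvd_of_pow_eq_one
        (by simpa [he] using congrArg Subtype.val hk)
      obtain ⟨m, -, hm⟩ := (Nat.dvd_prime_pow Nat.prime_two).1 hd
      rw [hm] at h1
      cases m with
      | zero =>
        have h0 : g = 1 := orderOf_eq_one_iff.1 (by simpa using hm)
        exact hnc (by rw [h0]; exact Commute.one_right u)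
      | succ m => exact absurd h1 (by simp [Nat.odd_pow_iff])
    obtain ⟨f, -, i, hiP, hf, hi, hfi⟩ := exists_fixed_mul_inverted h.max.1.1
      (odd_card_of_le (H72.pCoreOf_le r₀ Y) (h.fix_odd hS))
      (mem_normalizer_pCoreOf (h.le_norm h.u_mem) r₀) hg
    have hi1 : i ≠ 1 := by
      rintro rfl
      exact hnc (by rw [hfi, mul_one]; exact commute_of_conj_eq hf)
    refine ⟨r₀, hr₀.1, hr2, M, Λ, u, c, z, ⟨h.config, i, H72.pCoreOf_le r₀ Y hiP, u, h.u_mem,
      h.max.1.1, hi1, hi, ?_⟩, h.c_mem, h.z_mem, h.max, h.nontriv, ?_⟩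
    · obtain ⟨k, hk⟩ := H72.pCoreOf_isPGroup r₀ Y ⟨i, hiP⟩
      exact ⟨k, by simpa using congrArg Subtype.val hk⟩
    intro w hw2 hwc n hn
    haveI := Fact.mk hr₀.1
    set N := (Cfsg.pPrimeCore r₀ ↥X).map X.subtype with hNdef
    have hNX : N ≤ X := Subgroup.map_subtype_le _
    have hXN : X ≤ Subgroup.normalizer (N : Set G) := by
      intro k hk
      refine mem_normalizer_of_conj_mem ?_
      rintro v ⟨v', hv', rfl⟩
      exact ⟨⟨k, hk⟩ * v' * ⟨k, hk⟩⁻¹,
        (H19.pPrimeCore_normal r₀ X).conj_mem v' hv' _, by simp⟩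
    have hw₀N : w₀ ∈ Subgroup.normalizer (N : Set G) := by
      have hwX : w₀ ∈ Subgroup.normalizer (X : Set G) := swap_mem_normalizer hw₀c hw₀z
      let e : X ≃* X :=
        { toFun := fun v => ⟨w₀ * v * w₀⁻¹, conj_mem_of_mem_normalizer hwX v.2⟩
          invFun := fun v => ⟨w₀⁻¹ * v * w₀, by
            simpa using conj_mem_of_mem_normalizer (inv_mem hwX) v.2⟩
          left_inv := fun v => Subtype.ext (by simp [mul_assoc])
          right_inv := fun v => Subtype.ext (by simp [mul_assoc])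
          map_mul' := fun v v' => Subtype.ext (by simp [mul_assoc]) }
      refine mem_normalizer_of_conj_mem ?_
      rintro v ⟨v', hv', rfl⟩
      refine ⟨e v', ?_, rfl⟩
      have := H51.pPrimeCore_map_equiv r₀ e
      rw [← this]
      exact ⟨v', hv', rfl⟩
    obtain ⟨d, hd⟩ := hS.exists_fix w₀ hw₀2
    have hfixN : ∀ v ∈ N, w₀ * v * w₀⁻¹ = v := by
      refine fixes_of_fixes_pCoreOf hw₀2 (odd_card_of_le hNX hXodd) hw₀N fun s hs v hv => ?_
      have hvX : v ∈ Cfsg.pCoreOf s X := pCoreOf_le_pCoreOf hNX hXN s hv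
      suffices hc : Commute w₀ v by rw [hc.eq, mul_inv_cancel_right]
      by_cases hsr : s = r₀
      · subst hsr
        have hv1 : v = 1 := by
          obtain ⟨v', hv', hvv⟩ := H72.pCoreOf_le _ _ hv
          obtain ⟨k, hk⟩ := H72.pCoreOf_isPGroup s N ⟨v, hv⟩
          have h1 : orderOf v ∣ s ^ k :=
            orderOf_dvd_of_pow_eq_one (by simpa using congrArg Subtype.val hk)
          have h2 : orderOf v ∣ Nat.card (Cfsg.pPrimeCore s X) := by
            rw [← hvv, Subgroup.coe_subtype, Subgroup.orderOf_coe]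
            exact Subgroup.orderOf_dvd_natCard _ hv'
          rw [← orderOf_eq_one_iff]
          exact Nat.eq_one_of_dvd_coprimes
            (Nat.Coprime.pow_left k (H19.pPrimeCore_coprime s (G := X)).symm) h1 h2
        rw [hv1]; exact Commute.one_right _
      by_cases hle : Cfsg.pCoreOf s X ≤ Y
      · have hvY : v ∈ Cfsg.pCoreOf s Y := H72.le_pCoreOf hle
          (fun k hk => H72.le_normalizer_pCoreOf s X (hYX hk)) (H72.pCoreOf_isPGroup s X) hvX
        by_contra hc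
        exact hsr (hone s ⟨hs, w₀, hw₀, hw₀2, v, hvY, hc⟩)
      · exact (h.core_excluded hS hIH h.c_mem h.z_mem hcz hw₀ ⟨hw₀2, hd⟩ hw₀c hs hr₀
          (Ne.symm hsr) hle v hvX).2
    -- every exchanging involution is an `X`-conjugate of `w₀`
    have hww := H28.mul_self_of_orderOf_two hw2
    have hw₀w₀ := H28.mul_self_of_orderOf_two hw₀2
    have hwz : w • z = c := by rw [← hwc, ← mul_smul, hww, one_smul]
    set ρ := w * w₀ with hρ
    have hρX : ρ ∈ X := mem_pairStab.2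
      ⟨by rw [hρ, mul_smul, hw₀c, hwz], by rw [hρ, mul_smul, hw₀z, hwc]⟩
    obtain ⟨m, hm⟩ := odd_orderOf_of_mem hXodd hρX
    set σ := ρ ^ (m + 1) with hσ
    have hσσ : σ * σ = ρ := by
      rw [hσ, ← pow_add, show m + 1 + (m + 1) = orderOf ρ + 1 by omega, pow_succ,
        pow_orderOf_eq_one, one_mul]
    have hinvρ : w₀ * ρ * w₀⁻¹ = ρ⁻¹ := by
      rw [hρ, mul_inv_rev, H28.inv_eq_self_of_orderOf_two hw₀2,
        H28.inv_eq_self_of_orderOf_two hw2, mul_assoc, mul_assoc, hw₀w₀, mul_one]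
    have hinvσ : w₀ * σ * w₀⁻¹ = σ⁻¹ := by
      rw [hσ, ← conj_pow, hinvρ, inv_pow]
    have hw_eq : w = σ * w₀ * σ⁻¹ := by
      have h3 : w₀ * σ⁻¹ * w₀⁻¹ = σ := by
        have := congrArg (·⁻¹) hinvσ
        simpa [mul_assoc] using this
      have h2 : σ * w₀ * σ⁻¹ = ρ * w₀ := by
        calc σ * w₀ * σ⁻¹ = σ * (w₀ * σ⁻¹ * w₀⁻¹) * w₀ := by group
          _ = ρ * w₀ := by rw [h3, hσσ]
      rw [h2, hρ, mul_assoc, hw₀w₀, mul_one]
    have hσX : σ ∈ X := pow_mem hρX _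
    have hn' : σ⁻¹ * n * σ ∈ N := by
      simpa using conj_mem_of_mem_normalizer (hXN (inv_mem hσX)) hn
    rw [hw_eq]
    apply commute_of_conj_eq
    calc σ * w₀ * σ⁻¹ * n * (σ * w₀ * σ⁻¹)⁻¹ = σ * (w₀ * (σ⁻¹ * n * σ) * w₀⁻¹) * σ⁻¹ := by group
      _ = n := by rw [hfixN _ hn']; group
  · left
    push Not at hone
    obtain ⟨s₁, hs₁, hs₁r⟩ := hone
    have htwo : ∀ r : ℕ, ∃ q, NC M Λ q ∧ q ≠ r := fun r => by
      by_cases hr : r₀ = r
      · exact ⟨s₁, hs₁, hr ▸ hs₁r⟩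
      · exact ⟨r₀, hr₀, hr⟩
    haveI : Group.IsSolvable X := S0205.result hXodd
    have hF : (Cfsg.fittingSubgroup ↥X).map X.subtype ≤ Y := by
      rw [H19.fitting_eq_iSup_pCore, Subgroup.map_iSup]
      exact iSup_le fun p => h.all_cores_le hS hIH hmin htwo p.2
    have hFne : Nat.card (Cfsg.fittingSubgroup ↥X) ≠ 1 := by
      intro h1
      rw [Subgroup.card_eq_one] at h1
      obtain ⟨g, hg, hnc⟩ := h.nc_all hS hr₀ h.u_mem h.max.1.1
      have hgX : g ∈ X := hYX (H72.pCoreOf_le _ _ hg)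
      have : (⟨g, hgX⟩ : X) ∈ Cfsg.fittingSubgroup X := by
        apply H19.centralizer_fitting_le
        rw [h1]; exact Subgroup.mem_centralizer_iff.2 (by simp)
      rw [h1, Subgroup.mem_bot] at this
      exact hnc (by rw [show g = 1 from congrArg Subtype.val this]; exact Commute.one_right u)
    obtain ⟨r, hr, hrF⟩ := Nat.exists_prime_and_dvd hFne
    obtain ⟨Q, hQY, hQ1, hQn, hcase⟩ := exists_lemmaW hXodd hYX hF hr hrF
    obtain ⟨M', Λ', h', hsub, hNM⟩ := h.derived hS hQY hQ1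
      (fun k hk => hQn k (h.le_norm hk))
    rcases hcase with hXQ | ⟨x, hxX, hxY, hxQ, ⟨k, hxk⟩, hxc⟩
    · refine ⟨M', u, c, z, h'.config.rich, h'.config.proper, h'.config.apex.symm ▸ h'.z_mem,
        h.max, h.nontriv, fun t ht => ?_⟩
      obtain ⟨i, -, -, hitz, hiz, hic⟩ := exists_middle hS (Subgroup.mem_top tz)
        (Subgroup.mem_top t) htzz ht hcz.symm
      have hgX : i * w₀ ∈ X := mem_pairStab.2
        ⟨by rw [mul_smul, hw₀c, hiz], by rw [mul_smul, hw₀z, hic]⟩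
      have heq : t = (i * w₀) * u * (i * w₀)⁻¹ := by
        rw [← hitz, ← hw₀u]; group
      rw [heq]
      exact mul_mem (mul_mem (hNM (hXQ hgX)) h'.u_mem) (inv_mem (hNM (hXQ hgX)))
    · exfalso
      obtain ⟨q, hq, hqr⟩ := htwo r
      haveI := Fact.mk hq.1
      refine hxY (fixTo_anti hsub (h'.mem_fix_of_centralizes hS
        ((h.nc_congr hS hIH h' q).1 hq) (hNM hxQ) ?_))
      set P := Cfsg.pCoreOf q (fixTo (G := G) Λ') with hP
      set As := Cfsg.pCoreOf q X with hAs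
      set OY := Cfsg.pCoreOf q Y with hOY
      have hPO : P ≤ OY := pCoreOf_le_pCoreOf (fixTo_anti hsub)
        (fun v hv => h'.le_norm (hNM (hQn v (Subgroup.le_normalizer hv)))) q
      have hAO : As ≤ OY := H72.le_pCoreOf
        (fun v hv => hF (by
          obtain ⟨v', hv', rfl⟩ := hv
          exact ⟨v', H19.pCore_le_fitting q hv', rfl⟩))
        (fun v hv => H72.le_normalizer_pCoreOf q X (hYX hv)) (H72.pCoreOf_isPGroup q X)
      have hP₁ : P ⊔ As ≤ OY := sup_le hPO hAO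
      have hxP₁ : x ∈ Subgroup.normalizer ((P ⊔ As : Subgroup G) : Set G) := by
        refine mem_normalizer_of_conj_mem fun v hv => ?_
        have hle : P ⊔ As ≤ (P ⊔ As).comap (MulAut.conj x).toMonoidHom :=
          sup_le (fun p hp => le_sup_left (a := P) (conj_mem_of_mem_normalizer
              (mem_normalizer_pCoreOf (h'.le_norm (hNM hxQ)) q) hp))
            (fun a ha => le_sup_right (a := P) (conj_mem_of_mem_normalizer
              (H72.le_normalizer_pCoreOf q X hxX) ha))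
        exact hle hv
      have hxo : ¬ q ∣ orderOf x := fun hd => hqr ((Nat.prime_dvd_prime_iff_eq hq.1 hr).1
        (hq.1.dvd_of_dvd_pow (hd.trans (orderOf_dvd_of_pow_eq_one hxk))))
      have hall := commute_of_centralizer_le ((H72.pCoreOf_isPGroup q Y).to_le hP₁)
        (le_sup_right : As ≤ P ⊔ As) hxo hxP₁ (fun a ha => (hxc q hq.1 hqr a ha).eq)
        (fun v hv => centralizer_pCoreOf_le hXodd hYX hF hq.1 (hP₁ hv.1)
          fun a ha => (Subgroup.mem_centralizer_iff.1 hv.2 a ha).symm)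
      exact fun g hg => hall g (le_sup_left (b := As) hg)

end Cfsg.Agent.H14.Bender
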