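import Cfsg.Agent.H14.Bender.PartEAux
import Cfsg.Agent.H14.Bender.Coprime
import Cfsg.Agent.H14.Bender.PartII
import Cfsg.Agent.H23.SylowIn

/-!
The normaliser of a Sylow subgroup of the pointwise stabiliser of a weak configuration
(`PLAN.md`, sec. 5, "Weak config").
-/

set_option autoImplicit false
set_option linter.style.haveILetI false
set_option linter.unusedSectionVars false

namespace Cfsg.Agent.H14.Bender.PartE

universe u

open Subgroup

variable {G : Type u} [Group G] {Ω : Type u} [MulAction G Ω] [Finite G] [Finite Ω]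

/-- The pointwise stabiliser of the apexes of a rich subgroup has odd order. -/
theorem fixTo_odd (hS : Setting G Ω) {Λ : Set Ω} (hnt : Λ.Nontrivial) :
    Odd (Nat.card (fixTo (G := G) Λ)) := by
  obtain ⟨a, ha, b, hb, hab⟩ := hnt
  exact (pairStab_odd hS hab).of_dvd_nat (card_dvd_of_le fun g hg => ⟨hg a ha, hg b hb⟩)

theorem isSylowIn_card_eq {r : ℕ} [Fact r.Prime] {R H : Subgroup G} (h : H23.IsSylowIn r R H) :
    Nat.card R = r ^ (Nat.card H).factorization r := by
  have h' : IsPGroup r (R.subgroupOf H) := h.2.1.of_equiv (subgroupOfEquivOfLe h.1).symm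
  rw [← (h'.toSylow h.2.2).card_eq_multiplicity]
  exact (Nat.card_congr (subgroupOfEquivOfLe h.1).toEquiv).symm

theorem isSylowIn_of_card_eq {r : ℕ} [Fact r.Prime] {R S H : Subgroup G} (h : H23.IsSylowIn r R H)
    (hS : S ≤ H) (hSr : IsPGroup r S) (hc : Nat.card S = r ^ (Nat.card H).factorization r) :
    H23.IsSylowIn r S H := by
  obtain ⟨K, hK, hSK⟩ := H23.exists_isSylowIn_ge hS hSr
  rwa [eq_of_le_of_card_ge hSK (isSylowIn_card_eq hK ▸ hc.ge)]

/-- A commutative subgroup of `2`-power order of the setwise stabiliser is moved into the normaliser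
of a given Sylow subgroup of the pointwise stabiliser by an element of that stabiliser. -/
theorem exists_fix_conj (hS : Setting G Ω) {r : ℕ} [Fact r.Prime] {Λ : Set Ω} (hnt : Λ.Nontrivial)
    {B : Subgroup G} (hB : H23.IsSylowIn r B (fixTo (G := G) Λ)) {A : Subgroup G}
    [IsMulCommutative A] (hA2 : IsPGroup 2 A) (hA : A ≤ setStab Λ) :
    ∃ g ∈ fixTo (G := G) Λ, ∀ a ∈ A, g * a * g⁻¹ ∈ normalizer (B : Set G) := by
  have hAY := hA.trans PartII.setStab_normalizes_fixTo
  obtain ⟨k, hk⟩ := hA2.exists_card_eq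
  obtain ⟨P, -, hP⟩ := H20.exists_invariant_sylow_ge hAY
    (hk ▸ Nat.Coprime.pow_left k (fixTo_odd hS hnt).coprime_two_left)
    (Or.inl (H20.isSolvable_of_isMulCommutative A)) r (U := ⊥) bot_le IsPGroup.of_bot
    (fun a _ => mem_normalizer_iff.2 fun x => by simp [mul_inv_eq_one, conj_eq_one_iff])
  have hS' := isSylowIn_of_card_eq hB (map_subtype_le _) (H20.isPGroup_map_sylow P) (H20.card_map_sylow P)
  obtain ⟨m, hm, hmS⟩ := hB.exists_rconj hS'
  refine ⟨m, hm, fun a ha => ?_⟩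
  have h := hP ha
  rw [← hmS] at h
  refine H23.mem_normalizer_of_rconj ?_
  have h' := H23.rconj_eq_self h
  have h'' := congrArg (H23.rconj m⁻¹) h'
  simpa [mul_assoc] using h''

/-- `N_M(B)` is rich with the same apexes and its involutions act nontrivially on `B`. -/
theorem normalizer_facts (hS : Setting G Ω) {r : ℕ} [Fact r.Prime] {M : Subgroup G} {Λ : Set Ω}
    (hM : IsWeakConfig r M Λ) {B : Subgroup G} (hB : H23.IsSylowIn r B (fixTo (G := G) Λ)) :
    Rich Ω (M ⊓ normalizer (B : Set G)) ∧ apexSet (M ⊓ normalizer (B : Set G)) = Λ ∧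
      ∀ t ∈ M ⊓ normalizer (B : Set G), orderOf t = 2 → ∃ b ∈ B, ¬ Commute t b := by
  obtain ⟨hC, j, hjY, t₀, ht₀, ht₀2, hj1, hjinv, k, hjk⟩ := hM
  have hnt : Λ.Nontrivial := hC.apex ▸ hC.rich.2
  have hYM : fixTo (G := G) Λ ≤ M := hC.stab ▸ PartII.fixTo_le_setStab
  have hMst : M ≤ setStab Λ := hC.stab.ge
  have hapex : apexSet (M ⊓ normalizer (B : Set G)) = Λ := by
    refine Set.Subset.antisymm (fun x ⟨t, ht, htx⟩ => hC.apex ▸ ⟨t, ht.1, htx⟩) fun x hx => ?_
    obtain ⟨t, ht, htx⟩ : x ∈ (apexSet M : Set Ω) := hC.apex.symm ▸ hx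
    haveI : IsMulCommutative (zpowers t) := inferInstance
    obtain ⟨g, hg, hgN⟩ := exists_fix_conj hS hnt hB (A := zpowers t)
      (IsPGroup.of_card (n := 1) (by rw [Nat.card_zpowers, htx.1, pow_one])) ((zpowers_le.2 ht).trans hMst)
    refine ⟨g * t * g⁻¹, ⟨M.mul_mem (M.mul_mem (hYM hg) ht) (M.inv_mem (hYM hg)), hgN t (mem_zpowers t)⟩, ?_⟩
    have h := invAt_conj htx g
    rwa [hg x hx] at h
  refine ⟨⟨?_, hapex.symm ▸ hnt⟩, hapex, ?_⟩
  · obtain ⟨s, hs, t, ht, hs2, ht2, hne, hcomm⟩ := hC.rich.1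
    have hcl := isMulCommutative_closure (k := ({s, t} : Set G)) (by
      rintro x (rfl | rfl) y (rfl | rfl) <;> first | rfl | exact hcomm.eq | exact hcomm.symm.eq)
    have hA2 : IsPGroup 2 (closure ({s, t} : Set G)) := by
      rintro ⟨x, hx⟩
      refine ⟨1, Subtype.ext ?_⟩
      show x ^ 2 ^ 1 = 1
      rw [pow_one]
      induction hx using closure_induction with
      | mem y hy =>
        rcases hy with rfl | rfl
        · rw [pow_two]; exact mul_self_inv hs2
        · rw [pow_two]; exact mul_self_inv ht2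
      | one => exact one_pow 2
      | mul a b ha hb iha ihb =>
        have hab : Commute a b := congrArg Subtype.val (hcl.is_comm.comm ⟨a, ha⟩ ⟨b, hb⟩)
        rw [hab.mul_pow, iha, ihb, one_mul]
      | inv a _ iha => rw [inv_pow, iha, inv_one]
    obtain ⟨g, hg, hgN⟩ := exists_fix_conj hS hnt hB hA2
      ((closure_le _).2 (by rintro x (rfl | rfl); exacts [hMst hs, hMst ht]))
    have hmem : ∀ x ∈ ({s, t} : Set G), x ∈ M → g * x * g⁻¹ ∈ M ⊓ normalizer (B : Set G) := fun x hx hxM =>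
      ⟨M.mul_mem (M.mul_mem (hYM hg) hxM) (M.inv_mem (hYM hg)), hgN x (subset_closure hx)⟩
    exact ⟨g * s * g⁻¹, hmem s (Set.mem_insert _ _) hs, g * t * g⁻¹,
      hmem t (Set.mem_insert_of_mem _ rfl) ht,
      ((SemiconjBy.orderOf_eq g (by show g * s = g * s * g⁻¹ * g; group)).symm.trans hs2),
      ((SemiconjBy.orderOf_eq g (by show g * t = g * t * g⁻¹ * g; group)).symm.trans ht2),
      fun h => hne (mul_left_cancel (mul_right_cancel h)), hcomm.map (MulAut.conj g).toMonoidHom⟩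
  · intro t ht ht2
    by_contra! hcB
    obtain ⟨m, hm, hmt⟩ := conj_mem hS hC.rich.2 ht₀ ht₀2 ht.1 ht2
    have hYodd := fixTo_odd (G := G) hS hnt
    have hYn : t ∈ normalizer (fixTo (G := G) Λ : Set G) := PartII.setStab_normalizes_fixTo (hMst ht.1)
    set j' := m * j * m⁻¹
    have hj'Y : j' ∈ fixTo (G := G) Λ :=
      (mem_normalizer_iff.1 (PartII.setStab_normalizes_fixTo (hMst hm)) j).1 hjY
    have hj't : t * j' * t⁻¹ = j'⁻¹ := by
      rw [← hmt]
      calc m * t₀ * m⁻¹ * (m * j * m⁻¹) * (m * t₀ * m⁻¹)⁻¹ = m * (t₀ * j * t₀⁻¹) * m⁻¹ := by group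
        _ = (m * j * m⁻¹)⁻¹ := by rw [hjinv]; group
    have hj'r : IsPGroup r (zpowers j') := by
      obtain ⟨i, -, hi⟩ := (Nat.dvd_prime_pow Fact.out).1 (orderOf_dvd_of_pow_eq_one
        (show j' ^ r ^ k = 1 by rw [conj_pow, hjk]; group))
      exact IsPGroup.of_card (n := i) (by rw [Nat.card_zpowers, hi])
    obtain ⟨S, hRS, hSY, hSu, hSr, hScard, -⟩ := exists_invariant_sylow ht2 hYodd hYn r
      (zpowers_le.2 hj'Y) hj'r (PartII.mem_normalizer_of_conj_mem (fun x hx => by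
        obtain ⟨n, rfl⟩ := mem_zpowers_iff.1 hx
        exact ⟨-n, by show j' ^ (-n) = _; rw [zpow_neg, ← inv_zpow, ← hj't, ← conj_zpow]⟩))
    have h1 := ncard_inverted_sylow ht2 hYodd hYn hSY hSu hScard
    have h2 := ncard_inverted_sylow ht2 hYodd hYn hB.1 ht.2 (isSylowIn_card_eq hB)
    have hB1 : {x | x ∈ B ∧ t * x * t⁻¹ = x⁻¹} = {(1 : G)} := by
      ext x
      refine ⟨fun ⟨hx, hxi⟩ => ?_, ?_⟩
      · have h3 : x = x⁻¹ := by
          rw [← hxi, (hcB x hx).eq, mul_inv_cancel_right]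
        exact PartII.eq_one_of_inv_eq (odd_orderOf_of_mem hYodd (hB.1 hx)) h3.symm
      · rintro rfl
        exact ⟨one_mem _, by group⟩
    rw [hB1, Set.ncard_singleton] at h2
    have hj'1 : j' ≠ 1 := fun h => hj1 (conj_eq_one_iff.1 h)
    exact hj'1 ((Set.ncard_le_one (Set.toFinite _)).1 (h1.trans h2.symm).le j'
      ⟨hRS (mem_zpowers j'), hj't⟩ 1 ⟨one_mem _, by group⟩)

end Cfsg.Agent.H14.Bender.PartE
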