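import Cfsg.Agent.H14.Bender.QuadraticPair
import Cfsg.Agent.H14.Bender.Tame
import Cfsg.Agent.H14.Bender.PartEAux
import Cfsg.Agent.H54.QuadModule
import Cfsg.Agent.H28.BaerSuzuki

/-!
An abelian `r`-group acting quadratically fixes a third apex (`PLAN.md`, sec. 5, ST).
-/

set_option autoImplicit false
set_option linter.style.haveILetI false
set_option linter.unusedSectionVars false

namespace Cfsg.Agent.H14.Bender

universe u

open Subgroup

variable {G : Type u} [Group G] {Ω : Type u} [MulAction G Ω] [Finite G] [Finite Ω]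

/-- Automorphisms as additive endomorphisms. -/
def autEnd (V : Type*) [CommGroup V] : MulAut V →* AddMonoid.End (Additive V) where
  toFun f := MonoidHom.toAdditive f.toMonoidHom
  map_one' := rfl
  map_mul' _ _ := rfl

theorem autEnd_injective {V : Type*} [CommGroup V] {f : MulAut V} (h : autEnd V f = 1) : f = 1 :=
  MulEquiv.ext fun v => congrArg (fun e : AddMonoid.End (Additive V) => Additive.toMul (e (Additive.ofMul v))) h

theorem natCast_end_zero {V : Type*} [CommGroup V] {r : ℕ} (hV : ∀ v : V, v ^ r = 1) :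
    ((r : ℕ) : AddMonoid.End (Additive V)) = 0 :=
  DFunLike.ext _ _ fun m => by
    rw [AddMonoid.End.natCast_apply]
    exact hV m

theorem isUnit_two_end {V : Type*} [CommGroup V] {r : ℕ} (hr : Odd r) (hV : ∀ v : V, v ^ r = 1) :
    IsUnit (2 : AddMonoid.End (Additive V)) := by
  obtain ⟨k, rfl⟩ := hr
  have h : (2 : AddMonoid.End (Additive V)) * ((k + 1 : ℕ) : AddMonoid.End (Additive V)) = 1 := by
    have h0 := natCast_end_zero hV
    rw [show (2 : AddMonoid.End (Additive V)) = ((2 : ℕ) : AddMonoid.End (Additive V)) from by norm_num,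
      ← Nat.cast_mul, show 2 * (k + 1) = (2 * k + 1) + 1 by ring, Nat.cast_add, h0, zero_add, Nat.cast_one]
  exact ⟨⟨_, _, h, ((Nat.cast_commute _ _).eq.trans h)⟩, rfl⟩

/-- An abelian `r`-group acting quadratically on a module of a rich group fixes a third apex. -/
theorem st (hS : Setting G Ω) (hIH : IH.{u} (Nat.card G)) {N : Subgroup G} {Λ : Set Ω}
    (hN : Rich Ω N) (hNt : N ≠ ⊤) (hΛ : apexSet N = Λ) {c z : Ω} (hcz : c ≠ z) {r : ℕ} (hr : r.Prime)
    (hr2 : r ≠ 2) {P : Subgroup G} (hP : P ≤ N) (hPr : IsPGroup r P) (hPfix : fixedOn P Λ = {c, z})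
    {V : Type u} [CommGroup V] [Finite V] (hV : ∀ v : V, v ^ r = 1) (φ : N →* MulAut V)
    (hker : Odd (Nat.card φ.ker)) {A : Subgroup G} (hA : A ≤ N) (hAfix : A ≤ pairStab c z)
    (hAr : IsPGroup r A) (hAab : ∀ a ∈ A, ∀ b ∈ A, Commute a b)
    (hquad : ∀ (a : G) (ha : a ∈ A) (v : V),
      φ ⟨a, hA ha⟩ (φ ⟨a, hA ha⟩ v * v⁻¹) = φ ⟨a, hA ha⟩ v * v⁻¹) :
    ∃ x ∈ fixedOn A Λ, x ≠ c ∧ x ≠ z := by
  classical
  subst hΛ
  haveI := Fact.mk hr
  by_contra hcon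
  push Not at hcon
  obtain ⟨hc, hz⟩ := mem_apexSet_of_fixedOn hPfix
  set Λ : Set Ω := apexSet N with hΛ
  have h3 : 2 < Λ.ncard := by
    by_contra! h
    obtain ⟨t, htN, ht2, htc⟩ := id hc
    have hpair : ({c, z} : Set Ω) = Λ := Set.eq_of_subset_of_ncard_le
      (Set.insert_subset hc (Set.singleton_subset_iff.2 hz)) (by rwa [Set.ncard_pair hcz])
    have h1 : t • z ∈ Λ := IHFacts.smul_mem_apexSet htN hz
    rw [← hpair] at h1
    rcases h1 with h1 | h1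
    · exact hcz (smul_left_cancel t (h1.trans htc.symm)).symm
    · exact hcz (hS.fix_unique t ht2 c z htc h1)
  obtain ⟨Q, ⟨hQA, hQF⟩, hQmax⟩ : ∃ Q, (Q ≤ A ∧ 2 < (fixedOn Q Λ).ncard) ∧
      ∀ Q', (Q' ≤ A ∧ 2 < (fixedOn Q' Λ).ncard) → Nat.card Q' ≤ Nat.card Q := by
    obtain ⟨Q, hQ, hm⟩ := Set.exists_max_image {Q : Subgroup G | Q ≤ A ∧ 2 < (fixedOn Q Λ).ncard}
      (fun Q => Nat.card Q) (Set.toFinite _) ⟨⊥, bot_le, by
        rw [show fixedOn (⊥ : Subgroup G) Λ = Λ from Set.ext fun x =>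
          ⟨fun h => h.1, fun h => ⟨h, fun q hq => by rw [mem_bot.1 hq, one_smul]⟩⟩]
        exact h3⟩
    exact ⟨Q, hQ, hm⟩
  have hAsub : fixedOn A Λ ⊆ {c, z} := fun x hx => by
    by_cases h : x = c
    · exact Or.inl h
    · exact Or.inr (hcon x hx h)
  obtain ⟨a, ha, haQ⟩ : ∃ a ∈ A, a ∉ Q := by
    by_contra! h
    have h1 := Set.ncard_le_ncard hAsub
    rw [le_antisymm hQA h] at hQF
    rw [Set.ncard_pair hcz] at h1
    omega
  obtain ⟨hM0, hM0ap⟩ := star hS hIH hN hNt hP hPr hPfix hcz (hQA.trans hA) (hAr.to_le hQA) hQF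
  set M0 := centOn N Λ Q with hM0d
  set Λ0 := fixedOn Q Λ with hΛ0
  have hM0N : M0 ≤ N := fun g hg => hg.1.1
  have hM0t : M0 ≠ ⊤ := fun h => hNt (top_le_iff.1 (h ▸ hM0N))
  have haM0 : a ∈ M0 := ⟨⟨hA ha, PartE.le_setStab_apexSet N (hA ha)⟩, fun q hq y _ => by
    rw [← mul_smul, ← mul_smul, (hAab a ha q (hQA hq)).eq]⟩
  have hcA : ∀ g ∈ A, g • c = c ∧ g • z = z := fun g hg => hAfix hg
  have hc0 : c ∈ Λ0 := ⟨hc, fun q hq => (hcA q (hQA hq)).1⟩
  have hz0 : z ∈ Λ0 := ⟨hz, fun q hq => (hcA q (hQA hq)).2⟩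
  have hfix : ∀ y ∈ Λ0, a • y = y → y = c ∨ y = z := by
    intro y hy hay
    by_contra! hne
    have hsub : ({c, z, y} : Set Ω) ⊆ fixedOn (Q ⊔ zpowers a) Λ := by
      have hfixes : ∀ w ∈ Λ0, a • w = w → w ∈ fixedOn (Q ⊔ zpowers a) Λ := fun w hw haw =>
        ⟨hw.1, fun q hq => (sup_le (fun q hq => hw.2 q hq) (zpowers_le.2 haw) :
          Q ⊔ zpowers a ≤ MulAction.stabilizer G w) hq⟩
      rintro w (rfl | rfl | rfl)
      exacts [hfixes _ hc0 (hcA a ha).1, hfixes _ hz0 (hcA a ha).2, hfixes _ hy hay]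
    have hlt : Q < Q ⊔ zpowers a := lt_of_le_of_ne le_sup_left fun h =>
      haQ (h ▸ mem_sup_right (mem_zpowers a))
    have hle := hQmax _ ⟨sup_le hQA (zpowers_le.2 ha), by
      have h1 := Set.ncard_le_ncard hsub
      rw [Set.ncard_insert_of_notMem (by simp [hcz, hne.1.symm]), Set.ncard_pair (Ne.symm hne.2)] at h1
      exact h1⟩
    exact hlt.ne (eq_of_le_of_card_ge hlt.le hle)
  have hmod : Λ0.ncard ≡ 2 [MOD r] := by
    rw [← hM0ap]
    refine card_apexSet_modEq (P := zpowers a) (zpowers_le.2 haM0) (hAr.to_le (zpowers_le.2 ha)) ?_ hcz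
    rw [hM0ap]
    refine Set.Subset.antisymm (fun y hy => hfix y hy.1 (hy.2 a (mem_zpowers a))) ?_
    rintro w (rfl | rfl)
    exacts [⟨hc0, fun q hq => (hcA q (zpowers_le.2 ha hq)).1⟩,
      ⟨hz0, fun q hq => (hcA q (zpowers_le.2 ha hq)).2⟩]
  have hkerfix : ∀ (g : G) (hg : g ∈ N), φ ⟨g, hg⟩ = 1 → g ∈ fixTo (G := G) Λ := by
    intro g hg h
    refine PartE.le_fixTo_of_normalizes hS hN (O := φ.ker.map N.subtype)
      (by rwa [card_map_of_injective N.subtype_injective]) ?_ ⟨⟨g, hg⟩, h, rfl⟩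
    intro n hn
    refine mem_normalizer_iff.2 fun x => ⟨?_, ?_⟩
    · rintro ⟨k, hk, rfl⟩
      exact ⟨⟨n, hn⟩ * k * ⟨n, hn⟩⁻¹, φ.normal_ker.conj_mem k hk _, rfl⟩
    · rintro ⟨k, hk, e⟩
      refine ⟨⟨n, hn⟩⁻¹ * k * (⟨n, hn⟩⁻¹)⁻¹, φ.normal_ker.conj_mem k hk _, ?_⟩
      have e' : (k : G) = n * x * n⁻¹ := e
      simp only [coe_subtype, Subgroup.coe_mul, InvMemClass.coe_inv, e']
      group
  set aN : N := ⟨a, hA ha⟩ with haN
  set ρ : N →* AddMonoid.End (Additive V) := (autEnd V).comp φ with hρ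
  have hqa : (ρ aN - 1) * (ρ aN - 1) = 0 := DFunLike.ext _ _ fun m => by
    show ρ aN (ρ aN m - m) - (ρ aN m - m) = 0
    refine sub_eq_zero.2 ?_
    have h := hquad a ha (Additive.toMul m)
    rw [← div_eq_mul_inv] at h
    exact h
  have hqb : ∀ g : N, (ρ (g * aN * g⁻¹) - 1) * (ρ (g * aN * g⁻¹) - 1) = 0 := fun g => by
    have h1 : ρ (g * aN * g⁻¹) - 1 = ρ g * (ρ aN - 1) * ρ g⁻¹ := by
      rw [map_mul, map_mul, mul_sub, sub_mul, mul_one, ← map_mul ρ g g⁻¹, mul_inv_cancel, map_one]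
    rw [h1]
    calc _ = ρ g * ((ρ aN - 1) * (ρ g⁻¹ * ρ g) * (ρ aN - 1)) * ρ g⁻¹ := by simp only [mul_assoc]
      _ = 0 := by rw [← map_mul, inv_mul_cancel, map_one, mul_one, hqa, mul_zero, zero_mul]
  set X : Subgroup N := (M0 ⊓ MulAction.stabilizer G c).subgroupOf N with hX
  have haX : aN ∈ X := ⟨haM0, (hcA a ha).1⟩
  have hodd : ∀ g ∈ X, Odd (Nat.card (closure ({aN, g * aN * g⁻¹} : Set N))) := by
    intro g hg
    rw [← Nat.not_even_iff_odd]
    intro hev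
    obtain ⟨⟨τ, hτ⟩, hτ2⟩ := exists_prime_orderOf_dvd_card' 2 (even_iff_two_dvd.1 hev)
      (hp := ⟨Nat.prime_two⟩)
    rw [Subgroup.orderOf_mk] at hτ2
    have hτX : τ ∈ X := (closure_le _).2 (by
      rintro x (rfl | rfl)
      exacts [haX, mul_mem (mul_mem hg haX) (inv_mem hg)]) hτ
    have hτG : orderOf (τ : G) = 2 := (Subgroup.orderOf_coe τ).trans hτ2
    let e : N →* (AddMonoid.End (Additive V))ˣ := ρ.toHomUnits
    have hmap : e τ ∈ closure ({e aN, e (g * aN * g⁻¹)} : Set (AddMonoid.End (Additive V))ˣ) := by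
      have := mem_map_of_mem e hτ
      rwa [MonoidHom.map_closure, Set.image_pair] at this
    have hcomm := commute_of_quadratic_pair (isUnit_two_end (hr.odd_of_ne_two hr2) hV) _ _ _ hqa (hqb g)
      hmap (by rw [← map_mul, IHFacts.sq_eq_one hτ2, map_one])
    have hk : φ (τ * aN * τ⁻¹ * aN⁻¹) = 1 := autEnd_injective (by
      show ρ _ = 1
      have : e (τ * aN * τ⁻¹ * aN⁻¹) = 1 := by
        rw [map_mul, map_mul, map_mul, map_inv, map_inv, hcomm.eq]; group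
      exact congrArg Units.val this)
    have hk' := hkerfix _ (τ * aN * τ⁻¹ * aN⁻¹).2 hk
    have hτz : (τ : G) • z ∈ Λ0 := by
      rw [← hM0ap]
      exact IHFacts.smul_mem_apexSet hτX.1 (hM0ap ▸ hz0)
    have haτz : a • (τ : G) • z = (τ : G) • z := by
      have h1 := hk' _ hτz.1
      simp only [Subgroup.coe_mul, InvMemClass.coe_inv, haN, mul_smul] at h1
      have h2 : (τ : G) • z = (τ : G) • a • (τ : G)⁻¹ • a⁻¹ • (τ : G) • z := h1.symm
      rw [smul_left_cancel_iff, ← inv_smul_eq_iff, (hcA a⁻¹ (inv_mem ha)).2, eq_inv_smul_iff,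
        eq_inv_smul_iff] at h2
      exact h2
    have hτc : (τ : G) • c = c := hτX.2
    rcases hfix _ hτz haτz with h | h
    · exact hcz (smul_left_cancel (τ : G) (h.trans hτc.symm)).symm
    · exact hcz (hS.fix_unique _ hτG c z hτc h)
  set H : Subgroup (MulAut V) := X.map φ with hH
  have hBS : ∃ W : Subgroup H, W.Normal ∧ IsPGroup r W ∧ (⟨φ aN, mem_map_of_mem φ haX⟩ : H) ∈ W := by
    haveI : Finite (MulAut V) := Finite.of_injective (fun f => (f : V → V)) DFunLike.coe_injective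
    refine H28.baer_suzuki_element _ fun k => ?_
    obtain ⟨g, hg, hgk⟩ := k.2
    set L := closure ({aN, g * aN * g⁻¹} : Set N) with hL
    let a' : L := ⟨aN, subset_closure (Set.mem_insert _ _)⟩
    let b' : L := ⟨g * aN * g⁻¹, subset_closure (Set.mem_insert_of_mem _ rfl)⟩
    have hgen : closure ({a', b'} : Set L) = ⊤ := by
      refine map_injective L.subtype_injective ?_
      rw [MonoidHom.map_closure, Set.image_pair, ← MonoidHom.range_eq_map, range_subtype]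
      rfl
    have hp := H54.quad_pair_pGroup hr2 (hodd g hg) a' b' hgen (Nat.card (Additive V)) le_rfl
      (fun m => hV m) (ρ.comp L.subtype) hqa (hqb g)
    rintro ⟨x, hx⟩
    have hxL : ((x : H) : MulAut V) ∈ L.map φ := by
      have h1 := mem_map_of_mem H.subtype hx
      rw [MonoidHom.map_closure, Set.image_pair] at h1
      rw [hL, MonoidHom.map_closure, Set.image_pair, map_mul, map_mul, map_inv, hgk]
      exact h1
    obtain ⟨l, hl, hlx⟩ := hxL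
    obtain ⟨n, hn⟩ := hp ⟨l, hl⟩
    refine ⟨n, Subtype.ext (Subtype.ext ?_)⟩
    show ((x : H) : MulAut V) ^ r ^ n = 1
    rw [← hlx, ← map_pow]
    exact autEnd_injective hn
  obtain ⟨W, hWn, hWr, haW⟩ := hBS
  let f : X →* H := φ.subgroupMap X
  set W0 : Subgroup N := (W.comap f).map X.subtype with hW0
  set Y : Subgroup G := W0.map N.subtype with hY
  have hYM : ∀ y ∈ Y, y ∈ M0 ∧ y • c = c ∧ ∃ n : ℕ, y ^ r ^ n ∈ fixTo (G := G) Λ := by
    rintro _ ⟨_, ⟨w, hw, rfl⟩, rfl⟩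
    obtain ⟨n, hn⟩ := hWr ⟨f w, hw⟩
    refine ⟨w.2.1, w.2.2, n, hkerfix _ ((w : N) ^ r ^ n).2 ?_⟩
    have := congrArg (fun q : W => ((q : H) : MulAut V)) hn
    simp only [SubmonoidClass.coe_pow, OneMemClass.coe_one] at this
    show φ ((w : N) ^ r ^ n) = 1
    rw [map_pow]
    exact this
  have hYn : ∀ g ∈ M0, g • c = c → ∀ y ∈ Y, g * y * g⁻¹ ∈ Y := by
    rintro g hg hgc _ ⟨_, ⟨w, hw, rfl⟩, rfl⟩
    let g' : X := ⟨⟨g, hM0N hg⟩, ⟨hg, hgc⟩⟩
    exact ⟨_, ⟨g' * w * g'⁻¹, by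
      show f (g' * w * g'⁻¹) ∈ W
      rw [map_mul, map_mul, map_inv]
      exact hWn.conj_mem _ hw _, rfl⟩, rfl⟩
  have haY : a ∈ Y := ⟨aN, ⟨⟨aN, haX⟩, haW, rfl⟩, rfl⟩
  let θ : Y →* Equiv.Perm Λ0 :=
    { toFun := fun y =>
        { toFun := fun x => ⟨(y : G) • (x : Ω), (Set.ext_iff.1 hM0ap _).1 (IHFacts.smul_mem_apexSet (hYM _ y.2).1 ((Set.ext_iff.1 hM0ap _).2 x.2))⟩
          invFun := fun x => ⟨(y : G)⁻¹ • (x : Ω),
            (Set.ext_iff.1 hM0ap _).1 (IHFacts.smul_mem_apexSet (inv_mem (hYM _ y.2).1) ((Set.ext_iff.1 hM0ap _).2 x.2))⟩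
          left_inv := fun x => Subtype.ext (inv_smul_smul _ _)
          right_inv := fun x => Subtype.ext (smul_inv_smul _ _) }
      map_one' := Equiv.ext fun x => Subtype.ext (one_smul G (x : Ω))
      map_mul' := fun y y' => Equiv.ext fun x => Subtype.ext (mul_smul (y : G) (y' : G) (x : Ω)) }
  have hθ : IsPGroup r θ.range := by
    rintro ⟨_, y, rfl⟩
    obtain ⟨-, -, n, hn⟩ := hYM _ y.2
    refine ⟨n, Subtype.ext ?_⟩
    show θ y ^ r ^ n = 1
    rw [← map_pow]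
    exact Equiv.ext fun x => Subtype.ext (hn _ x.2.1)
  have hcnt := TameAux.ncard_modEq (G := Equiv.Perm Λ0) (Ω := Λ0) hθ (B := Set.univ) fun _ _ _ _ => trivial
  rw [Set.univ_inter, Set.ncard_univ, Nat.card_coe_set_eq] at hcnt
  have hcF : (⟨c, hc0⟩ : Λ0) ∈ TameAux.fixPts Λ0 θ.range := by
    rintro _ ⟨y, rfl⟩
    exact Subtype.ext (hYM _ y.2).2.1
  obtain ⟨y0, hy0, hy0c⟩ : ∃ y0 ∈ TameAux.fixPts Λ0 θ.range, y0 ≠ ⟨c, hc0⟩ := by
    by_contra! h
    rw [show TameAux.fixPts Λ0 θ.range = {⟨c, hc0⟩} from Set.eq_singleton_iff_unique_mem.2 ⟨hcF, h⟩,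
      Set.ncard_singleton] at hcnt
    have h1 := hmod.symm.trans hcnt
    have h2 : 2 ≤ r := hr.two_le
    rw [Nat.ModEq, Nat.mod_eq_of_lt (by omega : 2 < r), Nat.mod_eq_of_lt (by omega : 1 < r)] at h1
    omega
  obtain ⟨x, hx, hxne⟩ : ∃ x ∈ Λ0, x ∉ ({c, z} : Set Ω) := by
    by_contra! h
    have := Set.ncard_le_ncard (h : Λ0 ⊆ {c, z})
    rw [Set.ncard_pair hcz] at this
    omega
  simp only [Set.mem_insert_iff, Set.mem_singleton_iff, not_or] at hxne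
  obtain ⟨g, hg, hgc, hgx⟩ := twoTrans_apexSet hS hIH hM0 hM0t c (hM0ap.symm ▸ hc0) (y0 : Ω)
    (hM0ap.symm ▸ y0.2) c (hM0ap.symm ▸ hc0) x (hM0ap.symm ▸ hx)
    (fun h => hy0c (Subtype.ext h.symm)) (Ne.symm hxne.1)
  have hmemY := hYn g⁻¹ (inv_mem hg) (inv_smul_eq_iff.2 hgc.symm) a haY
  have h1 : (g⁻¹ * a * g⁻¹⁻¹) • (y0 : Ω) = y0 := congrArg Subtype.val (hy0 _ ⟨⟨_, hmemY⟩, rfl⟩)
  rw [mul_smul, mul_smul, inv_inv, inv_smul_eq_iff, hgx] at h1
  exact (hfix x hx h1).elim hxne.1 hxne.2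

end Cfsg.Agent.H14.Bender
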