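import Cfsg.Agent.H14.Bender.PartETop
import Cfsg.Agent.H14.Bender.PartECentral
import Cfsg.Agent.H14.Bender.StableST
import Cfsg.Agent.H14.Bender.Tame
import Cfsg.Agent.H14.Bender.PartEWeak
import Cfsg.Agent.H14.Bender.InfZJRich

/-!
Part E of PLAN sec. 5: a weak configuration at a pair whose exchanging involutions centralise the core gives `Full`.
-/

set_option autoImplicit false
set_option linter.style.haveILetI false
set_option linter.unusedSectionVars false

namespace Cfsg.Agent.H14.Bender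

universe u

open Subgroup

variable {G : Type u} [Group G] {Ω : Type u} [MulAction G Ω] [Finite G] [Finite Ω]

/-- PLAN sec. 5. -/
theorem full_of_weak (hS : Setting G Ω) (hR : Rich Ω (⊤ : Subgroup G)) (hIH : IH.{u} (Nat.card G)) {r : ℕ}
    (hr : r.Prime) (hr2 : r ≠ 2) {M : Subgroup G} {Λ : Set Ω} {u : G} {c z : Ω} (hM : IsWeakConfig r M Λ)
    (hc : c ∈ Λ) (hz : z ∈ Λ) (hu : IsMaxJ u c z) (hq : 1 < (J u c z).ncard)
    (hsw : SwapCentral (G := G) r c z) : Full G Ω := by
  haveI := Fact.mk hr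
  have hcz : c ≠ z := hu.2.1.symm
  obtain ⟨M₁, Λ₁, P, hT⟩ := exists_isTop hM hc hz
  set B := P ⊓ fixTo (G := G) Λ₁ with hB
  have hBS := hT.sylow_fix
  obtain ⟨hNrich, hNapex, -⟩ := PartE.normalizer_facts hS hT.weak hBS
  by_cases hnc : ∃ t ∈ M₁ ⊓ normalizer (B : Set G), orderOf t = 2 ∧
      ∃ x ∈ Cfsg.centerThompsonOf r B, x ^ r = 1 ∧ ¬ Commute t x
  · obtain ⟨hJ, hPX⟩ := hT.noncentral_case_of hS hIH hr2 hcz (fun {N} hN hNt hΛ hP hPfix {V} _ _ hV φ hker {A} hA h1 h2 h3 h4 =>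
        st hS hIH hN hNt hΛ hcz hr hr2 hP hT.sylow.2.1 hPfix hV φ hker hA h1 h2 h3 h4) hnc
    obtain ⟨s, hs, hsc⟩ : c ∈ (apexSet (M₁ ⊓ normalizer (B : Set G)) : Set Ω) := by
      rw [hNapex]; exact hT.left_mem
    have hZ : Cfsg.centerThompsonOf r P = Cfsg.centerThompsonOf r B := by
      rw [Cfsg.centerThompsonOf, Cfsg.centerThompsonOf, hJ]
    refine PartE.full_of_zj hS hR hu hq hsw hPX.1 hPX.2.1 (PartE.isSylowIn_card hPX) (fun h => ?_) hsc ?_
    · obtain ⟨y, hy, hnc'⟩ := hT.not_commute_thompson hS hr2 hs hsc.1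
      have hy' : y ∈ P := ((H23.thompsonSubgroupOf_le _).trans inf_le_left) hy
      rw [h, mem_bot] at hy'
      exact hnc' (hy' ▸ Commute.one_right s)
    · rw [hZ]
      exact H23.normalizer_le_normalizer_centerThompsonOf B hs.2
  · push Not at hnc
    obtain ⟨A₀, hA₀⟩ := H23.exists_isMaxEA (p := r) B
    refine PartE.full_of_central hS hR hIH hr2 hu hq hsw
      (fun hN hne _ hc' hz' hP hcard _ hx hxc hxz => twins_point hS hIH hN hne hc' hz' hcz hP hcard hx hxc hxz)
      (fun hN hne _ hP hPr hPF _ hQ hQr hQF => star hS hIH hN hne hP hPr hPF hcz hQ hQr hQF)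
      (fun hM' _ hB' => PartE.normalizer_facts hS hM' hB')
      (fun hG0 hne hR0 hgen hRfix hA _ hBR hBn =>
        PartE.inf_zj_le_normalizer_of hS hr2 hG0
          (fun hV φ hker _ hA' hAfix hAr hAab hquad => st hS hIH hG0 hne rfl hcz hr hr2 hR0.1 hR0.2.1 hRfix hV φ hker
            hA' hAfix hAr hAab hquad)
          hR0 hgen hRfix hA hBR hBn)
      hT.weak hT.left_mem hT.right_mem hBS hA₀ ?_
      (fun t ht ht2 => hT.not_commute_thompson hS hr2 ht ht2) hnc
    intro M' Λ' hM' hc' hz' A hA hAc hAe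
    have hApX : A ≤ pairStab c z ⊓ M' := by
      refine le_inf (fun a ha => ⟨hA ha c hc', hA ha z hz'⟩) fun a ha => ?_
      rw [← hM'.1.stab]
      exact fun x => ⟨fun h => by
        have h1 := hA ha _ h
        rw [smul_left_cancel_iff] at h1
        rwa [← h1], fun h => by rwa [hA ha x h]⟩
    have hAr : IsPGroup r A := fun a => ⟨1, Subtype.ext (by simpa using hAe a a.2)⟩
    have h := (hT.compare hM' hc' hz' hApX hAr).1
    rw [inf_eq_left.2 hA, eaCard_eq (A := A) ⟨le_rfl, hAc, hAe, fun B' hB' _ _ => card_le_of_le hB'⟩,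
      eaCard_eq hA₀] at h
    exact h

end Cfsg.Agent.H14.Bender
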