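import Cfsg.Agent.H14.Bender.PartI
import Cfsg.Agent.H14.Bender.PartII
import Cfsg.Agent.H14.Bender.PartE
import Cfsg.Agent.H14.Bender.Final
import Cfsg.Agent.H14.Bender.Assembly

/-! The main theorem for rich settings. -/

set_option autoImplicit false

namespace Cfsg.Agent.H14.Bender

universe u

/-- The induction hypothesis holds for every order. -/
theorem ih_all (n : ℕ) : IH.{u} n := by
  induction n using Nat.strong_induction_on with
  | _ n ih =>
    intro K Δ _ _ _ _ hlt hS hR
    have hIH : IH.{u} (Nat.card K) := ih _ hlt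
    by_cases hJ : NoJ K Δ
    · exact ⟨hJ, twoTrans_of_noJ hS hR hJ⟩
    · exfalso
      apply not_full hS hR hIH
      obtain ⟨M, Λ, hM⟩ := exists_jConfig hS hR hIH hJ
      rcases part2 hS hR hIH hM with h | ⟨r, hr, hr2, M', Λ', u, c, z, hW, hc, hz, hmax, hq, hsw⟩
      · exact h
      · exact full_of_weak hS hR hIH hr hr2 hW hc hz hmax hq hsw

/-- Every finite rich setting has only trivial sets `J` and is doubly transitive. -/
theorem allConc : AllConc.{u} := fun K Δ _ _ _ _ hS hR =>
  ih_all (Nat.card K + 1) K Δ (Nat.lt_succ_self _) hS hR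

end Cfsg.Agent.H14.Bender
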