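import Cfsg.Agent.H14.Bender.PartEWeak
import Cfsg.Agent.H14.Bender.Tame
import Cfsg.Agent.H23.ZJElementary
import Cfsg.Agent.H54.PStable
import Cfsg.Agent.H25.PF14.Solvable

/-!
S1220, PLAN section 5, first half: configurations maximal for (rank, Thompson subgroup, Sylow
subgroup) and the case where an involution is noncentral on `Ω₁ Z(J(B))`.
-/

set_option autoImplicit false
set_option linter.unusedSectionVars false

namespace Cfsg.Agent.H14.Bender

open Subgroup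
open Cfsg.Agent.H23 (IsMaxEA IsSylowIn)

universe u

variable {G : Type u} [Group G] {Ω : Type u} [MulAction G Ω] [Finite G] [Finite Ω]
variable {r : ℕ}

/-! ### The order of a largest elementary abelian subgroup -/

/-- The order of a largest elementary abelian `r`-subgroup of `B`. -/
noncomputable def eaCard (r : ℕ) (B : Subgroup G) : ℕ :=
  sSup {n | ∃ A : Subgroup G, IsMaxEA r B A ∧ Nat.card A = n}

theorem eaCard_eq {B A : Subgroup G} (hA : IsMaxEA r B A) : eaCard r B = Nat.card A := by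
  have : {n | ∃ A' : Subgroup G, IsMaxEA r B A' ∧ Nat.card A' = n} = {Nat.card A} := by
    ext n
    constructor
    · rintro ⟨A', hA', rfl⟩
      exact le_antisymm (hA.2.2.2 A' hA'.1 hA'.2.1 hA'.2.2.1)
        (hA'.2.2.2 A hA.1 hA.2.1 hA.2.2.1)
    · rintro rfl
      exact ⟨A, hA, rfl⟩
  rw [eaCard, this, csSup_singleton]

theorem eaCard_mono {B C : Subgroup G} (h : B ≤ C) : eaCard r B ≤ eaCard r C := by
  obtain ⟨A, hA⟩ := H23.exists_isMaxEA (p := r) B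
  obtain ⟨A', hA'⟩ := H23.exists_isMaxEA (p := r) C
  rw [eaCard_eq hA, eaCard_eq hA']
  exact hA'.2.2.2 A (hA.1.trans h) hA.2.1 hA.2.2.1

theorem isMaxEA_of_card {C A : Subgroup G} (hAC : A ≤ C) (hc : ∀ a ∈ A, ∀ b ∈ A, Commute a b)
    (he : ∀ a ∈ A, a ^ r = 1) (hcard : eaCard r C ≤ Nat.card A) : IsMaxEA r C A := by
  refine ⟨hAC, hc, he, fun B hB hBc hBe => le_trans ?_ hcard⟩
  obtain ⟨A', hA'⟩ := H23.exists_isMaxEA (p := r) C
  rw [eaCard_eq hA']
  exact hA'.2.2.2 B hB hBc hBe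

theorem le_thompsonSubgroupOf {B A : Subgroup G} (hA : IsMaxEA r B A) :
    A ≤ thompsonSubgroupOf r B := by
  rw [H23.thompsonSubgroupOf_eq]; exact le_sSup hA

theorem thompsonSubgroupOf_mono {B C : Subgroup G} (h : thompsonSubgroupOf r B ≤ C)
    (hea : eaCard r C ≤ eaCard r B) : thompsonSubgroupOf r B ≤ thompsonSubgroupOf r C := by
  conv_lhs => rw [H23.thompsonSubgroupOf_eq]
  refine sSup_le fun A hA => le_thompsonSubgroupOf ?_
  exact isMaxEA_of_card ((le_thompsonSubgroupOf hA).trans h) hA.2.1 hA.2.2.1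
    (hea.trans (eaCard_eq hA).le)

theorem eaCard_le_thompsonSubgroupOf (B : Subgroup G) :
    eaCard r B ≤ eaCard r (thompsonSubgroupOf r B) := by
  obtain ⟨A, hA⟩ := H23.exists_isMaxEA (p := r) B
  obtain ⟨A', hA'⟩ := H23.exists_isMaxEA (p := r) (thompsonSubgroupOf r B)
  rw [eaCard_eq hA, eaCard_eq hA']
  exact hA'.2.2.2 A (le_thompsonSubgroupOf hA) hA.2.1 hA.2.2.1

/-! ### Elementary facts -/

theorem eq_one_of_sq_eq_one_of_odd {d : G} (h2 : d ^ 2 = 1) {n : ℕ} (hn : Odd n) (hd : d ^ n = 1) :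
    d = 1 := by
  have := pow_gcd_eq_one.2 ⟨h2, hd⟩
  rwa [Nat.Coprime.gcd_eq_one hn.coprime_two_left, pow_one] at this

theorem eq_one_of_mem_pGroup_of_sq [Fact r.Prime] (hr2 : r ≠ 2) {B : Subgroup G}
    (hB : IsPGroup r B) {d : G} (hd : d ∈ B) (h2 : d ^ 2 = 1) : d = 1 := by
  obtain ⟨k, hk⟩ := hB ⟨d, hd⟩
  exact eq_one_of_sq_eq_one_of_odd h2 ((Fact.out : r.Prime).odd_of_ne_two hr2).pow
    (congrArg Subtype.val hk : d ^ r ^ k = 1)

theorem inv_eq_self_of_order_two {t : G} (ht : orderOf t = 2) : t⁻¹ = t := by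
  rw [inv_eq_iff_mul_eq_one, ← pow_two, ← ht, pow_orderOf_eq_one]

/-- An involution normalising a subgroup in which it inverts no nontrivial element centralises it. -/
theorem commute_of_no_inverted {B : Subgroup G} {t : G} (ht : orderOf t = 2)
    (hn : t ∈ normalizer (B : Set G))
    (h : ∀ d ∈ B, t * d * t⁻¹ = d⁻¹ → d = 1) : ∀ x ∈ B, Commute t x := by
  intro x hx
  have hd : x⁻¹ * (t * x * t⁻¹) ∈ B := mul_mem (inv_mem hx) ((mem_normalizer_iff.1 hn x).1 hx)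
  have h1 := h _ hd (by
    have e : t⁻¹ = t := inv_eq_self_of_order_two ht
    have e2 : t * t = 1 := by rw [← pow_two, ← ht, pow_orderOf_eq_one]
    rw [e, mul_inv_rev, mul_inv_rev, mul_inv_rev, inv_inv, e]
    calc t * (x⁻¹ * (t * x * t)) * t = t * x⁻¹ * t * x * (t * t) := by simp only [mul_assoc]
      _ = t * (x⁻¹ * t) * x := by rw [e2, mul_one]; simp only [mul_assoc])
  rw [inv_mul_eq_one] at h1
  exact (mul_inv_eq_iff_eq_mul.1 h1.symm)

/-- `A × B` lemma for an involution `t`: if it centralises `D ≤ B` with `C_B(D) ≤ D`, it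
centralises the `r`-group `B`. -/
theorem commute_of_centralizer_le' [Fact r.Prime] (hr2 : r ≠ 2) {B D : Subgroup G}
    (hB : IsPGroup r B) {t : G} (ht : orderOf t = 2) (hn : t ∈ normalizer (B : Set G))
    (hDB : D ≤ B) (hD : ∀ x ∈ D, Commute t x)
    (hC : B ⊓ centralizer (D : Set G) ≤ D) : ∀ x ∈ B, Commute t x := by
  set K : Subgroup G := B ⊓ centralizer ({t} : Set G) with hK
  by_contra hne
  push Not at hne
  obtain ⟨x₀, hx₀, hx₀'⟩ := hne
  have hlt : K < B := lt_of_le_of_ne inf_le_left fun h =>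
    hx₀' (mem_centralizer_singleton_iff.1 (h.ge hx₀).2).symm
  obtain ⟨x, ⟨hxB, hxN⟩, hxK⟩ := SetLike.exists_of_lt (H23.lt_inf_normalizer hB hlt)
  apply hxK
  refine ⟨hxB, mem_centralizer_singleton_iff.2 ?_⟩
  obtain ⟨d, hd⟩ : ∃ d, d = x⁻¹ * (t * x * t⁻¹) := ⟨_, rfl⟩
  have hdB : d ∈ B := hd ▸ mul_mem (inv_mem hxB) ((mem_normalizer_iff.1 hn x).1 hxB)
  have hdC : d ∈ B ⊓ centralizer (D : Set G) := by
    refine ⟨hdB, mem_centralizer_iff.2 fun k hk => ?_⟩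
    have hkK : k ∈ K := ⟨hDB hk, mem_centralizer_singleton_iff.2 (hD k hk).eq.symm⟩
    have h1 := mem_centralizer_singleton_iff.1 ((mem_normalizer_iff.1 hxN k).1 hkK).2
    have h2 : t * k = k * t := (hD k hk).eq
    have h3 : t * x * t⁻¹ * k = x * k * x⁻¹ * (t * x * t⁻¹) := by
      calc t * x * t⁻¹ * k = t * x * (t⁻¹ * k) := by simp only [mul_assoc]
        _ = t * x * (k * t⁻¹) := by rw [((hD k hk).inv_left).eq]
        _ = t * (x * k * x⁻¹) * (x * t⁻¹) := by group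
        _ = x * k * x⁻¹ * t * (x * t⁻¹) := by rw [h1]
        _ = x * k * x⁻¹ * (t * x * t⁻¹) := by group
    rw [hd]
    calc k * (x⁻¹ * (t * x * t⁻¹)) = x⁻¹ * (x * k * x⁻¹ * (t * x * t⁻¹)) := by group
      _ = x⁻¹ * (t * x * t⁻¹ * k) := by rw [h3]
      _ = _ := by group
  have hdt : Commute t d := hD d (hC hdC)
  have e : t⁻¹ = t := inv_eq_self_of_order_two ht
  have e2 : t * t = 1 := by rw [← pow_two, ← ht, pow_orderOf_eq_one]
  have hinv : t * d * t⁻¹ = d⁻¹ := by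
    rw [hd, e, mul_inv_rev, mul_inv_rev, mul_inv_rev, inv_inv, e]
    calc t * (x⁻¹ * (t * x * t)) * t = t * x⁻¹ * t * x * (t * t) := by simp only [mul_assoc]
      _ = t * (x⁻¹ * t) * x := by rw [e2, mul_one]; simp only [mul_assoc]
  rw [hdt.eq, mul_inv_cancel_right] at hinv
  have hd1 := eq_one_of_mem_pGroup_of_sq hr2 hB hdB (by
    rw [pow_two]; nth_rw 2 [hinv]; rw [mul_inv_cancel])
  rw [hd, inv_mul_eq_one] at hd1
  exact mul_inv_eq_iff_eq_mul.1 hd1.symm |>.symm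

theorem fixTo_le_pairStab_top {Λ : Set Ω} {c z : Ω} (hc : c ∈ Λ) (hz : z ∈ Λ) :
    fixTo (G := G) Λ ≤ pairStab c z :=
  fun _ hg => ⟨hg c hc, hg z hz⟩

theorem apexSet_mono_top {L M : Subgroup G} (h : L ≤ M) : apexSet (Ω := Ω) L ⊆ apexSet M :=
  fun _ ⟨t, ht, hx⟩ => ⟨t, h ht, hx⟩

/-! ### Weak configurations -/

theorem IsWeakConfig.le_pairStab_inf {M : Subgroup G} {Λ : Set Ω} (hM : IsWeakConfig r M Λ)
    {c z : Ω} (hc : c ∈ Λ) (hz : z ∈ Λ) : fixTo (G := G) Λ ≤ pairStab c z ⊓ M :=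
  le_inf (fixTo_le_pairStab_top hc hz) (hM.1.stab ▸ PartII.fixTo_le_setStab)

theorem IsWeakConfig.le_normalizer_fixTo {M : Subgroup G} {Λ : Set Ω} (hM : IsWeakConfig r M Λ) :
    M ≤ normalizer (fixTo (G := G) Λ : Set G) :=
  hM.1.stab ▸ PartII.setStab_normalizes_fixTo

/-- Every involution of a weak configuration inverts a nontrivial `r`-element fixing its apexes. -/
theorem exists_inverted (hS : Setting G Ω) {M : Subgroup G} {Λ : Set Ω}
    (hM : IsWeakConfig r M Λ) {t : G} (ht : t ∈ M) (ht2 : orderOf t = 2) :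
    ∃ j ∈ fixTo (G := G) Λ, j ≠ 1 ∧ t * j * t⁻¹ = j⁻¹ ∧ ∃ k : ℕ, j ^ r ^ k = 1 := by
  obtain ⟨hC, j, hj, s, hs, hs2, hj1, hinv, k, hk⟩ := hM
  obtain ⟨g, hg, rfl⟩ := PartE.conj_mem hS hC.rich.2 hs hs2 ht ht2
  refine ⟨g * j * g⁻¹, (mem_normalizer_iff.1 ((PartII.setStab_normalizes_fixTo) (hC.stab.symm ▸ hg)) j).1 hj,
    ?_, ?_, k, ?_⟩
  · intro h
    exact hj1 (conj_eq_one_iff.1 h)
  · calc g * s * g⁻¹ * (g * j * g⁻¹) * (g * s * g⁻¹)⁻¹ = g * (s * j * s⁻¹) * g⁻¹ := by group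
      _ = (g * j * g⁻¹)⁻¹ := by rw [hinv]; group
  · rw [conj_pow, hk, mul_one, mul_inv_cancel]

/-- The pair of data used to compare weak configurations. -/
noncomputable def score (r : ℕ) (Λ : Set Ω) (P : Subgroup G) : ℕ ×ₗ ℕ ×ₗ ℕ :=
  toLex (eaCard r (P ⊓ fixTo Λ),
    toLex (Nat.card (thompsonSubgroupOf r (P ⊓ fixTo Λ)), Nat.card P))

/-- A weak configuration at `(c, z)` with a Sylow `r`-subgroup `P` of the pair stabiliser in it,
largest for the rank of `B = P ⊓ fixTo Λ`, then `|J(B)|`, then `|P|`. -/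
structure IsTop (r : ℕ) (c z : Ω) (M : Subgroup G) (Λ : Set Ω) (P : Subgroup G) : Prop where
  weak : IsWeakConfig r M Λ
  left_mem : c ∈ Λ
  right_mem : z ∈ Λ
  sylow : IsSylowIn r P (pairStab c z ⊓ M)
  le_score : ∀ (M' : Subgroup G) (Λ' : Set Ω) (P' : Subgroup G), IsWeakConfig r M' Λ' →
    c ∈ Λ' → z ∈ Λ' → IsSylowIn r P' (pairStab c z ⊓ M') → score r Λ' P' ≤ score r Λ P

theorem exists_isTop [Fact r.Prime] {M : Subgroup G} {Λ : Set Ω} {c z : Ω}
    (hM : IsWeakConfig r M Λ) (hc : c ∈ Λ) (hz : z ∈ Λ) :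
    ∃ (M' : Subgroup G) (Λ' : Set Ω) (P : Subgroup G), IsTop r c z M' Λ' P := by
  obtain ⟨P₀, hP₀, -⟩ := H23.exists_isSylowIn_ge (p := r) (L := (⊥ : Subgroup G))
    (H := pairStab c z ⊓ M) bot_le IsPGroup.of_bot
  obtain ⟨⟨M', Λ', P⟩, ⟨h1, h2, h3, h4⟩, hmax⟩ := Set.exists_max_image
    {x : Subgroup G × Set Ω × Subgroup G |
      IsWeakConfig r x.1 x.2.1 ∧ c ∈ x.2.1 ∧ z ∈ x.2.1 ∧ IsSylowIn r x.2.2 (pairStab c z ⊓ x.1)}
    (fun x => score r x.2.1 x.2.2) (Set.toFinite _) ⟨(M, Λ, P₀), hM, hc, hz, hP₀⟩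
  exact ⟨M', Λ', P, h1, h2, h3, h4, fun A B C a b c' d => hmax (A, B, C) ⟨a, b, c', d⟩⟩

namespace IsTop

variable [Fact r.Prime] {c z : Ω} {M : Subgroup G} {Λ : Set Ω} {P : Subgroup G}

theorem compare (hT : IsTop r c z M Λ P) {M' : Subgroup G} {Λ' : Set Ω}
    (hM' : IsWeakConfig r M' Λ') (hc : c ∈ Λ') (hz : z ∈ Λ') {Q : Subgroup G}
    (hQ : Q ≤ pairStab c z ⊓ M') (hQr : IsPGroup r Q) :
    eaCard r (Q ⊓ fixTo Λ') ≤ eaCard r (P ⊓ fixTo Λ) ∧
      (eaCard r (Q ⊓ fixTo Λ') = eaCard r (P ⊓ fixTo Λ) →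
        Nat.card (thompsonSubgroupOf r (Q ⊓ fixTo Λ')) ≤
            Nat.card (thompsonSubgroupOf r (P ⊓ fixTo Λ)) ∧
          (Nat.card (thompsonSubgroupOf r (Q ⊓ fixTo Λ')) =
              Nat.card (thompsonSubgroupOf r (P ⊓ fixTo Λ)) → Nat.card Q ≤ Nat.card P)) := by
  obtain ⟨P', hP', hQP⟩ := H23.exists_isSylowIn_ge hQ hQr
  have hle := hT.le_score M' Λ' P' hM' hc hz hP'
  simp only [score, Prod.Lex.toLex_le_toLex] at hle
  have h1 : eaCard r (Q ⊓ fixTo Λ') ≤ eaCard r (P' ⊓ fixTo Λ') :=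
    eaCard_mono (inf_le_inf_right _ hQP)
  have h2 : eaCard r (P' ⊓ fixTo Λ') ≤ eaCard r (P ⊓ fixTo Λ) := by
    rcases hle with h | ⟨h, -⟩
    · exact h.le
    · exact h.le
  refine ⟨h1.trans h2, fun heq => ?_⟩
  have h3 : eaCard r (P' ⊓ fixTo Λ') = eaCard r (P ⊓ fixTo Λ) :=
    le_antisymm h2 (heq ▸ h1)
  have h4 := hle.resolve_left (fun h => h.ne h3)
  have hJle : thompsonSubgroupOf r (Q ⊓ fixTo Λ') ≤ thompsonSubgroupOf r (P' ⊓ fixTo Λ') :=
    thompsonSubgroupOf_mono ((H23.thompsonSubgroupOf_le _).trans (inf_le_inf_right _ hQP))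
      (h3.le.trans heq.ge)
  have h5 : Nat.card (thompsonSubgroupOf r (P' ⊓ fixTo Λ')) ≤
      Nat.card (thompsonSubgroupOf r (P ⊓ fixTo Λ)) := by
    rcases h4.2 with h | ⟨h, -⟩
    · exact h.le
    · exact h.le
  refine ⟨(Subgroup.card_le_of_le hJle).trans h5, fun hJ => ?_⟩
  have h6 := h4.2.resolve_left (fun h => h.ne (le_antisymm h5
    (hJ ▸ Subgroup.card_le_of_le hJle)))
  exact (Subgroup.card_le_of_le hQP).trans h6.2

theorem fixTo_le (hT : IsTop r c z M Λ P) : fixTo (G := G) Λ ≤ pairStab c z ⊓ M :=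
  hT.weak.le_pairStab_inf hT.left_mem hT.right_mem

theorem isPGroup_B (hT : IsTop r c z M Λ P) : IsPGroup r ↥(P ⊓ fixTo Λ) :=
  hT.sylow.2.1.to_le inf_le_left

theorem le_N (hT : IsTop r c z M Λ P) :
    P ≤ M ⊓ normalizer ((P ⊓ fixTo Λ : Subgroup G) : Set G) := by
  intro g hg
  have hgM : g ∈ M := (hT.sylow.1 hg).2
  refine ⟨hgM, mem_normalizer_iff.2 fun x => ?_⟩
  have h1 := mem_normalizer_iff.1 (hT.weak.le_normalizer_fixTo hgM) x
  exact and_congr ⟨fun hx => P.mul_mem (P.mul_mem hg hx) (P.inv_mem hg),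
    fun hx => by simpa [mul_assoc] using P.mul_mem (P.mul_mem (P.inv_mem hg) hx) hg⟩ h1

theorem sylow_fix (hT : IsTop r c z M Λ P) :
    IsSylowIn r (P ⊓ fixTo Λ) (fixTo (G := G) Λ) := by
  obtain ⟨B', hB', hle⟩ := H23.exists_isSylowIn_ge (H := fixTo (G := G) Λ)
    (inf_le_right : P ⊓ fixTo Λ ≤ fixTo Λ) hT.isPGroup_B
  obtain ⟨K, hK, hBK⟩ := H23.exists_isSylowIn_ge (hB'.1.trans hT.fixTo_le) hB'.2.1
  obtain ⟨m, hm, hmK⟩ := hT.sylow.exists_rconj hK
  have hY : H23.rconj m (fixTo (G := G) Λ) = fixTo Λ :=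
    H23.rconj_eq_self (hT.weak.le_normalizer_fixTo hm.2)
  have hsub : B' ≤ H23.rconj m (P ⊓ fixTo Λ) := by
    intro x hx
    have h1 : x ∈ H23.rconj m P := hmK ▸ hBK hx
    have h2 : x ∈ H23.rconj m (fixTo (G := G) Λ) := hY.symm ▸ hB'.1 hx
    rw [H23.mem_rconj] at h1 h2 ⊢
    exact ⟨h1, h2⟩
  have : B' = P ⊓ fixTo Λ := (eq_of_le_of_card_ge hle
    ((Subgroup.card_le_of_le hsub).trans (H23.card_rconj m _).le)).symm
  exact this ▸ hB'

theorem B_ne_bot (hT : IsTop r c z M Λ P) : P ⊓ fixTo Λ ≠ ⊥ := by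
  obtain ⟨-, j, hj, -, -, -, hj1, -, k, hk⟩ := hT.weak
  have hjr : IsPGroup r (zpowers j) := by
    refine fun ⟨x, hx⟩ => ⟨k, Subtype.ext ?_⟩
    obtain ⟨i, rfl⟩ := mem_zpowers_iff.1 hx
    rw [SubmonoidClass.coe_pow, OneMemClass.coe_one, ← zpow_natCast, ← zpow_mul, mul_comm,
      zpow_mul, zpow_natCast, hk, one_zpow]
  obtain ⟨K, hK, hjK⟩ := H23.exists_isSylowIn_ge (zpowers_le.2 hj) hjr
  obtain ⟨m, -, hm⟩ := hT.sylow_fix.exists_rconj hK
  intro h
  have := hm ▸ hjK (mem_zpowers j)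
  rw [H23.mem_rconj, h, mem_bot, conj_eq_one_iff] at this
  exact hj1 this

theorem frattini (hT : IsTop r c z M Λ P) {m : G} (hm : m ∈ M) :
    ∃ y ∈ fixTo (G := G) Λ, m * y ∈ M ⊓ normalizer ((P ⊓ fixTo Λ : Subgroup G) : Set G) := by
  have h1 := hT.sylow_fix.rconj m
  rw [H23.rconj_eq_self (hT.weak.le_normalizer_fixTo hm)] at h1
  obtain ⟨y, hy, hyB⟩ := h1.exists_rconj hT.sylow_fix
  rw [H23.rconj_rconj] at hyB
  exact ⟨y, hy, mul_mem hm (hT.fixTo_le hy).2, H23.mem_normalizer_of_rconj hyB⟩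

theorem le_normalizer_sup (hT : IsTop r c z M Λ P) :
    M ≤ fixTo Λ ⊔ (M ⊓ normalizer ((P ⊓ fixTo Λ : Subgroup G) : Set G)) := by
  intro m hm
  obtain ⟨y, hy, hmy⟩ := hT.frattini hm
  have := mul_mem (mem_sup_right (S := fixTo (G := G) Λ) hmy) (inv_mem (mem_sup_left hy))
  rwa [mul_inv_cancel_right] at this

theorem rich_N (hT : IsTop r c z M Λ P) (hS : Setting G Ω) :
    Rich Ω (M ⊓ normalizer ((P ⊓ fixTo Λ : Subgroup G) : Set G)) ∧
      apexSet (Ω := Ω) (M ⊓ normalizer ((P ⊓ fixTo Λ : Subgroup G) : Set G)) = Λ :=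
  ⟨(PartE.normalizer_facts hS hT.weak hT.sylow_fix).1,
    (PartE.normalizer_facts hS hT.weak hT.sylow_fix).2.1⟩

theorem N_le_normalizer_J (r : ℕ) (M B : Subgroup G) :
    M ⊓ normalizer (B : Set G) ≤ normalizer (thompsonSubgroupOf r B : Set G) :=
  inf_le_right.trans (H23.normalizer_le_normalizer_thompsonSubgroupOf B)

theorem not_commute_thompson (hT : IsTop r c z M Λ P) (hS : Setting G Ω) (hr2 : r ≠ 2) {t : G}
    (ht : t ∈ M ⊓ normalizer ((P ⊓ fixTo Λ : Subgroup G) : Set G)) (ht2 : orderOf t = 2) :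
    ∃ x ∈ thompsonSubgroupOf r (P ⊓ fixTo Λ), ¬ Commute t x := by
  by_contra hne
  push Not at hne
  obtain ⟨x₀, hx₀, hx₀'⟩ := (PartE.normalizer_facts hS hT.weak hT.sylow_fix).2.2 t ht ht2
  obtain ⟨A, hA⟩ := H23.exists_isMaxEA (p := r) (P ⊓ fixTo Λ)
  set B := P ⊓ fixTo Λ
  have hAt : ∀ a ∈ A, Commute t a := fun a ha => hne a (le_thompsonSubgroupOf hA ha)
  set D := B ⊓ centralizer (A : Set G) with hD
  have hAD : A ≤ D := fun a ha =>
    ⟨hA.1 ha, mem_centralizer_iff.2 fun b hb => (hA.2.1 b hb a ha).eq⟩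
  have hnD : t ∈ normalizer (D : Set G) := by
    refine mem_normalizer_iff.2 fun x => and_congr (mem_normalizer_iff.1 ht.2 x) ?_
    simp only [SetLike.mem_coe]
    refine forall₂_congr fun a ha => ?_
    have e : t * a * t⁻¹ = a := mul_inv_eq_iff_eq_mul.2 (hAt a ha).eq
    constructor
    · intro h
      calc a * (t * x * t⁻¹) = t * a * t⁻¹ * (t * x * t⁻¹) := by rw [e]
        _ = t * (a * x) * t⁻¹ := by group
        _ = t * (x * a) * t⁻¹ := by rw [h]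
        _ = t * x * t⁻¹ * (t * a * t⁻¹) := by group
        _ = _ := by rw [e]
    · intro h
      calc a * x = t⁻¹ * ((t * a * t⁻¹) * (t * x * t⁻¹)) * t := by group
        _ = t⁻¹ * ((t * x * t⁻¹) * (t * a * t⁻¹)) * t := by rw [e, h]
        _ = x * a := by group
  have hDt : ∀ x ∈ D, Commute t x := by
    refine commute_of_no_inverted ht2 hnD fun d hd hinv => ?_
    by_contra hd1
    obtain ⟨k, hk⟩ := hT.isPGroup_B ⟨d, hd.1⟩
    have hk' : d ^ r ^ k = 1 := congrArg Subtype.val hk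
    obtain ⟨m, hm, hme⟩ := (Nat.dvd_prime_pow (Fact.out : r.Prime)).1
      (orderOf_dvd_of_pow_eq_one hk')
    have hm0 : m ≠ 0 := fun h => hd1 (orderOf_eq_one_iff.1 (by rw [hme, h, pow_zero]))
    obtain ⟨m', rfl⟩ := Nat.exists_eq_succ_of_ne_zero hm0
    have her : (d ^ r ^ m') ^ r = 1 := by
      rw [← pow_mul, ← pow_succ, ← hme, pow_orderOf_eq_one]
    have hmem : d ^ r ^ m' ∈ A := hA.mem_of_commute (pow_mem hd.1 _)
      (fun a ha => Commute.pow_right (mem_centralizer_iff.1 hd.2 a ha) _) her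
    have hc1 : t * d ^ r ^ m' * t⁻¹ = d ^ r ^ m' := mul_inv_eq_iff_eq_mul.2 (hAt _ hmem).eq
    rw [← conj_pow, hinv, inv_pow] at hc1
    have he1 := eq_one_of_mem_pGroup_of_sq hr2 hT.isPGroup_B (pow_mem hd.1 (r ^ m'))
      (by rw [pow_two]; nth_rw 2 [← hc1]; rw [mul_inv_cancel])
    have := Nat.le_of_dvd (pow_pos (Fact.out : r.Prime).pos _) (orderOf_dvd_of_pow_eq_one he1)
    rw [hme] at this
    exact (Nat.pow_lt_pow_succ (Fact.out : r.Prime).one_lt).not_ge this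
  refine hx₀' (commute_of_centralizer_le' hr2 hT.isPGroup_B ht2 ht.2 inf_le_left hDt ?_ x₀ hx₀)
  exact inf_le_inf_left _ (centralizer_le hAD)

theorem thompson_ne_bot (hT : IsTop r c z M Λ P) :
    thompsonSubgroupOf r (P ⊓ fixTo Λ) ≠ ⊥ :=
  H23.thompsonSubgroupOf_ne_bot hT.isPGroup_B hT.B_ne_bot

theorem isSylowIn_of_thompson_eq (hT : IsTop r c z M Λ P) (hS : Setting G Ω) (hr2 : r ≠ 2)
    (hJ : thompsonSubgroupOf r P = thompsonSubgroupOf r (P ⊓ fixTo Λ)) :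
    IsSylowIn r P (pairStab c z) := by
  set J := thompsonSubgroupOf r (P ⊓ fixTo Λ) with hJdef
  obtain ⟨R, hR, hPR⟩ := H23.exists_isSylowIn_ge (hT.sylow.1.trans inf_le_left) hT.sylow.2.1
  by_cases hRP : R = P
  · exact hRP ▸ hR
  exfalso
  have hlt := H23.lt_inf_normalizer hR.2.1 (lt_of_le_of_ne hPR (Ne.symm hRP))
  set R₁ := R ⊓ normalizer (P : Set G)
  set N' := normalizer (J : Set G) with hN'
  have hNN' : M ⊓ normalizer ((P ⊓ fixTo Λ : Subgroup G) : Set G) ≤ N' :=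
    N_le_normalizer_J r M _
  obtain ⟨hNr, hNa⟩ := hT.rich_N hS
  have hN'r : Rich Ω N' := PartE.rich_mono hNN' hNr
  have hJr : IsPGroup r J := hT.isPGroup_B.to_le (H23.thompsonSubgroupOf_le _)
  have hJodd : Odd (Nat.card J) := by
    obtain ⟨n, hn⟩ := hJr.exists_card_eq
    exact hn ▸ ((Fact.out : r.Prime).odd_of_ne_two hr2).pow
  have hJfix : J ≤ fixTo (apexSet (Ω := Ω) N') := PartE.le_fixTo_of_normalizes hS hN'r hJodd le_rfl
  obtain ⟨⟨x₁, hx₁⟩, hx₁1⟩ := @exists_ne ↥J ((nontrivial_iff_ne_bot J).2 hT.thompson_ne_bot) 1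
  replace hx₁1 : x₁ ≠ 1 := fun h => hx₁1 (Subtype.ext h)
  have hΛ : Λ ⊆ apexSet (Ω := Ω) N' := hNa ▸ apexSet_mono_top hNN'
  have hweak : IsWeakConfig r (setStab (G := G) (apexSet (Ω := Ω) N')) (apexSet (Ω := Ω) N') := by
    refine ⟨PartE.config_apexSet hS hN'r (hJfix hx₁) hx₁1, ?_⟩
    obtain ⟨t, ht, ht2, -⟩ := mem_apexSet.1 (hNa.symm ▸ hT.left_mem :
      c ∈ apexSet (Ω := Ω) (M ⊓ normalizer ((P ⊓ fixTo Λ : Subgroup G) : Set G)))
    obtain ⟨x, hx, hxt⟩ := hT.not_commute_thompson hS hr2 ht ht2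
    by_contra hcon
    push Not at hcon
    refine hxt (commute_of_no_inverted ht2 (hNN' ht) (fun d hd hinv => ?_) x hx)
    by_contra hd1
    obtain ⟨k, hk⟩ := hJr ⟨d, hd⟩
    exact hcon d (hJfix hd) t (PartE.le_setStab_apexSet N' (hNN' ht)) ht2 hd1 hinv k
      (congrArg Subtype.val hk)
  have hR₁ : R₁ ≤ pairStab c z ⊓ setStab (apexSet (Ω := Ω) N') := fun g hg =>
    ⟨hR.1 hg.1, PartE.le_setStab_apexSet N' (show g ∈ N' from by
      rw [hN', ← hJ]; exact H23.normalizer_le_normalizer_thompsonSubgroupOf P hg.2)⟩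
  obtain ⟨h1, h2⟩ := hT.compare hweak (hΛ hT.left_mem) (hΛ hT.right_mem) hR₁
    (hR.2.1.to_le inf_le_left)
  have hJQ : J ≤ R₁ ⊓ fixTo (apexSet (Ω := Ω) N') :=
    le_inf ((H23.thompsonSubgroupOf_le _).trans (inf_le_left.trans hlt.le)) hJfix
  have hea : eaCard r (R₁ ⊓ fixTo (apexSet (Ω := Ω) N')) = eaCard r (P ⊓ fixTo Λ) :=
    le_antisymm h1 ((eaCard_le_thompsonSubgroupOf _).trans (eaCard_mono hJQ))
  obtain ⟨h3, h4⟩ := h2 hea
  have hle := h4 (le_antisymm h3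
    (Subgroup.card_le_of_le (thompsonSubgroupOf_mono hJQ hea.le)))
  exact hlt.ne (eq_of_le_of_card_ge hlt.le hle)

theorem noncentral_case_of (hT : IsTop r c z M Λ P) (hS : Setting G Ω) (hIH : IH.{u} (Nat.card G))
    (hr2 : r ≠ 2) (hcz : c ≠ z)
    (hst : ∀ {N : Subgroup G}, Rich Ω N → N ≠ ⊤ → apexSet N = Λ → P ≤ N →
      fixedOn P Λ = {c, z} →
      ∀ {V : Type u} [CommGroup V] [Finite V], (∀ v : V, v ^ r = 1) → ∀ (φ : N →* MulAut V),
      Odd (Nat.card φ.ker) → ∀ {A : Subgroup G} (hA : A ≤ N), A ≤ pairStab c z → IsPGroup r A →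
      (∀ a ∈ A, ∀ b ∈ A, Commute a b) →
      (∀ (a : G) (ha : a ∈ A) (v : V), φ ⟨a, hA ha⟩ (φ ⟨a, hA ha⟩ v * v⁻¹) = φ ⟨a, hA ha⟩ v * v⁻¹) →
      ∃ x ∈ fixedOn A Λ, x ≠ c ∧ x ≠ z)
    (hnc : ∃ t ∈ M ⊓ normalizer ((P ⊓ fixTo Λ : Subgroup G) : Set G), orderOf t = 2 ∧
      ∃ x ∈ centerThompsonOf r (P ⊓ fixTo Λ), x ^ r = 1 ∧ ¬ Commute t x) :
    thompsonSubgroupOf r P = thompsonSubgroupOf r (P ⊓ fixTo Λ) ∧
      IsSylowIn r P (pairStab c z) := by
  suffices hJ : thompsonSubgroupOf r P = thompsonSubgroupOf r (P ⊓ fixTo Λ) from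
    ⟨hJ, hT.isSylowIn_of_thompson_eq hS hr2 hJ⟩
  set B := P ⊓ fixTo Λ with hB
  set N := M ⊓ normalizer (B : Set G) with hN
  obtain ⟨hNr, hNa⟩ := hT.rich_N hS
  set Z := centerThompsonOf r B with hZ
  have hZc : ∀ a ∈ Z, ∀ b ∈ Z, Commute a b := fun a ha b hb =>
    mem_centralizer_iff.1 hb.2 a ha.1
  let Z₀ : Subgroup G :=
    { carrier := {x | x ∈ Z ∧ x ^ r = 1}
      one_mem' := ⟨one_mem _, one_pow r⟩
      mul_mem' := fun {a b} ha hb => ⟨mul_mem ha.1 hb.1, by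
        rw [(hZc a ha.1 b hb.1).mul_pow, ha.2, hb.2, one_mul]⟩
      inv_mem' := fun {a} ha => ⟨inv_mem ha.1, by rw [inv_pow, ha.2, inv_one]⟩ }
  have hZ₀B : Z₀ ≤ B := fun x hx => H23.thompsonSubgroupOf_le B hx.1.1
  have hZ₀P : Z₀ ≤ P := hZ₀B.trans inf_le_left
  have hNZ : N ≤ normalizer (Z : Set G) :=
    (N_le_normalizer_J r M B).trans (H23.normalizer_le_normalizer_inf_centralizer _)
  have hNZ₀ : N ≤ normalizer (Z₀ : Set G) := fun g hg => mem_normalizer_iff.2 fun x =>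
    and_congr (mem_normalizer_iff.1 (hNZ hg) x) (by rw [conj_pow]; exact conj_eq_one_iff.symm)
  have hnc' : ∀ t ∈ N, orderOf t = 2 → ∃ x ∈ Z₀, ¬ Commute t x := by
    intro t ht ht2
    obtain ⟨s, hs, hs2, x, hxZ, hxr, hxs⟩ := hnc
    obtain ⟨g, hg, rfl⟩ := PartE.conj_mem hS hNr.2 hs hs2 ht ht2
    exact ⟨g * x * g⁻¹, (mem_normalizer_iff.1 (hNZ₀ hg) x).1 ⟨hxZ, hxr⟩,
      fun h => hxs (by simpa [mul_assoc] using h.map (MulAut.conj g⁻¹).toMonoidHom)⟩
  suffices hall : ∀ A, IsMaxEA r P A → A ≤ B by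
    have hea : eaCard r P ≤ eaCard r B := by
      obtain ⟨A, hA⟩ := H23.exists_isMaxEA (p := r) P
      rw [eaCard_eq hA]
      obtain ⟨A', hA'⟩ := H23.exists_isMaxEA (p := r) B
      rw [eaCard_eq hA']
      exact hA'.2.2.2 A (hall A hA) hA.2.1 hA.2.2.1
    refine le_antisymm ?_
      (thompsonSubgroupOf_mono ((H23.thompsonSubgroupOf_le B).trans inf_le_left) hea)
    rw [H23.thompsonSubgroupOf_eq]
    refine sSup_le fun A hA => le_thompsonSubgroupOf ⟨hall A hA, hA.2.1, hA.2.2.1,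
      fun C hC => hA.2.2.2 C (hC.trans inf_le_left)⟩
  by_contra hcon
  push Not at hcon
  obtain ⟨A, ⟨hA, hAB⟩, hmax⟩ := Set.Finite.exists_maximalFor
    (fun A : Subgroup G => Nat.card ↥(A ⊓ Z₀)) {A | IsMaxEA r P A ∧ ¬ A ≤ B}
    (Set.toFinite _) hcon
  have hAc : IsMulCommutative A := ⟨⟨fun a b => Subtype.ext (hA.2.1 a a.2 b b.2).eq⟩⟩
  have hnorm : Z₀ ≤ normalizer (A : Set G) := by
    by_contra hnot
    obtain ⟨A', hA'P, hA'ab, hA'card, hA'exp, -, hlt1, hlt2⟩ :=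
      H35.exists_replacement_in_subgroup hr2 hT.sylow.2.1 hZ₀P (hT.le_N.trans hNZ₀) hA.1 hAc
        (commutator_le.2 fun a ha b hb => by
          rw [commutatorElement_eq_one_iff_commute.2 (hZc a ha.1 b hb.1)]; exact one_mem _) hnot
    have hA' : IsMaxEA r P A' := by
      refine ⟨hA'P, fun a ha b hb => congrArg Subtype.val (mul_comm' (⟨a, ha⟩ : A') ⟨b, hb⟩),
        fun a ha => ?_, fun C h1 h2 h3 => hA'card ▸ hA.2.2.2 C h1 h2 h3⟩
      have hd : Monoid.exponent A ∣ r :=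
        Monoid.exponent_dvd_of_forall_pow_eq_one fun x => Subtype.ext (by simpa using hA.2.2.1 x x.2)
      have h := Monoid.exponent_dvd_iff_forall_pow_eq_one.1 (hA'exp.trans hd) ⟨a, ha⟩
      simpa using congrArg Subtype.val h
    by_cases hA'B : A' ≤ B
    · have hA'm : IsMaxEA r B A' := ⟨hA'B, hA'.2.1, hA'.2.2.1,
        fun C h => hA'.2.2.2 C (h.trans inf_le_left)⟩
      refine hlt2.ne (inf_eq_right.2 fun y hy => hA'm.mem_of_commute (hZ₀B hy) (fun a ha => ?_) hy.2)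
      exact mem_centralizer_iff.1 hy.1.2 a (le_thompsonSubgroupOf hA'm ha)
    · exact hlt1.ne (eq_of_le_of_card_ge hlt1.le
        (hmax ⟨hA', hA'B⟩ (Subgroup.card_le_of_le hlt1.le)))
  have hquad : ∀ a ∈ A, ∀ v ∈ Z₀, Commute (a * v * a⁻¹ * v⁻¹) a := by
    intro a ha v hv
    have h : a * v * a⁻¹ * v⁻¹ ∈ A := by
      have := mul_mem ha ((mem_normalizer_iff.1 (hnorm hv) a⁻¹).1 (inv_mem ha))
      simpa [mul_assoc] using this
    exact hA.2.1 _ h a ha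
  have hAN : A ≤ N := hA.1.trans hT.le_N
  have hAX : A ≤ pairStab c z := hA.1.trans (hT.sylow.1.trans inf_le_left)
  have hAr : IsPGroup r A := hT.sylow.2.1.to_le hA.1
  have hNtop : N ≠ ⊤ := fun h => hT.weak.1.proper (top_le_iff.1 (h ▸ inf_le_left))
  let instV : CommGroup ↥Z₀ :=
    { (inferInstance : Group ↥Z₀) with
      mul_comm := fun a b => Subtype.ext (hZc _ a.2.1 _ b.2.1).eq }
  -- a sub-configuration of `Λ` fixed by `A`
  obtain ⟨L, hLN, hLr, hcL, hzL, hAL⟩ : ∃ L : Subgroup G, L ≤ N ∧ Rich Ω L ∧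
      c ∈ apexSet (Ω := Ω) L ∧ z ∈ apexSet (Ω := Ω) L ∧ A ≤ fixTo (apexSet (Ω := Ω) L) := by
    have hker : ∀ t ∈ N, orderOf t = 2 → ¬ (∀ v ∈ Z₀, Commute t v) := fun t ht ht2 h => by
      obtain ⟨x, hx, hxt⟩ := hnc' t ht ht2
      exact hxt (h x hx)
    by_cases hF2 : fixedOn P Λ = {c, z}
    · let φ : N →* MulAut ↥Z₀ := (normalizerMonoidHom Z₀).comp (inclusion hNZ₀)
      have hφ : ∀ (g : N) (v : Z₀), ((φ g v : Z₀) : G) = (g : G) * (v : G) * (g : G)⁻¹ :=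
        fun g v => rfl
      have hodd : Odd (Nat.card φ.ker) := by
        rw [← Nat.not_even_iff_odd, even_iff_two_dvd]
        intro h2
        obtain ⟨⟨g, hg⟩, ho⟩ := exists_prime_orderOf_dvd_card' 2 h2 (hp := ⟨Nat.prime_two⟩)
        rw [Subgroup.orderOf_mk, ← Subgroup.orderOf_coe] at ho
        refine hker g g.2 ho fun v hv => mul_inv_eq_iff_eq_mul.1 ?_
        have := hφ g ⟨v, hv⟩
        rw [MonoidHom.mem_ker.1 hg] at this
        exact this.symm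
      obtain ⟨x, hx, hxc, hxz⟩ := hst hNr hNtop hNa hT.le_N hF2 (V := ↥Z₀)
        (fun v => Subtype.ext (by simpa using v.2.2)) φ hodd hAN hAX hAr hA.2.1
        (fun a ha v => Subtype.ext (by
          have hq := (hquad a ha v v.2).eq
          simp only [hφ, Subgroup.coe_mul, Subgroup.coe_inv]
          rw [← hq, mul_inv_cancel_right]))
      have hcP : c ∈ fixedOn A Λ := ⟨hT.left_mem, fun q hq => (hAX hq).1⟩
      have hzP : z ∈ fixedOn A Λ := ⟨hT.right_mem, fun q hq => (hAX hq).2⟩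
      have h3 : 2 < (fixedOn A Λ).ncard :=
        (Set.two_lt_ncard (Set.toFinite _)).2 ⟨c, hcP, z, hzP, x, hx, hcz, hxc.symm, hxz.symm⟩
      obtain ⟨hr', ha'⟩ := Bender.star hS hIH hNr hNtop (c := c) (z := z) hT.le_N hT.sylow.2.1
        (by rw [hNa]; exact hF2) hcz hAN hAr (by rw [hNa]; exact h3)
      rw [hNa] at hr' ha'
      exact ⟨centOn N Λ A, fun g hg => hg.1.1, hr', ha'.symm ▸ hcP, ha'.symm ▸ hzP,
        fun a ha y hy => (ha' ▸ hy : y ∈ fixedOn A Λ).2 a ha⟩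
    · have hPX : P ≤ N ⊓ pairStab c z :=
        le_inf hT.le_N (hT.sylow.1.trans inf_le_left)
      obtain ⟨x, hx, hxc, hxz⟩ : ∃ x ∈ fixedOn P Λ, x ≠ c ∧ x ≠ z := by
        by_contra h
        push Not at h
        refine hF2 (Set.Subset.antisymm (fun y hy => ?_) ?_)
        · by_cases hyc : y = c
          · exact Or.inl hyc
          · exact Or.inr (h y hy hyc)
        · rintro y (rfl | rfl)
          · exact ⟨hT.left_mem, fun q hq => (hPX hq).2.1⟩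
          · exact ⟨hT.right_mem, fun q hq => (hPX hq).2.2⟩
      have hPN : IsSylowIn r P (N ⊓ pairStab c z) := by
        refine ⟨hPX, hT.sylow.2.1, fun h => hT.sylow.2.2 (h.trans ?_)⟩
        exact Dvd.intro _ (relIndex_mul_relIndex P _ _ hPX
          (le_inf inf_le_right (inf_le_left.trans inf_le_left)))
      set H := N ⊓ pairStab c z with hH
      have hHodd : Odd (Nat.card H) :=
        (PartE.pairStab_odd hS hcz).of_dvd_nat (Subgroup.card_dvd_of_le inf_le_right)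
      have : Group.IsSolvable H := H25.PF14.odd_solvable H hHodd
      have hZH : Z₀ ≤ H := hZ₀P.trans hPX
      have : (Z₀.subgroupOf H).Normal :=
        (normal_subgroupOf_iff_le_normalizer hZH).2 (inf_le_left.trans hNZ₀)
      have hVr : IsPGroup r (Z₀.subgroupOf H) :=
        (hT.sylow.2.1.to_le hZ₀P).of_equiv (subgroupOfEquivOfLe hZH).symm
      set C := centralizer ((Z₀.subgroupOf H : Subgroup H) : Set H)
      have : C.Normal := Subgroup.normal_centralizer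
      have hpn : (Cfsg.pCore r (H ⧸ C)).Normal := Subgroup.sSup_normal _ fun _ h => h.1
      let W : Subgroup G := ((Cfsg.pCore r (H ⧸ C)).comap (QuotientGroup.mk' C)).map H.subtype
      have hAW : A ≤ W := by
        intro a ha
        have haH : a ∈ H := hPX (hA.1 ha)
        obtain ⟨k, hk⟩ := hAr ⟨a, ha⟩
        refine ⟨⟨a, haH⟩, H54.quad_mem_pCore_quotient hHodd hr2 (Z₀.subgroupOf H) hVr
          ⟨k, Subtype.ext (congrArg Subtype.val hk :)⟩ (fun v hv => Subtype.ext ?_), rfl⟩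
        exact (hquad a ha (v : G) hv).eq
      have hW : W ≤ H := map_subtype_le _
      have hWn : ∀ g ∈ H, ∀ w ∈ W, g * w * g⁻¹ ∈ W := by
        rintro g hg _ ⟨w, hw, rfl⟩
        exact ⟨⟨g, hg⟩ * w * ⟨g, hg⟩⁻¹, (hpn.comap _).conj_mem w hw _, rfl⟩
      have hO : Odd (Nat.card ↥(N ⊓ centralizer (Z₀ : Set G))) := by
        rw [← Nat.not_even_iff_odd, even_iff_two_dvd]
        intro h2
        obtain ⟨⟨g, hg⟩, ho⟩ := exists_prime_orderOf_dvd_card' 2 h2 (hp := ⟨Nat.prime_two⟩)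
        rw [Subgroup.orderOf_mk] at ho
        exact hker g hg.1 ho fun v hv => (mem_centralizer_iff.1 hg.2 v hv).symm
      have hNO : N ≤ normalizer ((N ⊓ centralizer (Z₀ : Set G) : Subgroup G) : Set G) := by
        refine fun g hg => PartII.mem_normalizer_inf (le_normalizer hg) ?_
        refine mem_normalizer_iff.2 fun x => ?_
        simp only [SetLike.mem_coe, mem_centralizer_iff]
        constructor
        · intro h v hv
          have h1 := h _ ((mem_normalizer_iff.1 (hNZ₀ hg) (g⁻¹ * v * g)).2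
            (by simpa [mul_assoc] using hv))
          calc v * (g * x * g⁻¹) = g * (g⁻¹ * v * g * x) * g⁻¹ := by group
            _ = g * (x * (g⁻¹ * v * g)) * g⁻¹ := by rw [h1]
            _ = g * x * g⁻¹ * v := by group
        · intro h v hv
          have h1 := h _ ((mem_normalizer_iff.1 (hNZ₀ hg) v).1 hv)
          calc v * x = g⁻¹ * (g * v * g⁻¹ * (g * x * g⁻¹)) * g := by group
            _ = g⁻¹ * (g * x * g⁻¹ * (g * v * g⁻¹)) * g := by rw [h1]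
            _ = x * v := by group
      have hOfix : N ⊓ centralizer (Z₀ : Set G) ≤ fixTo (apexSet (Ω := Ω) N) :=
        PartE.le_fixTo_of_normalizes hS hNr hO hNO
      have hWr : ∀ w ∈ W, ∃ k : ℕ, w ^ r ^ k ∈ fixTo (G := G) (apexSet (Ω := Ω) N) := by
        rintro _ ⟨w, hw, rfl⟩
        obtain ⟨k, hk⟩ := H35.isPGroup_pCore r (H ⧸ C) ⟨_, hw⟩
        have hwC : w ^ r ^ k ∈ C := (QuotientGroup.eq_one_iff _).1
          (by simpa using congrArg Subtype.val hk)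
        refine ⟨k, hOfix ⟨pow_mem w.2.1 _, mem_centralizer_iff.2 fun v hv => ?_⟩⟩
        exact congrArg Subtype.val (mem_centralizer_iff.1 hwC ⟨v, hZH hv⟩ hv)
      obtain ⟨hr', hc', hz', hfix⟩ := twins hS hIH hNr hNtop (hNa.symm ▸ hT.left_mem)
        (hNa.symm ▸ hT.right_mem) hcz hPX (PartE.isSylowIn_card_eq hPN)
        (hNa.symm ▸ hx) hxc hxz hW hWn hWr
      exact ⟨centOn N (apexSet N) W, fun g hg => hg.1.1, hr', hc', hz',
        fun a ha y hy => hfix a (hAW ha) y hy⟩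
  set Λ₁ := apexSet (Ω := Ω) L
  have hΛ₁ : Λ₁ ⊆ Λ := hNa ▸ apexSet_mono_top hLN
  have hYY : fixTo (G := G) Λ ≤ fixTo Λ₁ := fun g hg x hx => hg x (hΛ₁ hx)
  obtain ⟨x₁, ⟨t, ht, ht2, -⟩⟩ := hLr.2.nonempty
  obtain ⟨j, hj, hj1, hinv, k, hk⟩ := exists_inverted hS hT.weak (hLN ht).1 ht2
  have hweak : IsWeakConfig r (setStab Λ₁) Λ₁ :=
    ⟨PartE.config_apexSet hS hLr (hYY hj) hj1,
      j, hYY hj, t, PartE.le_setStab_apexSet L ht, ht2, hj1, hinv, k, hk⟩
  have hAB1 : A ⊔ B ≤ fixTo Λ₁ := sup_le hAL (inf_le_right.trans hYY)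
  have hABP : A ⊔ B ≤ P := sup_le hA.1 inf_le_left
  obtain ⟨h1, h2⟩ := hT.compare hweak hcL hzL (Q := A ⊔ B)
    (le_inf (hABP.trans (hT.sylow.1.trans inf_le_left)) (hAB1.trans PartII.fixTo_le_setStab))
    (hT.sylow.2.1.to_le hABP)
  rw [inf_eq_left.2 hAB1] at h1 h2
  have hea : eaCard r (A ⊔ B) = eaCard r B := le_antisymm h1 (eaCard_mono le_sup_right)
  have hAm : IsMaxEA r (A ⊔ B) A :=
    ⟨le_sup_left, hA.2.1, hA.2.2.1, fun C h => hA.2.2.2 C (h.trans hABP)⟩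
  have hJJ : thompsonSubgroupOf r B = thompsonSubgroupOf r (A ⊔ B) :=
    eq_of_le_of_card_ge
      (thompsonSubgroupOf_mono ((H23.thompsonSubgroupOf_le B).trans le_sup_right) hea.le)
      (h2 hea).1
  exact hAB ((le_thompsonSubgroupOf hAm).trans (hJJ.symm.le.trans (H23.thompsonSubgroupOf_le B)))

end IsTop

end Cfsg.Agent.H14.Bender
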