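import Cfsg.Agent.H14.Bender.Defs
import Cfsg.Agent.H14.Bender.Coprime
import Cfsg.Agent.H14.Bender.LemmaW
import Cfsg.Agent.H14.Bender.IHFacts
import Cfsg.Agent.H14.Bender.ZLine
import Cfsg.Agent.H28.ZStar
import Cfsg.Agent.H19.Fitting
import Cfsg.Agent.H19.Cores
import Cfsg.Agent.H72.PCore
import Cfsg.Agent.H25.PF14.Solvable

/-!
Part I of the proof of S1220 (see `PLAN.md` in this folder): if some set `J` is nontrivial then there is a
`J`-configuration.
-/

set_option autoImplicit false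
set_option linter.style.haveILetI false

namespace Cfsg.Agent.H14.Bender

universe u

variable {G : Type u} [Group G] {Ω : Type u} [MulAction G Ω]

namespace PartI

/-! ### Groups -/

theorem orderOf_conj' (g x : G) : orderOf (g * x * g⁻¹) = orderOf x :=
  (MulAut.conj g).orderOf_eq x

theorem mul_self_inv {t : G} (ht : orderOf t = 2) : t * t = 1 := by
  rw [← pow_two, ← ht, pow_orderOf_eq_one]

theorem inv_eq_self_inv {t : G} (ht : orderOf t = 2) : t⁻¹ = t :=
  inv_eq_of_mul_eq_one_right (mul_self_inv ht)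

theorem ne_one_inv {t : G} (ht : orderOf t = 2) : t ≠ 1 := by
  rintro rfl
  simp at ht

theorem orderOf_two_of_sq {t : G} (h : t * t = 1) (h1 : t ≠ 1) : orderOf t = 2 :=
  orderOf_eq_prime (by rw [pow_two, h]) h1

theorem orderOf_two_mul {s t : G} (hs : orderOf s = 2) (ht : orderOf t = 2) (hst : s ≠ t)
    (hc : Commute s t) : orderOf (s * t) = 2 := by
  refine orderOf_two_of_sq ?_ fun h => hst ?_
  · rw [show s * t * (s * t) = s * (t * s) * t by group, ← hc.eq,
      show s * (s * t) * t = (s * s) * (t * t) by group, mul_self_inv hs, mul_self_inv ht, one_mul]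
  · rw [eq_inv_of_mul_eq_one_left h, inv_eq_self_inv ht]

theorem orderOf_ne_two_of_odd {H : Subgroup G} (hH : Odd (Nat.card H)) {t : G} (ht : t ∈ H) :
    orderOf t ≠ 2 := fun h => by
  have := H.orderOf_dvd_natCard ht
  rw [h] at this
  exact (Nat.not_even_iff_odd.mpr hH) (even_iff_two_dvd.mpr this)

theorem odd_orderOf_of_mem {H : Subgroup G} (hH : Odd (Nat.card H)) {t : G} (ht : t ∈ H) :
    Odd (orderOf t) :=
  hH.of_dvd_nat (H.orderOf_dvd_natCard ht)

theorem eq_one_of_mul_self {H : Subgroup G} (hH : Odd (Nat.card H)) {x : G} (hx : x ∈ H)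
    (h : x * x = 1) : x = 1 := by
  by_contra h1
  exact orderOf_ne_two_of_odd hH hx (orderOf_two_of_sq h h1)

theorem odd_card_of_no_inv [Finite G] {H : Subgroup G} (h : ∀ t ∈ H, orderOf t ≠ 2) :
    Odd (Nat.card H) := by
  by_contra hcon
  rw [Nat.not_odd_iff_even, even_iff_two_dvd] at hcon
  haveI := Fact.mk Nat.prime_two
  obtain ⟨x, hx⟩ := exists_prime_orderOf_dvd_card' 2 hcon
  exact h x x.2 (by rwa [Subgroup.orderOf_coe])

theorem odd_card_zpowers {v : G} (hv : Odd (orderOf v)) : Odd (Nat.card (Subgroup.zpowers v)) := by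
  rwa [Nat.card_zpowers]

theorem odd_sup [Finite G] {A B : Subgroup G} (hA : Odd (Nat.card A)) (hB : Odd (Nat.card B))
    (hBA : B ≤ Subgroup.normalizer (A : Set G)) : Odd (Nat.card (A ⊔ B : Subgroup G)) := by
  haveI : (A.subgroupOf (A ⊔ B)).Normal :=
    Subgroup.normal_subgroupOf_of_le_normalizer (sup_le Subgroup.le_normalizer hBA)
  have h := (A.subgroupOf (A ⊔ B)).card_mul_index
  rw [Nat.card_congr (Subgroup.subgroupOfEquivOfLe (le_sup_left : A ≤ A ⊔ B)).toEquiv] at h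
  rw [← h]
  refine hA.mul (hB.of_dvd_nat ?_)
  have hsup : B.subgroupOf (A ⊔ B) ⊔ A.subgroupOf (A ⊔ B) = ⊤ := by
    rw [← Subgroup.subgroupOf_sup le_sup_right le_sup_left, sup_comm, Subgroup.subgroupOf_self]
  rw [← Subgroup.relIndex_top_right, ← hsup, Subgroup.relIndex_sup_right]
  exact (Subgroup.relIndex_dvd_card _ _).trans
    (dvd_of_eq (Nat.card_congr (Subgroup.subgroupOfEquivOfLe (le_sup_right : B ≤ A ⊔ B)).toEquiv))

theorem conj_mem_iff {H : Subgroup G} {g : G} (hg : g ∈ Subgroup.normalizer (H : Set G)) {x : G} :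
    g * x * g⁻¹ ∈ H ↔ x ∈ H :=
  (Subgroup.mem_normalizer_iff.mp hg x).symm

theorem mem_normalizer_of_conj [Finite G] {H : Subgroup G} {g : G}
    (h : ∀ x ∈ H, g * x * g⁻¹ ∈ H) : g ∈ Subgroup.normalizer (H : Set G) := by
  rw [Subgroup.mem_normalizer_iff_map_conj_eq]
  refine Subgroup.eq_of_le_of_card_ge ?_ (le_of_eq (Subgroup.card_map_of_injective ?_).symm)
  · rintro _ ⟨x, hx, rfl⟩
    exact h x hx
  · exact (MulAut.conj g).injective

theorem mem_normalizer_inf {A B : Subgroup G} {g : G} (hA : g ∈ Subgroup.normalizer (A : Set G))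
    (hB : g ∈ Subgroup.normalizer (B : Set G)) :
    g ∈ Subgroup.normalizer ((A ⊓ B : Subgroup G) : Set G) := by
  rw [Subgroup.mem_normalizer_iff]
  intro x
  simp only [Subgroup.mem_inf, conj_mem_iff hA, conj_mem_iff hB]

theorem mem_normalizer_sup {A B : Subgroup G} {g : G} (hA : g ∈ Subgroup.normalizer (A : Set G))
    (hB : g ∈ Subgroup.normalizer (B : Set G)) :
    g ∈ Subgroup.normalizer ((A ⊔ B : Subgroup G) : Set G) := by
  rw [Subgroup.mem_normalizer_iff_map_conj_eq] at *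
  rw [Subgroup.map_sup, hA, hB]

theorem mem_normalizer_pCoreOf {H : Subgroup G} {g : G}
    (hg : g ∈ Subgroup.normalizer (H : Set G)) (p : ℕ) :
    g ∈ Subgroup.normalizer (Cfsg.pCoreOf p H : Set G) := by
  rw [Subgroup.mem_normalizer_iff_map_conj_eq] at *
  have h := H72.pCoreOf_map_equiv (MulAut.conj g) p H
  exact h.symm.trans (congrArg (Cfsg.pCoreOf p) hg)

theorem conj_mem_centralizer {H : Subgroup G} {g x : G}
    (hg : g ∈ Subgroup.normalizer (H : Set G)) (hx : x ∈ Subgroup.centralizer (H : Set G)) :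
    g * x * g⁻¹ ∈ Subgroup.centralizer (H : Set G) := by
  rw [Subgroup.mem_centralizer_iff] at *
  intro h hh
  have h1 : g⁻¹ * h * g ∈ H := (Subgroup.mem_normalizer_iff''.mp hg h).mp hh
  have h2 := hx _ h1
  calc h * (g * x * g⁻¹) = g * ((g⁻¹ * h * g) * x) * g⁻¹ := by group
    _ = g * (x * (g⁻¹ * h * g)) * g⁻¹ := by rw [h2]
    _ = g * x * g⁻¹ * h := by group

theorem mem_normalizer_centralizer [Finite G] {H : Subgroup G} {g : G}
    (hg : g ∈ Subgroup.normalizer (H : Set G)) :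
    g ∈ Subgroup.normalizer (Subgroup.centralizer (H : Set G) : Set G) :=
  mem_normalizer_of_conj fun _ hx => conj_mem_centralizer hg hx

theorem le_normalizer_map_normal [Finite G] (M : Subgroup G) (N : Subgroup ↥M) [hN : N.Normal] :
    M ≤ Subgroup.normalizer ((N.map M.subtype : Subgroup G) : Set G) := by
  intro g hg
  refine mem_normalizer_of_conj ?_
  rintro _ ⟨x, hx, rfl⟩
  exact ⟨⟨g, hg⟩ * x * ⟨g, hg⟩⁻¹, hN.conj_mem x hx _, by simp⟩

/-! ### Points -/

theorem smul_smul_inv' {t : G} (ht : orderOf t = 2) (x : Ω) : t • t • x = x := by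
  rw [smul_smul, mul_self_inv ht, one_smul]

theorem invAt_conj {t : G} {c : Ω} (h : InvAt t c) (g : G) : InvAt (g * t * g⁻¹) (g • c) :=
  ⟨by rw [orderOf_conj', h.1], by simp [mul_smul, h.2]⟩

theorem apex_eq_of_commute (hS : Setting G Ω) {s t : G} {a b : Ω} (hs : InvAt s a) (ht : InvAt t b)
    (hc : Commute s t) : a = b := by
  have h : s • (t • a) = t • a := by rw [smul_smul, hc.eq, mul_smul, hs.2]
  exact hS.fix_unique t ht.1 a b (hS.fix_unique s hs.1 _ _ h hs.2) ht.2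

theorem pairStab_odd [Finite G] (hS : Setting G Ω) {x y : Ω} (h : x ≠ y) :
    Odd (Nat.card (pairStab (G := G) x y)) :=
  odd_card_of_no_inv fun t ht ht2 =>
    h (hS.fix_unique t ht2 x y (mem_pairStab.mp ht).1 (mem_pairStab.mp ht).2)

/-- Two involutions with different apexes are conjugate by an involution in the group they
generate. -/
theorem exists_middle [Finite G] (hS : Setting G Ω) {s t : G} {a b : Ω} (hs : InvAt s a)
    (ht : InvAt t b) (hab : a ≠ b) :
    ∃ i : G, orderOf i = 2 ∧ i * s * i⁻¹ = t ∧ ∀ H : Subgroup G, s ∈ H → t ∈ H → i ∈ H := by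
  set d := s * t with hd
  have hsd : s * d * s⁻¹ = d⁻¹ := by
    rw [hd, mul_inv_rev, ← mul_assoc, mul_self_inv hs.1, one_mul, inv_eq_self_inv hs.1,
      inv_eq_self_inv ht.1]
  have htd : t * d * t⁻¹ = d⁻¹ := by
    rw [hd, mul_inv_rev, inv_eq_self_inv hs.1, inv_eq_self_inv ht.1, mul_assoc, mul_assoc,
      mul_self_inv ht.1, mul_one]
  have hodd : Odd (orderOf d) := by
    by_contra hcon
    rw [Nat.not_odd_iff_even] at hcon
    obtain ⟨k, hk⟩ := hcon
    have hpos := orderOf_pos d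
    have hk0 : k ≠ 0 := by omega
    set z := d ^ k with hz
    have hz2 : z * z = 1 := by rw [hz, ← pow_add, ← hk, pow_orderOf_eq_one]
    have hz1 : z ≠ 1 := fun h => by
      have := Nat.le_of_dvd (Nat.pos_of_ne_zero hk0) (orderOf_dvd_of_pow_eq_one h)
      omega
    have hzo := orderOf_two_of_sq hz2 hz1
    obtain ⟨e, he⟩ := hS.exists_fix z hzo
    have key : ∀ w : G, w * d * w⁻¹ = d⁻¹ → Commute w z := fun w hw => by
      have : w * z * w⁻¹ = z := by
        rw [hz, ← conj_pow, hw, inv_pow, ← hz, inv_eq_self_inv hzo]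
      exact mul_inv_eq_iff_eq_mul.mp this
    exact hab ((apex_eq_of_commute hS hs ⟨hzo, he⟩ (key s hsd)).trans
      (apex_eq_of_commute hS ht ⟨hzo, he⟩ (key t htd)).symm)
  obtain ⟨k, hk⟩ := hodd
  set D := d ^ (k + 1) with hD
  have hsD : s * D * s⁻¹ = D⁻¹ := by rw [hD, ← conj_pow, hsd, inv_pow]
  have hsD' : s * D = D⁻¹ * s := mul_inv_eq_iff_eq_mul.mp hsD
  have hDD : D * D = d := by
    rw [hD, ← pow_add, show k + 1 + (k + 1) = orderOf d + 1 by omega, pow_succ, pow_orderOf_eq_one,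
      one_mul]
  refine ⟨D⁻¹ * s, orderOf_two_of_sq ?_ ?_, ?_, fun H hsH htH =>
    mul_mem (inv_mem (pow_mem (mul_mem hsH htH) _)) hsH⟩
  · calc D⁻¹ * s * (D⁻¹ * s) = D⁻¹ * (s * D * s⁻¹)⁻¹ * (s * s) := by group
      _ = 1 := by rw [hsD, inv_inv, inv_mul_cancel, one_mul, mul_self_inv hs.1]
  · intro h
    have e : s = D := (inv_mul_eq_one.mp h).symm
    have h1 : orderOf D ∣ orderOf d := orderOf_pow_dvd (k + 1)
    rw [← e, hs.1] at h1
    omega
  · calc D⁻¹ * s * s * (D⁻¹ * s)⁻¹ = D⁻¹ * (s * s) * (s⁻¹ * D) := by group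
      _ = D⁻¹ * (s⁻¹ * D) := by rw [mul_self_inv hs.1, mul_one]
      _ = D⁻¹ * (D⁻¹ * s) := by rw [inv_eq_self_inv hs.1, hsD']
      _ = (D * D)⁻¹ * s := by group
      _ = t := by rw [hDD, hd, mul_inv_rev, inv_eq_self_inv hs.1, inv_eq_self_inv ht.1, mul_assoc,
            mul_self_inv hs.1, mul_one]

theorem ncard_invAt [Finite G] (hS : Setting G Ω) (b c : Ω) :
    {t : G | InvAt t b}.ncard = {t : G | InvAt t c}.ncard := by
  have key : ∀ x y : Ω, {t : G | InvAt t x}.ncard ≤ {t : G | InvAt t y}.ncard := by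
    intro x y
    obtain ⟨g, hg⟩ := hS.exists_smul x y
    refine Set.ncard_le_ncard_of_injOn (fun t => g * t * g⁻¹) (fun t ht => ?_) (fun t _ t' _ h => ?_)
      (Set.toFinite _)
    · show InvAt (g * t * g⁻¹) y
      rw [← hg]; exact invAt_conj ht g
    · simpa using h
  exact le_antisymm (key b c) (key c b)

/-- If `z ≠ c` then the stabiliser of `z` and `u • z` moves `c`. -/
theorem exists_move [Finite G] (hS : Setting G Ω) (hR : Rich Ω (⊤ : Subgroup G)) {u : G} {c z : Ω}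
    (hu : InvAt u c) (hz : z ≠ c) : ∃ g ∈ pairStab (G := G) z (u • z), g • c ≠ c := by
  by_contra hcon
  push Not at hcon
  have hb : u • z ≠ z := fun h => hz (hS.fix_unique u hu.1 z c h hu.2)
  set b := u • z with hbdef
  have hswap : ∀ w : G, orderOf w = 2 → w • z = b → w • c = c := by
    intro w hw hwz
    have hwb : w • b = z := by rw [← hwz, smul_smul_inv' hw]
    have hub : u • b = z := by rw [hbdef, smul_smul_inv' hu.1]
    have h := hcon (u * w) (mem_pairStab.mpr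
      ⟨by rw [mul_smul, hwz, hub], by rw [mul_smul, hwb]⟩)
    rw [mul_smul] at h
    have := congrArg (u • ·) h
    simp only [smul_smul_inv' hu.1, hu.2] at this
    exact this
  obtain ⟨g₀, hg₀⟩ := hS.exists_smul c z
  have hs := invAt_conj hu g₀
  rw [hg₀] at hs
  set s := g₀ * u * g₀⁻¹
  have hmid : ∀ t : G, InvAt t b →
      ∃ i : G, orderOf i = 2 ∧ i * s * i⁻¹ = t ∧ i • z = b := by
    intro t ht
    obtain ⟨i, hi, hit, -⟩ := exists_middle hS hs ht hb.symm
    refine ⟨i, hi, hit, hS.fix_unique t ht.1 _ _ ?_ ht.2⟩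
    rw [← hit, mul_smul, mul_smul, inv_smul_smul, hs.2]
  choose! F hF2 hFt hFz using hmid
  set W : Set G := {w | InvAt w c ∧ w • z = b}
  have h1 : {t : G | InvAt t b}.ncard ≤ W.ncard := by
    refine Set.ncard_le_ncard_of_injOn F (fun t ht => ?_) (fun t ht t' ht' h => ?_) (Set.toFinite _)
    · exact ⟨⟨hF2 t ht, hswap _ (hF2 t ht) (hFz t ht)⟩, hFz t ht⟩
    · rw [← hFt t ht, ← hFt t' ht', h]
  rw [ncard_invAt hS b c] at h1
  have hW : W = {t : G | InvAt t c} :=
    Set.eq_of_subset_of_ncard_le (fun w hw => hw.1) h1 (Set.toFinite _)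
  obtain ⟨⟨s₁, -, t₁, -, hs1, ht1, hne, hcomm⟩, -⟩ := hR
  obtain ⟨e, he⟩ := hS.exists_fix s₁ hs1
  have het : t₁ • e = e := by
    obtain ⟨e', he'⟩ := hS.exists_fix t₁ ht1
    rwa [apex_eq_of_commute hS ⟨hs1, he⟩ ⟨ht1, he'⟩ hcomm]
  obtain ⟨g, hg⟩ := hS.exists_smul e c
  have hS1 : InvAt (g * s₁ * g⁻¹) c := hg ▸ invAt_conj ⟨hs1, he⟩ g
  have hT1 : InvAt (g * t₁ * g⁻¹) c := hg ▸ invAt_conj ⟨ht1, het⟩ g
  have hST : Commute (g * s₁ * g⁻¹) (g * t₁ * g⁻¹) := hcomm.map (MulAut.conj g).toMonoidHom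
  have hSW : g * s₁ * g⁻¹ ∈ W := by rw [hW]; exact hS1
  have hTW : g * t₁ * g⁻¹ ∈ W := by rw [hW]; exact hT1
  have ho := orderOf_two_mul hS1.1 hT1.1 (fun h => hne (by simpa using h)) hST
  refine hz (hS.fix_unique _ ho z c ?_ (by rw [mul_smul, hT1.2, hS1.2]))
  rw [mul_smul, hTW.2, ← hSW.2, smul_smul_inv' hS1.1]

/-! ### The sets `J` -/

theorem one_mem_J {u : G} (c z : Ω) : (1 : G) ∈ J u c z := ⟨one_smul G c, one_smul G z, by simp⟩

theorem exists_ne_one_of_one_lt {u : G} {c z : Ω} (h : 1 < (J u c z).ncard) :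
    ∃ j ∈ J u c z, j ≠ 1 :=
  Set.exists_ne_of_one_lt_ncard h 1

theorem J_fix_image {u : G} {c z : Ω} (hu : orderOf u = 2) {j : G} (hj : j ∈ J u c z) :
    j • u • z = u • z := by
  have h : j * u = u * j⁻¹ := by
    rw [← hj.2.2, inv_eq_self_inv hu, ← mul_assoc, ← mul_assoc, mul_self_inv hu, one_mul]
  rw [smul_smul, h, mul_smul, inv_smul_eq_iff.mpr hj.2.1.symm]

theorem J_subset_pairStab {u : G} {c z : Ω} (hu : orderOf u = 2) :
    J u c z ⊆ (pairStab z (u • z) : Subgroup G) := fun _ hj =>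
  mem_pairStab.mpr ⟨hj.2.1, J_fix_image hu hj⟩

theorem mem_normalizer_pairStab [Finite G] {u : G} (hu : orderOf u = 2) (z : Ω) :
    u ∈ Subgroup.normalizer ((pairStab z (u • z) : Subgroup G) : Set G) := by
  refine mem_normalizer_of_conj fun g hg => ?_
  obtain ⟨h1, h2⟩ := mem_pairStab.mp hg
  refine mem_pairStab.mpr ⟨?_, ?_⟩
  · rw [mul_smul, mul_smul, inv_eq_self_inv hu, h2, smul_smul_inv' hu]
  · rw [mul_smul, mul_smul, inv_eq_self_inv hu, smul_smul_inv' hu, h1]

theorem conj_J {u : G} (g : G) {c z : Ω} {j : G} (hj : j ∈ J u c z) :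
    g * j * g⁻¹ ∈ J (g * u * g⁻¹) (g • c) (g • z) :=
  ⟨by simp [mul_smul, hj.1], by simp [mul_smul, hj.2.1],
    calc g * u * g⁻¹ * (g * j * g⁻¹) * (g * u * g⁻¹)⁻¹ = g * (u * j * u⁻¹) * g⁻¹ := by group
      _ = (g * j * g⁻¹)⁻¹ := by rw [hj.2.2]; group⟩

theorem exists_max [Finite G] [Finite Ω] (hne : ¬ NoJ G Ω) :
    ∃ (u : G) (c z : Ω), IsMaxJ u c z ∧ 1 < (J u c z).ncard := by
  unfold NoJ at hne
  push Not at hne
  obtain ⟨u₀, c₀, z₀, hu₀, hz₀, j₀, hj₀, hj1⟩ := hne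
  obtain ⟨⟨u, c, z⟩, ⟨hu, hz⟩, hmax⟩ := Set.exists_max_image
    {p : G × Ω × Ω | InvAt p.1 p.2.1 ∧ p.2.2 ≠ p.2.1} (fun p => (J p.1 p.2.1 p.2.2).ncard)
    (Set.toFinite _) ⟨(u₀, c₀, z₀), hu₀, hz₀⟩
  refine ⟨u, c, z, ⟨hu, hz, fun u' c' z' hu' hz' => hmax (u', c', z') ⟨hu', hz'⟩⟩, ?_⟩
  refine lt_of_lt_of_le ?_ (hmax (u₀, c₀, z₀) ⟨hu₀, hz₀⟩)
  rw [Set.one_lt_ncard_iff (Set.toFinite _)]
  exact ⟨1, j₀, one_mem_J c₀ z₀, hj₀, fun h => hj1 h.symm⟩

theorem card_zmod_two_of_free {t : G} (ht : orderOf t = 2) (s : Finset Ω)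
    (hs : ∀ x ∈ s, t • x ∈ s) (hfree : ∀ x ∈ s, t • x ≠ x) : (s.card : ZMod 2) = 0 := by
  rw [Finset.cast_card]
  exact Finset.sum_involution (fun x _ => t • x) (fun x _ => by decide)
    (fun x hx _ => hfree x hx) (fun x hx => hs x hx) (fun x _ => smul_smul_inv' ht x)

/-- An involution stabilising the set of apexes of a subgroup has its apex in that set. -/
theorem apex_mem [Finite Ω] (hS : Setting G Ω) {M : Subgroup G} {t : G} {x : Ω}
    (ht : InvAt t x) (hne : (apexSet M : Set Ω).Nonempty)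
    (hst : ∀ y ∈ (apexSet M : Set Ω), t • y ∈ (apexSet M : Set Ω)) : x ∈ (apexSet M : Set Ω) := by
  classical
  obtain ⟨a, s, hsM, hs⟩ := hne
  set F := (Set.toFinite (apexSet M : Set Ω)).toFinset
  have hmem : ∀ y, y ∈ F ↔ y ∈ (apexSet M : Set Ω) := fun y => Set.Finite.mem_toFinset _
  by_contra hx
  have h0 : (F.card : ZMod 2) = 0 := card_zmod_two_of_free ht.1 F
    (fun y hy => (hmem _).mpr (hst y ((hmem y).mp hy)))
    (fun y hy h => hx (hS.fix_unique t ht.1 y x h ht.2 ▸ (hmem y).mp hy))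
  have haF : a ∈ F := (hmem a).mpr ⟨s, hsM, hs⟩
  have h1 : ((F.erase a).card : ZMod 2) = 0 := card_zmod_two_of_free hs.1 (F.erase a)
    (fun y hy => by
      obtain ⟨hya, hyF⟩ := Finset.mem_erase.mp hy
      refine Finset.mem_erase.mpr ⟨fun h => hya ?_, (hmem _).mpr ?_⟩
      · rw [← smul_smul_inv' hs.1 y, h, hs.2]
      · obtain ⟨t', ht'M, ht'⟩ := (hmem y).mp hyF
        exact ⟨_, mul_mem (mul_mem hsM ht'M) (inv_mem hsM), invAt_conj ht' s⟩)
    (fun y hy h => (Finset.mem_erase.mp hy).1 (hS.fix_unique s hs.1 y a h hs.2))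
  rw [← Finset.card_erase_add_one haF, Nat.cast_add, h1, zero_add, Nat.cast_one] at h0
  exact one_ne_zero h0

theorem apexSet_smul {M : Subgroup G} {g : G} (hg : g ∈ M) {x : Ω}
    (hx : x ∈ (apexSet M : Set Ω)) : g • x ∈ (apexSet M : Set Ω) := by
  obtain ⟨t, htM, ht⟩ := hx
  exact ⟨_, mul_mem (mul_mem hg htM) (inv_mem hg), invAt_conj ht g⟩

end PartI

namespace PartI

/-! ### Lines -/

/-- A line through `c` along which a largest set `J` is constant. -/
structure GoodLine (u : G) (c : Ω) (v : G) (l : ℕ) : Prop where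
  inv : InvAt u c
  conj : u * v * u⁻¹ = v⁻¹
  prime : l.Prime
  ne_two : l ≠ 2
  odd : Odd (orderOf v)
  move : v • c ≠ c
  period : v ^ l • c = c
  max : IsMaxJ u c (v • c)
  one_lt : 1 < (J u c (v • c)).ncard
  fixes : ∀ j ∈ J u c (v • c), ∀ i : ℤ, j • v ^ i • c = v ^ i • c

/-- The pointwise stabiliser of a line. -/
def lineStab (v : G) (c : Ω) : Subgroup G := fixTo (Set.range fun i : ℤ => v ^ i • c)

/-- The stabiliser of the two neighbours of the centre of a line. -/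
def sideStab (v : G) (c : Ω) : Subgroup G := pairStab (v • c) (v⁻¹ • c)

theorem mem_lineStab {v g : G} {c : Ω} :
    g ∈ lineStab v c ↔ ∀ i : ℤ, g • v ^ i • c = v ^ i • c := by
  simp [lineStab]

theorem smul_of_mem_lineStab {v g : G} {c : Ω} (h : g ∈ lineStab v c) : g • c = c := by
  simpa using mem_lineStab.mp h 0

theorem lineStab_le_sideStab (v : G) (c : Ω) : lineStab v c ≤ sideStab v c := fun g hg =>
  mem_pairStab.mpr ⟨by simpa using mem_lineStab.mp hg 1, by simpa using mem_lineStab.mp hg (-1)⟩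

theorem mem_normalizer_lineStab [Finite G] {v g : G} {c : Ω} (f : ℤ → ℤ)
    (h : ∀ i : ℤ, g • v ^ i • c = v ^ f i • c) :
    g ∈ Subgroup.normalizer (lineStab v c : Set G) := by
  rw [Subgroup.mem_normalizer_iff'']
  have key : ∀ x ∈ lineStab v c, g⁻¹ * x * g ∈ lineStab v c := fun x hx => mem_lineStab.mpr fun i => by
    rw [mul_smul, mul_smul, h i, mem_lineStab.mp hx (f i), ← h i, inv_smul_smul]
  have hn : g⁻¹ ∈ Subgroup.normalizer (lineStab v c : Set G) :=
    mem_normalizer_of_conj fun x hx => by rw [inv_inv]; exact key x hx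
  exact Subgroup.mem_normalizer_iff''.mp (by simpa using inv_mem hn)

variable {u : G} {c : Ω} {v : G} {l : ℕ}

theorem GoodLine.pt_eq_iff [Finite G] (L : GoodLine u c v l) {i j : ℤ} :
    v ^ i • c = v ^ j • c ↔ (l : ℤ) ∣ i - j :=
  line_smul_eq_iff L.prime L.move L.period

theorem GoodLine.not_dvd_two (L : GoodLine u c v l) : ¬ (l : ℤ) ∣ 2 := fun h => by
  have h' : l ∣ 2 := by exact_mod_cast h
  exact L.ne_two ((Nat.prime_dvd_prime_iff_eq L.prime Nat.prime_two).mp h')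

theorem GoodLine.not_dvd_one (L : GoodLine u c v l) : ¬ (l : ℤ) ∣ 1 := fun h => by
  have h' : l ∣ 1 := by exact_mod_cast h
  exact L.prime.not_dvd_one h'

theorem GoodLine.inv_pt (L : GoodLine u c v l) (i : ℤ) : u • v ^ i • c = v ^ (-i) • c := by
  have h : u * v ^ i * u⁻¹ = v ^ (-i) := by rw [← conj_zpow, L.conj, inv_zpow, zpow_neg]
  rw [← h, mul_smul, mul_smul, inv_smul_eq_iff.mpr L.inv.2.symm]

theorem GoodLine.inv_side (L : GoodLine u c v l) : u • (v • c) = v⁻¹ • c := by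
  simpa using L.inv_pt 1

theorem GoodLine.sideStab_eq (L : GoodLine u c v l) :
    sideStab v c = pairStab (v • c) (u • (v • c)) := by rw [L.inv_side, sideStab]

theorem GoodLine.J_subset (L : GoodLine u c v l) : J u c (v • c) ⊆ (lineStab v c : Subgroup G) :=
  fun j hj => mem_lineStab.mpr (L.fixes j hj)

theorem GoodLine.inv_mem_normalizer [Finite G] (L : GoodLine u c v l) :
    u ∈ Subgroup.normalizer (lineStab v c : Set G) :=
  mem_normalizer_lineStab (fun i => -i) L.inv_pt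

theorem self_mem_normalizer_lineStab [Finite G] (v : G) (c : Ω) :
    v ∈ Subgroup.normalizer (lineStab v c : Set G) :=
  mem_normalizer_lineStab (fun i => 1 + i) fun i => by rw [smul_smul, ← zpow_one_add]

theorem GoodLine.inv_mem_normalizer_sideStab [Finite G] (L : GoodLine u c v l) :
    u ∈ Subgroup.normalizer (sideStab v c : Set G) := by
  rw [L.sideStab_eq]
  exact mem_normalizer_pairStab L.inv.1 _

theorem GoodLine.side_ne [Finite G] (L : GoodLine u c v l) : v • c ≠ v⁻¹ • c := fun h => by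
  have h' : v ^ (1 : ℤ) • c = v ^ (-1 : ℤ) • c := by simpa using h
  exact L.not_dvd_two (by simpa using L.pt_eq_iff.mp h')

theorem GoodLine.odd_sideStab [Finite G] (hS : Setting G Ω) (L : GoodLine u c v l) :
    Odd (Nat.card (sideStab v c : Subgroup G)) :=
  pairStab_odd hS L.side_ne

theorem GoodLine.odd_lineStab [Finite G] (hS : Setting G Ω) (L : GoodLine u c v l) :
    Odd (Nat.card (lineStab v c : Subgroup G)) :=
  (L.odd_sideStab hS).of_dvd_nat (Subgroup.card_dvd_of_le (lineStab_le_sideStab v c))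

/-- The involution of the line with apex `v ^ k • c`. -/
def mirror (u v : G) (k : ℤ) : G := v ^ k * u * (v ^ k)⁻¹

theorem GoodLine.mirror_inv (L : GoodLine u c v l) (k : ℤ) : InvAt (mirror u v k) (v ^ k • c) :=
  invAt_conj L.inv _

theorem GoodLine.mirror_conj (L : GoodLine u c v l) (k : ℤ) :
    mirror u v k * v * (mirror u v k)⁻¹ = v⁻¹ := by
  calc mirror u v k * v * (mirror u v k)⁻¹
        = v ^ k * (u * v * u⁻¹) * (v ^ k)⁻¹ := by unfold mirror; group
    _ = v⁻¹ := by rw [L.conj]; group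

theorem GoodLine.mirror_pt (L : GoodLine u c v l) (k i : ℤ) :
    mirror u v k • v ^ i • c = v ^ (2 * k - i) • c := by
  have h : (v ^ k)⁻¹ • v ^ i • c = v ^ (-k + i) • c := by rw [smul_smul, ← zpow_neg, ← zpow_add]
  rw [mirror, mul_smul, mul_smul, h, L.inv_pt, smul_smul, ← zpow_add]
  congr 2
  ring

theorem GoodLine.mirror_mem_normalizer [Finite G] (L : GoodLine u c v l) (k : ℤ) :
    mirror u v k ∈ Subgroup.normalizer (lineStab v c : Set G) :=
  mem_normalizer_lineStab (fun i => 2 * k - i) (L.mirror_pt k)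

theorem GoodLine.shift_mem_J [Finite G] (L : GoodLine u c v l) (i j : ℤ) {x : G}
    (hx : x ∈ J u c (v • c)) :
    v ^ i * x * (v ^ i)⁻¹ ∈ lineStab v c ∧
      v ^ i * x * (v ^ i)⁻¹ ∈ J (mirror u v i) (v ^ i • c) (v ^ j • c) := by
  have h : v ^ i * x * (v ^ i)⁻¹ ∈ lineStab v c :=
    (conj_mem_iff (zpow_mem (self_mem_normalizer_lineStab v c) i)).mpr (L.J_subset hx)
  exact ⟨h, mem_lineStab.mp h i, mem_lineStab.mp h j, (conj_J (v ^ i) hx).2.2⟩

theorem GoodLine.shift [Finite G] (L : GoodLine u c v l) {i j : ℤ} (hij : ¬ (l : ℤ) ∣ j - i) :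
    IsMaxJ (mirror u v i) (v ^ i • c) (v ^ j • c) ∧
      (J (mirror u v i) (v ^ i • c) (v ^ j • c)).ncard = (J u c (v • c)).ncard ∧
      J (mirror u v i) (v ^ i • c) (v ^ j • c) =
        (fun x => v ^ i * x * (v ^ i)⁻¹) '' J u c (v • c) := by
  have hne : v ^ j • c ≠ v ^ i • c := fun h => hij (L.pt_eq_iff.mp h)
  have hcard : ((fun x => v ^ i * x * (v ^ i)⁻¹) '' J u c (v • c)).ncard = (J u c (v • c)).ncard :=
    Set.ncard_image_of_injective _ fun a b h => by simpa using h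
  have heq : (fun x => v ^ i * x * (v ^ i)⁻¹) '' J u c (v • c) =
      J (mirror u v i) (v ^ i • c) (v ^ j • c) := by
    refine Set.eq_of_subset_of_ncard_le ?_ ?_ (Set.toFinite _)
    · rintro _ ⟨x, hx, rfl⟩
      exact (L.shift_mem_J i j hx).2
    · rw [hcard]
      exact L.max.2.2 _ _ _ (L.mirror_inv i) hne
  refine ⟨⟨L.mirror_inv i, hne, fun u' c' z' hu' hz' => ?_⟩, by rw [← heq, hcard], heq.symm⟩
  rw [← heq, hcard]
  exact L.max.2.2 u' c' z' hu' hz'

theorem GoodLine.rebase [Finite G] (L : GoodLine u c v l) (k : ℤ) {d : ℤ} (hd : ¬ (l : ℤ) ∣ d) :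
    GoodLine (mirror u v k) (v ^ k • c) (v ^ d) l ∧
      lineStab (v ^ d) (v ^ k • c) = lineStab v c ∧
      sideStab (v ^ d) (v ^ k • c) = pairStab (v ^ (k + d) • c) (v ^ (k - d) • c) := by
  have hpt : ∀ i : ℤ, (v ^ d) ^ i • v ^ k • c = v ^ (k + d * i) • c := fun i => by
    rw [smul_smul, ← zpow_mul, ← zpow_add, add_comm]
  have h1 : v ^ d • v ^ k • c = v ^ (k + d) • c := by simpa using hpt 1
  have hkd : ¬ (l : ℤ) ∣ (k + d) - k := by simpa using hd
  have hline : lineStab (v ^ d) (v ^ k • c) = lineStab v c := by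
    ext g
    simp only [mem_lineStab, hpt]
    refine ⟨fun h m => ?_, fun h i => h _⟩
    obtain ⟨x, y, hxy⟩ := (Nat.prime_iff_prime_int.mp L.prime).coprime_iff_not_dvd.mpr hd
    have e : v ^ m • c = v ^ (k + d * ((m - k) * y)) • c :=
      L.pt_eq_iff.mpr ⟨(m - k) * x, by linear_combination -(m - k) * hxy⟩
    rw [e]
    exact h _
  obtain ⟨hmax, hcard, himg⟩ := L.shift hkd
  refine ⟨⟨L.mirror_inv k, ?_, L.prime, L.ne_two, L.odd.of_dvd_nat ?_, ?_, ?_, by rwa [h1],
    by rw [h1, hcard]; exact L.one_lt, ?_⟩, hline, ?_⟩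
  · rw [← conj_zpow, L.mirror_conj k, inv_zpow]
  · exact orderOf_dvd_of_mem_zpowers (Subgroup.zpow_mem_zpowers v d)
  · rw [h1]; exact hmax.2.1
  · have e : (v ^ d) ^ l = v ^ (d * (l : ℤ)) := by rw [zpow_mul, zpow_natCast]
    rw [e, smul_smul, ← zpow_add, L.pt_eq_iff]
    exact ⟨d, by ring⟩
  · intro j hj
    rw [h1, himg] at hj
    obtain ⟨x, hx, rfl⟩ := hj
    exact mem_lineStab.mp (hline ▸ (L.shift_mem_J k k hx).1)
  · rw [sideStab, h1]
    congr 1
    rw [← zpow_neg, smul_smul, ← zpow_add, neg_add_eq_sub]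

theorem exists_goodLine_of [Finite G] [Finite Ω] (hS : Setting G Ω) {z : Ω} (hmax : IsMaxJ u c z)
    (h1 : 1 < (J u c z).ncard) {O : Subgroup G} (hO : Odd (Nat.card O))
    (huO : u ∈ Subgroup.normalizer (O : Set G)) (hmove : ∃ g ∈ O, g • c ≠ c)
    (hJO : J u c z ⊆ (O : Set G)) :
    ∃ v ∈ O, ∃ l : ℕ, GoodLine u c v l ∧ J u c (v • c) = J u c z ∧
      ∀ k ∈ O, k • c = c → u * k * u⁻¹ = k⁻¹ → k ∈ J u c z := by
  obtain ⟨v, hv, l, hl, hl2, hconj, hmv, hper, hfix⟩ := exists_line hS hmax.1 hO huO hmove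
  have hsub : J u c z ⊆ J u c (v • c) := fun j hj =>
    ⟨hj.1, by simpa using hfix j (hJO hj) hj.1 hj.2.2 1, hj.2.2⟩
  have heq : J u c z = J u c (v • c) :=
    Set.eq_of_subset_of_ncard_le hsub (hmax.2.2 _ _ _ hmax.1 hmv) (Set.toFinite _)
  refine ⟨v, hv, l, ⟨hmax.1, hconj, hl, hl2, odd_orderOf_of_mem hO hv, hmv, hper,
    ⟨hmax.1, hmv, by rw [← heq]; exact hmax.2.2⟩, by rwa [← heq], ?_⟩, heq.symm, ?_⟩
  · intro j hj
    rw [← heq] at hj
    exact hfix j (hJO hj) hj.1 hj.2.2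
  · intro k hk hkc hinv
    rw [heq]
    exact ⟨hkc, by simpa using hfix k hk hkc hinv 1, hinv⟩

theorem exists_goodLine [Finite G] [Finite Ω] (hS : Setting G Ω) (hR : Rich Ω (⊤ : Subgroup G))
    (hne : ¬ NoJ G Ω) : ∃ (u : G) (c : Ω) (v : G) (l : ℕ), GoodLine u c v l := by
  obtain ⟨u, c, z, hmax, h1⟩ := exists_max hne
  have hb : z ≠ u • z := fun h => hmax.2.1 (hS.fix_unique u hmax.1.1 z c h.symm hmax.1.2)
  obtain ⟨v, -, l, L, -, -⟩ := exists_goodLine_of hS hmax h1 (pairStab_odd hS hb)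
    (mem_normalizer_pairStab hmax.1.1 z) (exists_move hS hR hmax.1 hmax.2.1)
    (J_subset_pairStab hmax.1.1)
  exact ⟨u, c, v, l, L⟩

/-! ### No proper rich subgroup carries a largest `J` -/

theorem noRich [Finite G] [Finite Ω] (hS : Setting G Ω) (hIH : IH.{u} (Nat.card G))
    (hnone : ∀ (M : Subgroup G) (Λ : Set Ω), ¬ IsJConfig M Λ) {M : Subgroup G} (hM : Rich Ω M)
    (hne : M ≠ ⊤) {u : G} {c z : Ω} (hu : u ∈ M) (hz : z ∈ (apexSet M : Set Ω))
    (hmax : IsMaxJ u c z) (h1 : 1 < (J u c z).ncard) (hJ : J u c z ⊆ (M : Set G)) : False := by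
  obtain ⟨j, hj, hj1⟩ := exists_ne_one_of_one_lt h1
  have hjfix := Bender.mem_fixTo_of_mem_J hS hIH hM hne hu hmax.1 hz hmax.2.1 (hJ hj) hj
  set Λ : Set Ω := apexSet M with hΛ
  have hle : M ≤ setStab Λ := fun g hg => mem_setStab.mpr fun x =>
    ⟨fun h => by simpa using apexSet_smul (inv_mem hg) h, apexSet_smul hg⟩
  have hapex : (apexSet (setStab Λ : Subgroup G) : Set Ω) = Λ := by
    refine Set.Subset.antisymm ?_ fun x ⟨t, htM, ht⟩ => ⟨t, hle htM, ht⟩
    rintro x ⟨t, htM, ht⟩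
    exact apex_mem hS ht ⟨z, hz⟩ fun y hy => (mem_setStab.mp htM y).mpr hy
  refine hnone (setStab Λ) Λ ⟨⟨⟨?_, by rw [hapex]; exact hM.2⟩, hapex, rfl, fun h => hj1 ?_⟩,
    u, c, z, hle hu, hz, hmax, h1, fun x hx => hle (hJ hx)⟩
  · obtain ⟨s, hs, t, ht, h⟩ := hM.1
    exact ⟨s, hle hs, t, hle ht, h⟩
  · refine hS.faithful j fun x => mem_fixTo.mp hjfix x ?_
    obtain ⟨g, hg⟩ := hS.exists_smul z x
    have hgm : g ∈ setStab Λ := h ▸ Subgroup.mem_top g
    rw [← hg]
    exact (mem_setStab.mp hgm z).mpr hz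

/-- PI-b: the normaliser of a suitable subgroup of the stabiliser of a line meets the two-point
stabilisers of the line in the stabiliser of the line. -/
theorem GoodLine.mem_lineStab_of_normalizes [Finite G] [Finite Ω] (hS : Setting G Ω)
    (hIH : IH.{u} (Nat.card G)) (hnone : ∀ (M : Subgroup G) (Λ : Set Ω), ¬ IsJConfig M Λ)
    {u : G} {c : Ω} {v : G} {l : ℕ} (L : GoodLine u c v l) {Q : Subgroup G}
    (hQ : Q ≤ lineStab v c) (hQ1 : Q ≠ ⊥) (hu : u ∈ Subgroup.normalizer (Q : Set G))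
    (hv : v ∈ Subgroup.normalizer (Q : Set G))
    (hJ : J u c (v • c) ⊆ (Subgroup.normalizer (Q : Set G) : Subgroup G)) {x : G}
    (hx : x ∈ Subgroup.normalizer (Q : Set G)) {i j : ℤ} (hij : ¬ (l : ℤ) ∣ j - i)
    (hi : x • v ^ i • c = v ^ i • c) (hj : x • v ^ j • c = v ^ j • c) : x ∈ lineStab v c := by
  classical
  set M := Subgroup.normalizer (Q : Set G) with hMdef
  have hMne : M ≠ ⊤ := by
    intro htop
    apply hQ1
    rw [Subgroup.eq_bot_iff_forall]
    intro q hq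
    refine hS.faithful q fun y => ?_
    obtain ⟨g, hg⟩ := hS.exists_smul c y
    have hgM : g ∈ M := htop ▸ Subgroup.mem_top g
    have h1 := smul_of_mem_lineStab (hQ ((Subgroup.mem_normalizer_iff''.mp hgM q).mp hq))
    rw [mul_smul, mul_smul, inv_smul_eq_iff, hg] at h1
    exact h1
  have hvc : v • c ∈ (apexSet M : Set Ω) :=
    ⟨_, mul_mem (mul_mem hv hu) (inv_mem hv), invAt_conj L.inv v⟩
  have hnopair : ∀ s ∈ M, ∀ t ∈ M, orderOf s = 2 → orderOf t = 2 → Commute s t → s = t := by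
    intro s hs t ht hs2 ht2 hc
    by_contra hne
    refine noRich hS hIH hnone ⟨⟨s, hs, t, ht, hs2, ht2, hne, hc⟩, ?_⟩ hMne hu hvc L.max L.one_lt hJ
    exact ⟨v • c, hvc, c, ⟨u, hu, L.inv⟩, L.move⟩
  set B := (lineStab v c ⊓ M) ⊔ Subgroup.zpowers v with hB
  set A := (Cfsg.pPrimeCore 2 ↥M).map M.subtype with hA
  have hvN : v ∈ Subgroup.normalizer ((lineStab v c ⊓ M : Subgroup G) : Set G) :=
    mem_normalizer_inf (self_mem_normalizer_lineStab v c) (Subgroup.le_normalizer hv)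
  have hBodd : Odd (Nat.card B) :=
    odd_sup ((L.odd_lineStab hS).of_dvd_nat (Subgroup.card_dvd_of_le inf_le_left))
      (odd_card_zpowers L.odd) ((Subgroup.zpowers_le).mpr hvN)
  have hBM : B ≤ M := sup_le inf_le_right ((Subgroup.zpowers_le).mpr hv)
  have hAN : M ≤ Subgroup.normalizer (A : Set G) :=
    haveI := H19.pPrimeCore_normal 2 ↥M
    le_normalizer_map_normal M _
  have hAodd : Odd (Nat.card A) := by
    rw [hA, Subgroup.card_map_of_injective M.subtype_injective]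
    exact (Nat.coprime_two_right).mp (H19.pPrimeCore_coprime 2)
  set O := A ⊔ B with hOdef
  have hOodd : Odd (Nat.card O) := odd_sup hAodd hBodd (hBM.trans hAN)
  have hvO : v ∈ O := le_sup_right (a := A) (le_sup_right (a := lineStab v c ⊓ M) (Subgroup.mem_zpowers v))
  have hmirror : ∀ k : ℤ, mirror u v k ∈ M := fun k =>
    mul_mem (mul_mem (zpow_mem hv k) hu) (inv_mem (zpow_mem hv k))
  have hnorm : ∀ k : ℤ, mirror u v k ∈ Subgroup.normalizer (O : Set G) := fun k => by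
    refine mem_normalizer_sup (hAN (hmirror k)) (mem_normalizer_sup
      (mem_normalizer_inf (L.mirror_mem_normalizer k) (Subgroup.le_normalizer (hmirror k))) ?_)
    refine mem_normalizer_of_conj fun y hy => ?_
    obtain ⟨n, rfl⟩ := Subgroup.mem_zpowers_iff.mp hy
    rw [← conj_zpow, L.mirror_conj k, inv_zpow, ← zpow_neg]
    exact Subgroup.zpow_mem_zpowers v _
  -- elements of `O` fixing a point of the line and inverted by its involution fix the line
  have hkey : ∀ k : ℤ, ∀ y ∈ O, y • v ^ k • c = v ^ k • c →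
      mirror u v k * y * (mirror u v k)⁻¹ = y⁻¹ → y ∈ lineStab v c := by
    intro k y hyO hyc hyinv
    have hd : ¬ (l : ℤ) ∣ (k + 1) - k := by simpa using L.not_dvd_one
    obtain ⟨hmax, hcard, himg⟩ := L.shift hd
    obtain ⟨-, -, -, -, -, hin⟩ := exists_goodLine_of hS hmax (hcard ▸ L.one_lt) hOodd (hnorm k)
      ⟨v, hvO, by rw [smul_smul, ← zpow_one_add, ne_eq, L.pt_eq_iff]; simpa using L.not_dvd_one⟩
      (by
        rw [himg]
        rintro _ ⟨w, hw, rfl⟩
        refine le_sup_right (a := A) (le_sup_left (b := Subgroup.zpowers v)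
          ⟨(L.shift_mem_J k k hw).1, ?_⟩)
        show _ ∈ M
        exact mul_mem (mul_mem (zpow_mem hv k) (hJ hw)) (inv_mem (zpow_mem hv k)))
    have h := hin y hyO hyc hyinv
    rw [himg] at h
    obtain ⟨w, hw, rfl⟩ := h
    exact (L.shift_mem_J k k hw).1
  have hstep : ∀ a b : ℤ, x • v ^ a • c = v ^ a • c → x • v ^ b • c = v ^ b • c →
      x • v ^ (2 * a - b) • c = v ^ (2 * a - b) • c := by
    intro a b ha hb
    have hwI := L.mirror_inv a
    have hiso : H28.IsIsolatedInvolution (⟨(mirror u v a), hmirror a⟩ : ↥M) := by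
      refine ⟨by rw [← Subgroup.orderOf_coe]; exact hwI.1, fun g hg => ?_⟩
      set w' : ↥M := g * ⟨(mirror u v a), hmirror a⟩ * g⁻¹ with hw'
      refine Subtype.ext (hnopair (mirror u v a) (hmirror a) (w' : G) w'.2 hwI.1 ?_ (hg.map M.subtype)).symm
      rw [hw']
      rw [Subgroup.coe_mul, Subgroup.coe_mul, Subgroup.coe_inv, orderOf_conj']
      exact hwI.1
    have hz : (mirror u v a) * x * (mirror u v a)⁻¹ * x⁻¹ ∈ A := ⟨_, H28.zStar hiso ⟨x, hx⟩, rfl⟩
    have hy : x * (mirror u v a) * x⁻¹ * (mirror u v a) ∈ A := by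
      have h' := inv_mem hz
      rwa [show ((mirror u v a) * x * (mirror u v a)⁻¹ * x⁻¹)⁻¹ = x * (mirror u v a) * x⁻¹ * (mirror u v a)⁻¹ by group, inv_eq_self_inv hwI.1] at h'
    have hxa : x⁻¹ • v ^ a • c = v ^ a • c := inv_smul_eq_iff.mpr ha.symm
    have hxb : x⁻¹ • v ^ b • c = v ^ b • c := inv_smul_eq_iff.mpr hb.symm
    have hyS := hkey a _ (le_sup_left (b := B) hy)
      (by simp only [mul_smul, hwI.2, hxa, ha])
      (by
        simp only [mul_inv_rev, inv_inv, mul_assoc, inv_eq_self_inv hwI.1, mul_self_inv hwI.1,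
          mul_one])
    have e := mem_lineStab.mp hyS (2 * a - b)
    simp only [mul_smul] at e
    have h1 : (mirror u v a) • v ^ (2 * a - b) • c = v ^ b • c := by rw [L.mirror_pt]; congr 2; ring
    have h2 : (mirror u v a) • v ^ b • c = v ^ (2 * a - b) • c := L.mirror_pt a b
    rw [h1, hxb, h2] at e
    exact e
  exact mem_lineStab.mpr (line_fix_all L.prime L.move L.period hstep hj hi hij)

/-! ### The Fitting subgroup -/

theorem map_fitting_le [Finite G] {X S : Subgroup G}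
    (h : ∀ r : ℕ, r.Prime → Cfsg.pCoreOf r X ≤ S) : (Cfsg.fittingSubgroup ↥X).map X.subtype ≤ S := by
  rw [H19.fitting_eq_iSup_pCore, Subgroup.map_iSup]
  exact iSup_le fun p => h p p.2

theorem mem_pCore_of_mem_fitting {H : Type u} [Group H] [Finite H] {s : ℕ} [Fact s.Prime] {x : H}
    (hx : x ∈ Cfsg.fittingSubgroup H) {k : ℕ} (hxk : x ^ s ^ k = 1) : x ∈ Cfsg.pCore s H := by
  haveI := H19.fitting_normal H
  haveI := H19.fitting_isNilpotent (G := H)
  set F := Cfsg.fittingSubgroup H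
  have hp : IsPGroup s (Subgroup.zpowers (⟨x, hx⟩ : F)) := by
    rintro ⟨y, hy⟩
    obtain ⟨n, rfl⟩ := Subgroup.mem_zpowers_iff.mp hy
    refine ⟨k, Subtype.ext (Subtype.ext ?_)⟩
    simp only [SubmonoidClass.coe_pow, Subgroup.coe_zpow, OneMemClass.coe_one]
    rw [← zpow_natCast, ← zpow_mul, mul_comm, zpow_mul, zpow_natCast, hxk, one_zpow]
  obtain ⟨P, hP⟩ := hp.exists_le_sylow
  have hPn : (P : Subgroup F).Normal := inferInstance
  haveI : (P : Subgroup F).Characteristic := P.characteristic_of_normal hPn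
  exact H19.le_pCore ConjAct.normal_of_characteristic_of_normal (P.2.map F.subtype)
    ⟨⟨x, hx⟩, hP (Subgroup.mem_zpowers _), rfl⟩

theorem closure_section {A₁ A₀ : Subgroup G} {s : Set G}
    (h : ∀ k ∈ s, k ∈ Subgroup.normalizer (A₁ : Set G) ∧ ∀ a ∈ A₁, a⁻¹ * (k * a * k⁻¹) ∈ A₀)
    {k : G} (hk : k ∈ Subgroup.closure s) :
    k ∈ Subgroup.normalizer (A₁ : Set G) ∧ ∀ a ∈ A₁, a⁻¹ * (k * a * k⁻¹) ∈ A₀ := by
  induction hk using Subgroup.closure_induction with
  | mem k hk => exact h k hk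
  | one => exact ⟨one_mem _, fun a _ => by simp⟩
  | mul x y _ _ hx hy =>
    refine ⟨mul_mem hx.1 hy.1, fun a ha => ?_⟩
    rw [show a⁻¹ * (x * y * a * (x * y)⁻¹) =
      (a⁻¹ * (y * a * y⁻¹)) * ((y * a * y⁻¹)⁻¹ * (x * (y * a * y⁻¹) * x⁻¹)) by group]
    exact mul_mem (hy.2 a ha) (hx.2 _ ((conj_mem_iff hy.1).mpr ha))
  | inv x _ hx =>
    refine ⟨inv_mem hx.1, fun a ha => ?_⟩
    have h2 := inv_mem (hx.2 _ ((Subgroup.mem_normalizer_iff''.mp hx.1 a).mp ha))
    rwa [show ((x⁻¹ * a * x)⁻¹ * (x * (x⁻¹ * a * x) * x⁻¹))⁻¹ =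
      a⁻¹ * (x⁻¹ * a * x⁻¹⁻¹) by group] at h2

theorem smul_eq_of_commute (hS : Setting G Ω) {u : G} {c : Ω} (hu : InvAt u c) {g : G}
    (h : Commute u g) : g • c = c :=
  hS.fix_unique u hu.1 _ _ (by rw [smul_smul, h.eq, mul_smul, hu.2]) hu.2

theorem invert_section [Finite G] (hS : Setting G Ω) {u : G} {c : Ω} (hu : InvAt u c)
    {A : Subgroup G} (hA : Odd (Nat.card A)) (huA : u ∈ Subgroup.normalizer (A : Set G)) :
    ∀ a ∈ A ⊓ Subgroup.normalizer ((A ⊓ MulAction.stabilizer G c : Subgroup G) : Set G),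
      u * a * u⁻¹ * a ∈ A ⊓ MulAction.stabilizer G c := by
  set A₀ := A ⊓ MulAction.stabilizer G c with hA₀
  set A₁ := A ⊓ Subgroup.normalizer (A₀ : Set G) with hA₁
  intro y hy
  have hu₀ : u ∈ Subgroup.normalizer (A₀ : Set G) :=
    mem_normalizer_inf huA (Subgroup.le_normalizer hu.2)
  have hu₁ : u ∈ Subgroup.normalizer (A₁ : Set G) :=
    mem_normalizer_inf huA (Subgroup.le_normalizer hu₀)
  obtain ⟨f, hf, i, hi, hfu, hiu, rfl⟩ := Bender.exists_fixed_mul_inverted hu.1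
    (hA.of_dvd_nat (Subgroup.card_dvd_of_le inf_le_left)) hu₁ hy
  have hf₀ : f ∈ A₀ := ⟨hf.1, smul_eq_of_commute hS hu (mul_inv_eq_iff_eq_mul.mp hfu)⟩
  rw [show u * (f * i) * u⁻¹ * (f * i) = (u * f * u⁻¹) * ((u * i * u⁻¹) * f * i) by group, hfu, hiu]
  exact mul_mem hf₀ ((Subgroup.mem_normalizer_iff''.mp hi.2 f).mp hf₀)

variable {u : G} {c : Ω} {v : G} {l : ℕ}

theorem GoodLine.J_eq (L : GoodLine u c v l) :
    {j | j ∈ sideStab v c ⊓ MulAction.stabilizer G c ∧ u * j * u⁻¹ = j⁻¹} = J u c (v • c) := by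
  ext j
  constructor
  · rintro ⟨⟨h1, h2⟩, h3⟩
    exact ⟨h2, (mem_pairStab.mp h1).1, h3⟩
  · intro hj
    exact ⟨⟨lineStab_le_sideStab v c (L.J_subset hj), hj.1⟩, hj.2.2⟩

theorem GoodLine.closure_le (L : GoodLine u c v l) :
    Subgroup.closure (J u c (v • c)) ≤ lineStab v c :=
  (Subgroup.closure_le _).mpr L.J_subset

theorem GoodLine.inv_mem_normalizer_closure [Finite G] (L : GoodLine u c v l) :
    u ∈ Subgroup.normalizer (Subgroup.closure (J u c (v • c)) : Set G) := by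
  rw [Subgroup.mem_normalizer_iff_map_conj_eq]
  refine Subgroup.eq_of_le_of_card_ge ?_
    (le_of_eq (Subgroup.card_map_of_injective (MulAut.conj u).injective).symm)
  rw [MonoidHom.map_closure, Subgroup.closure_le]
  rintro _ ⟨j, hj, rfl⟩
  show u * j * u⁻¹ ∈ Subgroup.closure (J u c (v • c))
  rw [hj.2.2]
  exact inv_mem (Subgroup.subset_closure hj)

theorem GoodLine.side_le_normalizer_closure [Finite G] (hS : Setting G Ω) (L : GoodLine u c v l) :
    sideStab v c ⊓ MulAction.stabilizer G c ≤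
      Subgroup.normalizer (Subgroup.closure (J u c (v • c)) : Set G) := by
  rw [← L.J_eq]
  exact Bender.le_normalizer_closure_inverted L.inv.1
    ((L.odd_sideStab hS).of_dvd_nat (Subgroup.card_dvd_of_le inf_le_left))
    (mem_normalizer_inf L.inv_mem_normalizer_sideStab (Subgroup.le_normalizer L.inv.2))

theorem GoodLine.odd_pCoreOf [Finite G] (hS : Setting G Ω) (L : GoodLine u c v l) (r : ℕ) :
    Odd (Nat.card (Cfsg.pCoreOf r (sideStab v c) : Subgroup G)) :=
  (L.odd_sideStab hS).of_dvd_nat (Subgroup.card_dvd_of_le (H72.pCoreOf_le _ _))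

theorem GoodLine.inv_mem_normalizer_pCoreOf [Finite G] (L : GoodLine u c v l) (r : ℕ) :
    u ∈ Subgroup.normalizer (Cfsg.pCoreOf r (sideStab v c) : Set G) :=
  mem_normalizer_pCoreOf L.inv_mem_normalizer_sideStab r

theorem GoodLine.closure_centralizes_section [Finite G] (hS : Setting G Ω) (L : GoodLine u c v l)
    (r : ℕ) {k : G} (hk : k ∈ Subgroup.closure (J u c (v • c))) :
    ∀ a ∈ Cfsg.pCoreOf r (sideStab v c) ⊓ Subgroup.normalizer
        ((Cfsg.pCoreOf r (sideStab v c) ⊓ MulAction.stabilizer G c : Subgroup G) : Set G),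
      a⁻¹ * (k * a * k⁻¹) ∈ Cfsg.pCoreOf r (sideStab v c) ⊓ MulAction.stabilizer G c := by
  refine (closure_section (fun j hj => ?_) hk).2
  have hX : j ∈ sideStab v c := lineStab_le_sideStab v c (L.J_subset hj)
  have hA' := H72.le_normalizer_pCoreOf r (sideStab v c) hX
  have h0 := mem_normalizer_inf hA' (Subgroup.le_normalizer (show j ∈ MulAction.stabilizer G c from hj.1))
  have h1 := mem_normalizer_inf hA' (Subgroup.le_normalizer h0)
  exact ⟨h1, Bender.inverted_centralizes_section hj.2.2 (odd_orderOf_of_mem (L.odd_sideStab hS) hX) h1 h0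
    (invert_section hS L.inv (L.odd_pCoreOf hS r) (L.inv_mem_normalizer_pCoreOf r))⟩

/-! ### The cores of the side stabilisers -/

section
variable [Finite G] [Finite Ω] (hS : Setting G Ω) (hIH : IH.{u} (Nat.card G))
  (hnone : ∀ (M : Subgroup G) (Λ : Set Ω), ¬ IsJConfig M Λ)
include hS hIH hnone

theorem GoodLine.pCoreOf_lineStab_eq_bot (L : GoodLine u c v l) {r : ℕ} [Fact r.Prime]
    (hA : ¬ Cfsg.pCoreOf r (sideStab v c) ≤ lineStab v c) : Cfsg.pCoreOf r (lineStab v c) = ⊥ := by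
  by_contra hQ1
  set A := Cfsg.pCoreOf r (sideStab v c) with hAdef
  set Q := Cfsg.pCoreOf r (lineStab v c) with hQdef
  have hQS : Q ≤ lineStab v c := H72.pCoreOf_le _ _
  have hQA : Q ≤ Subgroup.normalizer (A : Set G) :=
    (hQS.trans (lineStab_le_sideStab v c)).trans (H72.le_normalizer_pCoreOf _ _)
  have hP : IsPGroup r (A ⊔ Q : Subgroup G) :=
    (H72.pCoreOf_isPGroup r _).to_sup_of_normal_left' (H72.pCoreOf_isPGroup r _) hQA
  obtain ⟨x, hxP, hxQ, hxN⟩ := H28.exists_mem_normalizer_not_mem hP (le_sup_right (a := A))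
    (fun h => hA ((le_sup_left (b := Q)).trans (h.symm.le.trans hQS)))
  have hx : x ∈ sideStab v c :=
    sup_le (H72.pCoreOf_le _ _) (hQS.trans (lineStab_le_sideStab v c)) hxP
  have hxS : x ∈ lineStab v c := L.mem_lineStab_of_normalizes hS hIH hnone hQS hQ1
    (mem_normalizer_pCoreOf L.inv_mem_normalizer r)
    (mem_normalizer_pCoreOf (self_mem_normalizer_lineStab v c) r)
    (fun j hj => H72.le_normalizer_pCoreOf r _ (L.J_subset hj)) hxN
    (i := -1) (j := 1) (by simpa using L.not_dvd_two) (by simpa using (mem_pairStab.mp hx).2)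
    (by simpa using (mem_pairStab.mp hx).1)
  refine hxQ (H72.le_pCoreOf (N := (A ⊔ Q) ⊓ lineStab v c) inf_le_right (fun s hs => ?_)
    (hP.to_le inf_le_left) ⟨hxP, hxS⟩)
  exact mem_normalizer_inf
    (mem_normalizer_sup (H72.le_normalizer_pCoreOf r _ (lineStab_le_sideStab v c hs))
      (H72.le_normalizer_pCoreOf r _ hs)) (Subgroup.le_normalizer hs)

theorem GoodLine.inf_lineStab_eq_bot (L : GoodLine u c v l) {r : ℕ} [Fact r.Prime]
    (hA : ¬ Cfsg.pCoreOf r (sideStab v c) ≤ lineStab v c) :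
    Cfsg.pCoreOf r (sideStab v c) ⊓ lineStab v c = ⊥ := by
  rw [← le_bot_iff, ← L.pCoreOf_lineStab_eq_bot hS hIH hnone hA]
  exact H72.le_pCoreOf inf_le_right
    (fun s hs => mem_normalizer_inf
      (H72.le_normalizer_pCoreOf r _ (lineStab_le_sideStab v c hs)) (Subgroup.le_normalizer hs))
    ((H72.pCoreOf_isPGroup r _).to_le inf_le_left)

theorem GoodLine.exists_not_le (hR : Rich Ω (⊤ : Subgroup G)) (L : GoodLine u c v l) :
    ∃ r : ℕ, r.Prime ∧ ¬ Cfsg.pCoreOf r (sideStab v c) ≤ lineStab v c := by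
  by_contra hcon
  push Not at hcon
  set X := sideStab v c with hX
  have hXodd := L.odd_sideStab hS
  obtain ⟨g, hg, hgc⟩ : ∃ g ∈ X, g • c ≠ c := by
    rw [hX, L.sideStab_eq]; exact exists_move hS hR L.inv L.move
  haveI : Group.IsSolvable ↥X := H25.PF14.odd_solvable _ hXodd
  have hF1 : Cfsg.fittingSubgroup ↥X ≠ ⊥ := fun h => by
    have hC := H19.centralizer_fitting_le (G := ↥X)
    rw [h] at hC
    have hgC : (⟨g, hg⟩ : ↥X) ∈ Subgroup.centralizer ((⊥ : Subgroup ↥X) : Set ↥X) := by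
      simp [Subgroup.mem_centralizer_iff]
    have h1 : g = 1 := congrArg Subtype.val (Subgroup.mem_bot.mp (hC hgC))
    exact hgc (by rw [h1, one_smul])
  obtain ⟨r, hr, hrF⟩ := Nat.exists_prime_and_dvd
    (fun h => hF1 (Subgroup.card_eq_one.mp h))
  obtain ⟨Q, hQS, hQ1, hN, hQ⟩ :=
    Bender.exists_lemmaW hXodd (lineStab_le_sideStab v c) (map_fitting_le hcon) hr hrF
  have key : ∀ x ∈ X, x ∈ Subgroup.normalizer (Q : Set G) → x ∈ lineStab v c := fun x hx hxN =>
    L.mem_lineStab_of_normalizes hS hIH hnone hQS hQ1 (hN _ L.inv_mem_normalizer)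
      (hN _ (self_mem_normalizer_lineStab v c))
      (fun j hj => hN _ (Subgroup.le_normalizer (L.J_subset hj))) hxN (i := -1) (j := 1)
      (by simpa using L.not_dvd_two) (by simpa using (mem_pairStab.mp hx).2)
      (by simpa using (mem_pairStab.mp hx).1)
  rcases hQ with hall | ⟨x, hxX, hxS, hxN, -, -⟩
  · exact hgc (smul_of_mem_lineStab (key g hg (hall hg)))
  · exact hxS (key x hxX hxN)

theorem GoodLine.bad_fixes (hR : Rich Ω (⊤ : Subgroup G)) (L : GoodLine u c v l) {r : ℕ}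
    [Fact r.Prime] (hA : ¬ Cfsg.pCoreOf r (sideStab v c) ≤ lineStab v c) :
    ∀ a ∈ Cfsg.pCoreOf r (sideStab v c), a • c = c := by
  by_contra hcon
  set A := Cfsg.pCoreOf r (sideStab v c) with hAdef
  set A₀ := A ⊓ MulAction.stabilizer G c with hA₀
  have hne : A₀ ≠ A := fun h => hcon fun a ha => ((h ▸ ha : a ∈ A₀)).2
  obtain ⟨a₀, ha₀A, ha₀₀, ha₀N⟩ :=
    H28.exists_mem_normalizer_not_mem (H72.pCoreOf_isPGroup r _) (inf_le_left : A₀ ≤ A) hne
  set K := Subgroup.closure (J u c (v • c)) with hK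
  have hKS : K ≤ lineStab v c := L.closure_le
  have hKX : K ≤ sideStab v c ⊓ MulAction.stabilizer G c :=
    le_inf (hKS.trans (lineStab_le_sideStab v c)) fun k hk => smul_of_mem_lineStab (hKS hk)
  have hKodd : Odd (Nat.card K) := (L.odd_lineStab hS).of_dvd_nat (Subgroup.card_dvd_of_le hKS)
  have huK := L.inv_mem_normalizer_closure
  have hTK := L.side_le_normalizer_closure hS
  obtain ⟨s, hs, y, hy, hyu⟩ : ∃ s : ℕ, s.Prime ∧ ∃ y ∈ Cfsg.pCoreOf s K, u * y * u⁻¹ ≠ y := by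
    by_contra hc
    push Not at hc
    obtain ⟨j, hj, hj1⟩ := exists_ne_one_of_one_lt L.one_lt
    have hjK : j ∈ K := Subgroup.subset_closure hj
    have h := Bender.fixes_of_fixes_pCoreOf L.inv.1 hKodd huK hc j hjK
    rw [hj.2.2] at h
    exact hj1 (eq_one_of_mul_self hKodd hjK (by rw [← inv_eq_iff_mul_eq_one, h]))
  haveI := Fact.mk hs
  set Φ := Cfsg.pCoreOf s K with hΦ
  have hΦK : Φ ≤ K := H72.pCoreOf_le _ _
  have hsr : s ≠ r := by
    rintro rfl
    have hle : Φ ≤ Cfsg.pCoreOf s (lineStab v c) := H72.le_pCoreOf (hΦK.trans hKS)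
      (fun x hx => mem_normalizer_pCoreOf
        (hTK ⟨lineStab_le_sideStab v c hx, smul_of_mem_lineStab hx⟩) s)
      (H72.pCoreOf_isPGroup s _)
    rw [L.pCoreOf_lineStab_eq_bot hS hIH hnone hA] at hle
    have hy1 : y = 1 := Subgroup.mem_bot.mp (hle hy)
    exact hyu (by rw [hy1]; group)
  have hΦ1 : Φ ≠ ⊥ := fun h => hyu (by rw [h, Subgroup.mem_bot] at hy; rw [hy]; group)
  have huΦ : u ∈ Subgroup.normalizer (Φ : Set G) := mem_normalizer_pCoreOf huK s
  have hΦA : Φ ≤ Subgroup.normalizer (A₀ : Set G) := fun φ hφ =>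
    mem_normalizer_inf (H72.le_normalizer_pCoreOf r _ (hKX (hΦK hφ)).1)
      (Subgroup.le_normalizer (hKX (hΦK hφ)).2)
  have hsA : ¬ s ∣ Nat.card A₀ := by
    intro hd
    obtain ⟨n, hn⟩ := ((H72.pCoreOf_isPGroup r (sideStab v c)).to_le
      (inf_le_left : A₀ ≤ A)).exists_card_eq
    rw [hn] at hd
    exact hsr ((Nat.prime_dvd_prime_iff_eq hs (Fact.out : r.Prime)).mp (hs.dvd_of_dvd_pow hd))
  obtain ⟨a, haa₀, haΦ⟩ := Bender.exists_fixed_in_section (H72.pCoreOf_isPGroup s K) hΦA hsA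
    (fun φ hφ => L.closure_centralizes_section hS r (hΦK hφ) a₀ ⟨ha₀A, ha₀N⟩)
  have haA : a ∈ A := by
    have := mul_mem ha₀A haa₀.1
    rwa [mul_inv_cancel_left] at this
  have hac : a • c ≠ c := fun h => ha₀₀ (by
    have := mul_mem (⟨haA, h⟩ : a ∈ A₀) (inv_mem haa₀)
    rwa [show a * (a₀⁻¹ * a)⁻¹ = a₀ by group] at this)
  set N := Subgroup.normalizer (Φ : Set G) with hN
  set C := Subgroup.centralizer (Φ : Set G) with hC
  have haC : a ∈ C := Subgroup.mem_centralizer_iff.mpr fun φ hφ =>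
    mul_inv_eq_iff_eq_mul.mp (haΦ φ hφ)
  have hCN : C ≤ N := Subgroup.centralizer_le_normalizer _
  have hCodd : Odd (Nat.card C) := odd_card_of_no_inv fun t ht ht2 => by
    obtain ⟨e, he⟩ := hS.exists_fix t ht2
    have hconj : ∃ g ∈ N, g * u * g⁻¹ = t := by
      rcases ne_or_eq e c with hec | hec
      · obtain ⟨i, -, hit, hiH⟩ := exists_middle hS L.inv ⟨ht2, he⟩ hec.symm
        exact ⟨i, hiH N huΦ (hCN ht), hit⟩
      · have h' := invAt_conj L.inv a
        obtain ⟨i, -, hit, hiH⟩ := exists_middle hS h' ⟨ht2, he⟩ (hec.symm ▸ hac)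
        refine ⟨i * a, mul_mem (hiH N ?_ (hCN ht)) (hCN haC), ?_⟩
        · exact mul_mem (mul_mem (hCN haC) huΦ) (inv_mem (hCN haC))
        · rw [← hit]; group
    obtain ⟨g, hg, rfl⟩ := hconj
    have huC : u ∈ C := (conj_mem_iff (mem_normalizer_centralizer hg)).mp ht
    exact hyu (mul_inv_eq_iff_eq_mul.mpr (Subgroup.mem_centralizer_iff.mp huC y hy).symm)
  have hKN : K ≤ N := fun k hk => H72.le_normalizer_pCoreOf s K hk
  obtain ⟨v', hv', l', L', hJ', -⟩ := exists_goodLine_of hS L.max L.one_lt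
    (odd_sup hCodd hKodd (fun k hk => mem_normalizer_centralizer (hKN hk)))
    (mem_normalizer_sup (mem_normalizer_centralizer huΦ) huK) ⟨a, le_sup_left (b := K) haC, hac⟩
    (fun j hj => le_sup_right (a := C) (Subgroup.subset_closure hj : j ∈ K))
  have hv'N : v' ∈ N := sup_le hCN hKN hv'
  have hΦS' : Φ ≤ lineStab v' c := by
    refine hΦK.trans ?_
    rw [hK, ← hJ']
    exact L'.closure_le
  have hJN : J u c (v' • c) ⊆ (N : Set G) := fun j hj =>
    hKN (Subgroup.subset_closure (hJ' ▸ hj))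
  obtain ⟨t, htp, htA⟩ := L'.exists_not_le hS hIH hnone hR
  haveI := Fact.mk htp
  have hbot := L'.inf_lineStab_eq_bot hS hIH hnone htA
  set A' := Cfsg.pCoreOf t (sideStab v' c) with hA'
  have hA'X : A' ≤ sideStab v' c := H72.pCoreOf_le _ _
  have hA₀' : A' ⊓ MulAction.stabilizer G c = ⊥ := by
    rw [eq_bot_iff, ← hbot]
    refine le_inf inf_le_left fun x hx => ?_
    have hxK : x ∈ Subgroup.normalizer (K : Set G) := by
      have h := L'.side_le_normalizer_closure hS (Subgroup.mem_inf.mpr ⟨hA'X (Subgroup.mem_inf.mp hx).1, (Subgroup.mem_inf.mp hx).2⟩ : x ∈ sideStab v' c ⊓ MulAction.stabilizer G c)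
      rwa [hJ'] at h
    exact L'.mem_lineStab_of_normalizes hS hIH hnone hΦS' hΦ1 huΦ hv'N hJN
      (mem_normalizer_pCoreOf hxK s) (i := 0) (j := 1) (by simpa using L'.not_dvd_one)
      (by simpa using hx.2) (by simpa using (mem_pairStab.mp (hA'X hx.1)).1)
  refine htA fun x hx => ?_
  have hxN : x ∈ N := hCN (Subgroup.mem_centralizer_iff.mpr fun φ hφ => by
    have hφJ : φ ∈ Subgroup.closure (J u c (v' • c)) := hJ'.symm ▸ hΦK hφ
    have h := L'.closure_centralizes_section hS t hφJ x ⟨hx, by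
      rw [hA₀']; exact Subgroup.mem_normalizer_iff.mpr fun z => by simp⟩
    rw [hA₀', Subgroup.mem_bot, inv_mul_eq_one, eq_comm] at h
    exact mul_inv_eq_iff_eq_mul.mp h)
  exact L'.mem_lineStab_of_normalizes hS hIH hnone hΦS' hΦ1 huΦ hv'N hJN hxN (i := -1) (j := 1)
    (by simpa using L'.not_dvd_two) (by simpa using (mem_pairStab.mp (hA'X hx)).2)
    (by simpa using (mem_pairStab.mp (hA'X hx)).1)

theorem GoodLine.bad_central (hR : Rich Ω (⊤ : Subgroup G)) (L : GoodLine u c v l) {r : ℕ}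
    [Fact r.Prime] (hA : ¬ Cfsg.pCoreOf r (sideStab v c) ≤ lineStab v c) :
    ∀ y ∈ Cfsg.pCoreOf r (sideStab v c), u * y * u⁻¹ = y := by
  intro y hy
  set w := y⁻¹ * (u * y * u⁻¹) with hw
  have hwA : w ∈ Cfsg.pCoreOf r (sideStab v c) :=
    mul_mem (inv_mem hy) ((conj_mem_iff (L.inv_mem_normalizer_pCoreOf r)).mpr hy)
  have hwu : u * w * u⁻¹ = w⁻¹ := by
    rw [hw]
    simp only [mul_inv_rev, inv_inv, mul_assoc, inv_eq_self_inv L.inv.1, mul_self_inv L.inv.1, mul_one]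
  have hwS : w ∈ lineStab v c := L.J_subset
    ⟨L.bad_fixes hS hIH hnone hR hA w hwA, (mem_pairStab.mp (H72.pCoreOf_le _ _ hwA)).1, hwu⟩
  have h1 : w ∈ Cfsg.pCoreOf r (sideStab v c) ⊓ lineStab v c := ⟨hwA, hwS⟩
  rw [L.inf_lineStab_eq_bot hS hIH hnone hA, Subgroup.mem_bot, hw, inv_mul_eq_one] at h1
  exact h1.symm

theorem GoodLine.fix_of_centralizes_good (hR : Rich Ω (⊤ : Subgroup G)) (L : GoodLine u c v l)
    {d : G} (hd : d ∈ sideStab v c)
    (hgood : ∀ s : ℕ, s.Prime → Cfsg.pCoreOf s (sideStab v c) ≤ lineStab v c →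
      ∀ y ∈ Cfsg.pCoreOf s (sideStab v c), Commute d y) : d • c = c := by
  classical
  set X := sideStab v c with hX
  set e := d⁻¹ * (u * d * u⁻¹) with he
  have heX : e ∈ X := mul_mem (inv_mem hd) ((conj_mem_iff L.inv_mem_normalizer_sideStab).mpr hd)
  have heu : u * e * u⁻¹ = e⁻¹ := by
    rw [he]
    simp only [mul_inv_rev, inv_inv, mul_assoc, inv_eq_self_inv L.inv.1, mul_self_inv L.inv.1, mul_one]
  have hcent : ∀ s : ℕ, s.Prime → ∀ y ∈ Cfsg.pCoreOf s X, Commute e y := by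
    intro s hs y hy
    haveI := Fact.mk hs
    have hN := L.inv_mem_normalizer_pCoreOf s
    have hsimp : u * (u * y * u⁻¹) * u⁻¹ = y := by
      simp only [mul_assoc, inv_eq_self_inv L.inv.1, mul_self_inv L.inv.1, mul_one]
      rw [← mul_assoc, mul_self_inv L.inv.1, one_mul]
    by_cases hA : Cfsg.pCoreOf s X ≤ lineStab v c
    · have h1 := (hgood s hs hA _ ((conj_mem_iff hN).mpr hy)).map (MulAut.conj u).toMonoidHom
      simp only [MulEquiv.coe_toMonoidHom, MulAut.conj_apply, hsimp] at h1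
      exact (hgood s hs hA y hy).inv_left.mul_left h1
    · have hfix := L.bad_central hS hIH hnone hR hA
      have h2 : d * y * d⁻¹ ∈ Cfsg.pCoreOf s X :=
        (conj_mem_iff (H72.le_normalizer_pCoreOf s X hd)).mpr hy
      refine mul_inv_eq_iff_eq_mul.mp ?_
      have hy' : u⁻¹ * y * u = y := by
        rw [inv_eq_self_inv L.inv.1]
        simpa [inv_eq_self_inv L.inv.1] using hfix y hy
      calc e * y * e⁻¹ = d⁻¹ * (u * (d * (u⁻¹ * y * u) * d⁻¹) * u⁻¹) * d := by rw [he]; group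
        _ = d⁻¹ * (d * y * d⁻¹) * d := by rw [hy', hfix _ h2]
        _ = y := by group
  haveI : Group.IsSolvable ↥X := H25.PF14.odd_solvable _ (L.odd_sideStab hS)
  have heF : (⟨e, heX⟩ : ↥X) ∈ Cfsg.fittingSubgroup ↥X := by
    refine H19.centralizer_fitting_le (Subgroup.mem_centralizer_iff.mpr fun f hf => ?_)
    have hle : Cfsg.fittingSubgroup ↥X ≤ Subgroup.centralizer ({(⟨e, heX⟩ : ↥X)} : Set ↥X) := by
      rw [H19.fitting_eq_iSup_pCore]
      refine iSup_le fun p q hq => Subgroup.mem_centralizer_iff.mpr ?_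
      rintro _ rfl
      exact Subtype.ext (hcent p p.2 q ⟨q, hq, rfl⟩)
    exact ((Subgroup.mem_centralizer_iff.mp (hle hf)) _ rfl).symm
  have heS : e ∈ lineStab v c := by
    have hex : ∃ n, 0 < n ∧ e ^ n ∈ lineStab v c :=
      ⟨orderOf e, orderOf_pos e, by rw [pow_orderOf_eq_one]; exact one_mem _⟩
    obtain ⟨hm0, hm⟩ := Nat.find_spec hex
    set m := Nat.find hex with hmdef
    have hdvd : ∀ n, e ^ n ∈ lineStab v c → m ∣ n := by
      intro n hn
      refine Nat.dvd_of_mod_eq_zero (Nat.eq_zero_of_not_pos fun hpos => ?_)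
      refine Nat.find_min hex (Nat.mod_lt n hm0) ⟨hpos, ?_⟩
      have h : e ^ n = e ^ (m * (n / m)) * e ^ (n % m) := by rw [← pow_add, Nat.div_add_mod]
      have h' := (Subgroup.mul_mem_cancel_left _ (by rw [pow_mul]; exact pow_mem hm (n / m))).mp (h ▸ hn)
      exact h'
    by_cases hm1 : m = 1
    · simpa [hm1] using hm
    exfalso
    obtain ⟨s, hs, hsm⟩ := Nat.exists_prime_and_dvd hm1
    haveI := Fact.mk hs
    have ho : orderOf e ≠ 0 := (orderOf_pos e).ne'
    set q := orderOf e / s ^ (orderOf e).factorization s with hq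
    have hqk : (e ^ q) ^ s ^ (orderOf e).factorization s = 1 := by
      rw [← pow_mul, hq, Nat.div_mul_cancel (Nat.ordProj_dvd _ _), pow_orderOf_eq_one]
    have hmem : (⟨e, heX⟩ : ↥X) ^ q ∈ Cfsg.pCore s ↥X :=
      mem_pCore_of_mem_fitting (pow_mem heF q) (k := (orderOf e).factorization s)
        (Subtype.ext (by simpa using hqk))
    have heq : e ^ q ∈ Cfsg.pCoreOf s X := ⟨_, hmem, by simp⟩
    refine Nat.not_dvd_ordCompl hs ho (hsm.trans (hdvd q ?_))
    by_cases hA : Cfsg.pCoreOf s X ≤ lineStab v c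
    · exact hA heq
    · have h1 := L.bad_central hS hIH hnone hR hA _ heq
      rw [← conj_pow, heu, inv_pow, inv_eq_iff_mul_eq_one] at h1
      rw [eq_one_of_mul_self (L.odd_sideStab hS) (H72.pCoreOf_le _ _ heq) h1]
      exact one_mem _
  have hec := smul_of_mem_lineStab heS
  rw [he, mul_smul, inv_smul_eq_iff, mul_smul, mul_smul, inv_smul_eq_iff.mpr L.inv.2.symm] at hec
  exact hS.fix_unique u L.inv.1 _ _ hec L.inv.2

theorem GoodLine.all_le (hR : Rich Ω (⊤ : Subgroup G)) (L : GoodLine u c v l) {r : ℕ}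
    [Fact r.Prime] : Cfsg.pCoreOf r (sideStab v c) ≤ lineStab v c := by
  by_contra hA
  set A := Cfsg.pCoreOf r (sideStab v c) with hAdef
  apply hA
  intro a ha
  set P : ℤ → Prop := fun i => ∀ y ∈ A, y • v ^ i • c = v ^ i • c with hP
  have hper : ∀ i j : ℤ, (l : ℤ) ∣ i - j → P i → P j := fun i j hij h y hy => by
    rw [← L.pt_eq_iff.mpr hij]; exact h y hy
  have h1 : P 1 := fun y hy => by simpa using (mem_pairStab.mp (H72.pCoreOf_le _ _ hy)).1
  have hm1 : P (-1) := fun y hy => by simpa using (mem_pairStab.mp (H72.pCoreOf_le _ _ hy)).2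
  have hbot := L.inf_lineStab_eq_bot hS hIH hnone hA
  have hmid : ∀ i j k : ℤ, P i → P j → (l : ℤ) ∣ 2 * k - (i + j) → P k := by
    intro i j k hi hj hk
    by_cases hij : (l : ℤ) ∣ i - j
    · refine hper i _ ?_ hi
      have h2 : (l : ℤ) ∣ 2 * (i - k) := by
        rw [show 2 * (i - k) = (i - j) - (2 * k - (i + j)) by ring]
        exact dvd_sub hij hk
      exact ((Nat.prime_iff_prime_int.mp L.prime).dvd_mul.mp h2).resolve_left L.not_dvd_two
    have hd : ¬ (l : ℤ) ∣ i - k := by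
      intro hd
      refine hij ?_
      rw [show i - j = 2 * (i - k) + (2 * k - (i + j)) by ring]
      exact dvd_add (dvd_mul_of_dvd_right hd 2) hk
    obtain ⟨L', hline, hside⟩ := L.rebase k hd
    have hj' : v ^ (k - (i - k)) • c = v ^ j • c := by
      refine L.pt_eq_iff.mpr ?_
      rwa [show k - (i - k) - j = 2 * k - (i + j) by ring]
    rw [show k + (i - k) = i by ring, hj'] at hside
    intro y hy
    refine L'.fix_of_centralizes_good hS hIH hnone hR
      (by rw [hside]; exact mem_pairStab.mpr ⟨hi y hy, hj y hy⟩) fun s _ hgs g hg => ?_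
    rw [hside] at hgs hg
    have hgS : g ∈ lineStab v c := hline ▸ hgs hg
    have hyX : y ∈ pairStab (v ^ i • c) (v ^ j • c) := mem_pairStab.mpr ⟨hi y hy, hj y hy⟩
    have e1 : y * g * y⁻¹ * g⁻¹ ∈ A := by
      rw [show y * g * y⁻¹ * g⁻¹ = y * (g * y⁻¹ * g⁻¹) by group]
      exact mul_mem hy ((conj_mem_iff
        (H72.le_normalizer_pCoreOf r _ (lineStab_le_sideStab v c hgS))).mpr (inv_mem hy))
    have e2 : y * g * y⁻¹ * g⁻¹ ∈ lineStab v c :=
      hline ▸ hgs (mul_mem ((conj_mem_iff (H72.le_normalizer_pCoreOf s _ hyX)).mpr hg) (inv_mem hg))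
    have e3 : y * g * y⁻¹ * g⁻¹ ∈ A ⊓ lineStab v c := ⟨e1, e2⟩
    rw [hbot, Subgroup.mem_bot] at e3
    exact mul_inv_eq_iff_eq_mul.mp (mul_inv_eq_one.mp e3)
  exact mem_lineStab.mpr fun i =>
    index_eq_univ_of_middle L.prime L.ne_two hper hmid h1 hm1 (by simpa using L.not_dvd_two) i a ha

end

end PartI

/-- Part I: if some `J` is nontrivial then there is a `J`-configuration. -/
theorem exists_jConfig [Finite G] [Finite Ω] (hS : Setting G Ω) (hR : Rich Ω (⊤ : Subgroup G))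
    (hIH : IH.{u} (Nat.card G)) (hne : ¬ NoJ G Ω) :
    ∃ (M : Subgroup G) (Λ : Set Ω), IsJConfig M Λ := by
  by_contra hcon
  push Not at hcon
  obtain ⟨u', c, v, l, L⟩ := PartI.exists_goodLine hS hR hne
  obtain ⟨r, hr, hle⟩ := L.exists_not_le hS hIH hcon hR
  haveI := Fact.mk hr
  exact hle (L.all_le hS hIH hcon hR)

end Cfsg.Agent.H14.Bender
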