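import Mathlib

/-!
An involution in the group generated by two quadratic units commutes with both of them
(`PLAN.md`, sec. 5, ST).
-/

set_option autoImplicit false

namespace Cfsg.Agent.H14.Bender

namespace QuadraticPair

variable {C T : Type*} [CommRing C] [Ring T] [Algebra C T]

/-- An element of the algebra spanned by `1, α, β, αβ`. -/
def elt (α β : T) (x y w t : C) : T := x • (1 : T) + y • α + w • β + t • (α * β)

theorem elt_mul {α β : T} {g : C} (hα : α * α = 0) (hβ : β * β = 0) (hg : β * α = g • 1 - α * β)
    (x y w t x' y' w' t' : C) :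
    elt α β x y w t * elt α β x' y' w' t' =
      elt α β (x * x' + w * y' * g) (x * y' + y * x' + t * y' * g) (x * w' + w * x' + w * t' * g)
        (x * t' + t * x' + y * w' - w * y' + t * t' * g) := by
  have h1 : α * (α * β) = 0 := by rw [← mul_assoc, hα, zero_mul]
  have h2 : (α * β) * β = 0 := by rw [mul_assoc, hβ, mul_zero]
  have h3 : (α * β) * α = g • α := by
    rw [mul_assoc, hg, mul_sub, h1, sub_zero, mul_smul_comm, mul_one]
  have h4 : β * (α * β) = g • β := by
    rw [← mul_assoc, hg, sub_mul, h2, sub_zero, smul_mul_assoc, one_mul]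
  have h5 : (α * β) * (α * β) = g • (α * β) := by
    rw [← mul_assoc, h3, smul_mul_assoc]
  simp only [elt, mul_add, add_mul, smul_mul_assoc, mul_smul_comm, one_mul, mul_one, hα, hβ, h1, h2,
    h3, h4, h5, hg, smul_zero, zero_add, add_zero]
  module

end QuadraticPair

open QuadraticPair in
/-- An involution in the group generated by two quadratic units commutes with the first. -/
theorem commute_of_quadratic_pair {R : Type*} [Ring R] (h2 : IsUnit (2 : R)) (a b τ : Rˣ)
    (ha : ((a : R) - 1) * ((a : R) - 1) = 0) (hb : ((b : R) - 1) * ((b : R) - 1) = 0)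
    (hτ : τ ∈ Subgroup.closure {a, b}) (hτ2 : τ * τ = 1) : Commute τ a := by
  let T : Subring R := Subring.closure {(a : R) - 1, (b : R) - 1}
  let α : T := ⟨(a : R) - 1, Subring.subset_closure (Set.mem_insert _ _)⟩
  let β : T := ⟨(b : R) - 1, Subring.subset_closure (Set.mem_insert_of_mem _ rfl)⟩
  have hα : α * α = 0 := Subtype.ext ha
  have hβ : β * β = 0 := Subtype.ext hb
  set γ : T := α * β + β * α with hγ
  have hγα : Commute γ α := by
    show (α * β + β * α) * α = α * (α * β + β * α)
    rw [add_mul, mul_add, mul_assoc β α α, hα, mul_zero, add_zero, ← mul_assoc α α β, hα, zero_mul,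
      zero_add, mul_assoc]
  have hγβ : Commute γ β := by
    show (α * β + β * α) * β = β * (α * β + β * α)
    rw [add_mul, mul_add, mul_assoc α β β, hβ, mul_zero, zero_add, ← mul_assoc β β α, hβ, zero_mul,
      add_zero, mul_assoc]
  have hγc : γ ∈ Subring.center T := by
    refine Subring.mem_center_iff.2 fun z => ?_
    obtain ⟨z, hz⟩ := z
    have key : ∀ w ∈ T, Commute w (γ : R) := by
      intro w hw
      induction hw using Subring.closure_induction with
      | mem w hw =>
        rcases hw with rfl | rfl
        · exact (hγα.map T.subtype).symm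
        · exact (hγβ.map T.subtype).symm
      | zero => exact Commute.zero_left _
      | one => exact Commute.one_left _
      | add _ _ _ _ h h' => exact h.add_left h'
      | neg _ _ h => exact h.neg_left
      | mul _ _ _ _ h h' => exact h.mul_left h'
    exact Subtype.ext (key z hz)
  let g : Subring.center T := ⟨γ, hγc⟩
  have hg : β * α = g • (1 : T) - α * β := by
    show β * α = γ * 1 - α * β
    rw [mul_one, hγ, add_sub_cancel_left]
  have key : ∀ h ∈ Subgroup.closure {a, b}, ∃ x y w t : Subring.center T,
      (h : R) = (elt α β x y w t : T) ∧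
        ((h⁻¹ : Rˣ) : R) = (elt α β (x + t * g) (-y) (-w) (-t) : T) := by
    intro h hh
    induction hh using Subgroup.closure_induction with
    | mem h hh =>
      have hi : ∀ u : Rˣ, ((u : R) - 1) * ((u : R) - 1) = 0 → ((u⁻¹ : Rˣ) : R) = 1 - ((u : R) - 1) := by
        intro u hu
        refine Units.inv_eq_of_mul_eq_one_right ?_
        calc (u : R) * (1 - ((u : R) - 1)) = 1 - ((u : R) - 1) * ((u : R) - 1) := by noncomm_ring
          _ = 1 := by rw [hu, sub_zero]
      rcases hh with rfl | rfl
      · refine ⟨1, 1, 0, 0, ?_, ?_⟩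
        · simp [elt, α]
        · rw [hi _ ha]; simp [elt, α, sub_eq_add_neg]
      · refine ⟨1, 0, 1, 0, ?_, ?_⟩
        · simp [elt, β]
        · rw [hi _ hb]; simp [elt, β, sub_eq_add_neg]
    | one => exact ⟨1, 0, 0, 0, by simp [elt], by simp [elt]⟩
    | mul h k _ _ ih ik =>
      obtain ⟨x, y, w, t, h1, h1'⟩ := ih
      obtain ⟨x', y', w', t', h2, h2'⟩ := ik
      refine ⟨x * x' + w * y' * g, x * y' + y * x' + t * y' * g, x * w' + w * x' + w * t' * g,
        x * t' + t * x' + y * w' - w * y' + t * t' * g, ?_, ?_⟩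
      · rw [Units.val_mul, h1, h2, ← Subring.coe_mul, elt_mul hα hβ hg]
      · rw [mul_inv_rev, Units.val_mul, h1', h2', ← Subring.coe_mul, elt_mul hα hβ hg]
        congr 2 <;> ring
    | inv h _ ih =>
      obtain ⟨x, y, w, t, h1, h1'⟩ := ih
      exact ⟨x + t * g, -y, -w, -t, h1', by rw [inv_inv, h1]; congr 2 <;> ring⟩
  obtain ⟨x, y, w, t, h1, h1'⟩ := key τ hτ
  rw [inv_eq_of_mul_eq_one_right hτ2] at h1'
  have hc : elt α β x y w t + elt α β (x + t * g) (-y) (-w) (-t) = (2 * x + t * g) • (1 : T) := by
    simp only [elt]; module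
  have hsum : (2 : R) * τ = (((2 * x + t * g : Subring.center T) : T) : R) := by
    rw [two_mul]
    nth_rw 2 [h1']
    rw [h1, ← Subring.coe_add, hc]
    exact congrArg Subtype.val (mul_one ((2 * x + t * g : Subring.center T) : T))
  have hcom : Commute ((2 : R) * τ) (a : R) := by
    rw [hsum]
    have h3 : Commute (((2 * x + t * g : Subring.center T) : T)) α :=
      ((Subring.mem_center_iff.1 (2 * x + t * g : Subring.center T).2) α).symm
    have h4 := (h3.map T.subtype).add_right (Commute.one_right _)
    simpa [α] using h4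
  obtain ⟨u, hu⟩ := h2
  refine Units.ext ?_
  show (τ : R) * a = a * τ
  have h3 : (2 : R) * (τ * a) = (2 : R) * (a * τ) := by
    rw [← mul_assoc, hcom.eq, ← mul_assoc, ← mul_assoc, (Commute.ofNat_left 2 (a : R)).eq]
  rw [← hu] at h3
  exact (Units.mul_right_inj u).1 h3

end Cfsg.Agent.H14.Bender
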