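import Cfsg.Agent.H14.Bender.Defs
import Cfsg.Agent.H19.Cores
import Cfsg.Agent.H28.ZStar
import Cfsg.Agent.H48.OddInvolution
import Cfsg.Agent.H50.TwoInvolutions

/-!
Elementary facts on settings in which every involution fixes exactly one point, used for the
analysis of tame images (`PLAN.md`, sec. 5, TAME): swappers, normalised subgroups of odd order,
Sylow subgroups given by their order, and the criterion for a doubly transitive local subgroup to
contain an involution with apex inside its orbit.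
-/

set_option autoImplicit false

namespace Cfsg.Agent.H14.Bender.TameAux

universe u

variable {G : Type u} [Group G] {Ω : Type u} [MulAction G Ω]

/-- The points fixed by every element of `Q`. -/
def fixPts (Ω : Type u) [MulAction G Ω] (Q : Subgroup G) : Set Ω := {y | ∀ q ∈ Q, q • y = y}

theorem apex_eq (hS : Setting G Ω) {t : G} {x y : Ω} (hx : InvAt t x) (hy : t • y = y) : y = x :=
  hS.fix_unique t hx.1 y x hy hx.2

theorem smul_apex_of_commute (hS : Setting G Ω) {g t : G} {x : Ω} (ht : InvAt t x)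
    (h : Commute g t) : g • x = x := by
  refine apex_eq hS ht ?_
  rw [smul_smul, ← h.eq, mul_smul, ht.2]

theorem invAt_conj {t : G} {x : Ω} (ht : InvAt t x) (g : G) : InvAt (g * t * g⁻¹) (g • x) := by
  refine ⟨by rw [H50.orderOf_conj, ht.1], ?_⟩
  rw [mul_smul, mul_smul, inv_smul_smul, ht.2]

theorem smul_smul_of_inv {t : G} (ht : orderOf t = 2) (x : Ω) : t • t • x = x := by
  rw [smul_smul, H50.inv_mul_self ht, one_smul]

theorem odd_prod [Finite G] (hS : Setting G Ω) {s t : G} {x y : Ω} (hs : InvAt s x)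
    (ht : InvAt t y) (hxy : x ≠ y) : Odd (orderOf (s * t)) := by
  by_contra hcon
  rw [Nat.not_odd_iff_even] at hcon
  obtain ⟨m, -, hw, hcs, hct, -⟩ := H50.central_involution_spec hs.1 ht.1 hcon
  exact hxy (hS.fix_unique _ hw x y (smul_apex_of_commute hS hs hcs.symm)
    (smul_apex_of_commute hS ht hct.symm))

/-- Two involutions with different apexes are conjugate by an involution swapping the apexes. -/
theorem exists_swap [Finite G] (hS : Setting G Ω) {s t : G} {x y : Ω} (hs : InvAt s x)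
    (ht : InvAt t y) (hxy : x ≠ y) {M : Subgroup G} (hsM : s ∈ M) (htM : t ∈ M) :
    ∃ i ∈ M, orderOf i = 2 ∧ i • x = y ∧ i • y = x ∧ i * s * i⁻¹ = t := by
  obtain ⟨m, hm⟩ := H50.exists_conj_of_odd hs.1 ht.1 (odd_prod hS hs ht hxy)
  set i := (s * t) ^ m * s with hidef
  have hiM : i ∈ M := mul_mem (pow_mem (mul_mem hsM htM) m) hsM
  have hii : i * i = 1 := by
    have h1 := H50.conj_prod_pow_left hs.1 ht.1 m
    rw [H50.inv_eq_self hs.1] at h1
    rw [hidef, show (s * t) ^ m * s * ((s * t) ^ m * s) = (s * t) ^ m * (s * (s * t) ^ m * s) by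
      simp only [mul_assoc], h1, mul_inv_cancel]
  have hconj : i * s * i⁻¹ = t := by
    rw [← hm, hidef, mul_inv_rev, H50.inv_eq_self hs.1]
    simp only [mul_assoc]
    rw [← mul_assoc s s, H50.inv_mul_self hs.1, one_mul]
  have hix : i • x = y := apex_eq hS ht (hconj ▸ (invAt_conj hs i).2)
  have hi1 : i ≠ 1 := fun h => hxy (by rw [← hix, h, one_smul])
  have hi := H50.orderOf_eq_two hii hi1
  exact ⟨i, hiM, hi, hix, by rw [← hix, smul_smul_of_inv hi], hconj⟩

/-- A subgroup fixing two points has odd order. -/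
theorem odd_card_of_fix_two [Finite G] (hS : Setting G Ω) {X : Subgroup G} {x y : Ω}
    (hxy : x ≠ y) (hX : ∀ g ∈ X, g • x = x ∧ g • y = y) : Odd (Nat.card X) := by
  by_contra hcon
  rw [Nat.not_odd_iff_even] at hcon
  have : Fact (Nat.Prime 2) := ⟨Nat.prime_two⟩
  obtain ⟨t, ht⟩ := exists_prime_orderOf_dvd_card' (G := ↥X) 2 (even_iff_two_dvd.1 hcon)
  exact hxy (hS.fix_unique (t : G) (by rw [Subgroup.orderOf_coe, ht]) x y (hX _ t.2).1 (hX _ t.2).2)

/-- An element exchanging two points has a power which is an involution exchanging them. -/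
theorem exists_swap_pow [Finite G] (hS : Setting G Ω) {g : G} {x y : Ω} (hxy : x ≠ y)
    (hgx : g • x = y) (hgy : g • y = x) :
    ∃ k : ℕ, orderOf (g ^ k) = 2 ∧ g ^ k • x = y ∧ g ^ k • y = x := by
  have h2x : g ^ 2 • x = x := by rw [sq, mul_smul, hgx, hgy]
  have h2y : g ^ 2 • y = y := by rw [sq, mul_smul, hgy, hgx]
  have hle : Subgroup.zpowers (g ^ 2) ≤ pairStab x y :=
    Subgroup.zpowers_le.2 ⟨h2x, h2y⟩
  have hodd : Odd (orderOf (g ^ 2)) := by
    have h := odd_card_of_fix_two hS hxy (X := Subgroup.zpowers (g ^ 2)) fun a ha => hle ha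
    rwa [Nat.card_zpowers] at h
  obtain ⟨q, hq⟩ := hodd
  have hpx : (g ^ 2) ^ q • x = x := (pow_mem (hle (Subgroup.mem_zpowers _)) q).1
  have hpy : (g ^ 2) ^ q • y = y := (pow_mem (hle (Subgroup.mem_zpowers _)) q).2
  have hexp : g ^ (2 * q + 1) = (g ^ 2) ^ q * g := by rw [pow_succ, pow_mul]
  have hx' : g ^ (2 * q + 1) • x = y := by rw [hexp, mul_smul, hgx, hpy]
  refine ⟨2 * q + 1, H50.orderOf_eq_two ?_ ?_, hx', by rw [hexp, mul_smul, hgy, hpx]⟩
  · rw [← sq, ← pow_mul, mul_comm, pow_mul, ← hq, pow_orderOf_eq_one]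
  · intro h
    rw [h, one_smul] at hx'
    exact hxy hx'

/-- An involution normalising a subgroup which fixes its apex and a second point centralises it. -/
theorem commute_of_normalize (hJ : NoJ G Ω) {t : G} {x y : Ω} (ht : InvAt t x) (hxy : y ≠ x)
    {P : Subgroup G} (hPx : ∀ p ∈ P, p • x = x ∧ p • y = y) (hPt : ∀ p ∈ P, t * p * t⁻¹ ∈ P) :
    ∀ p ∈ P, Commute t p := by
  intro p hp
  have he : p⁻¹ * (t * p * t⁻¹) ∈ P := mul_mem (inv_mem hp) (hPt p hp)
  have hinv : t * (p⁻¹ * (t * p * t⁻¹)) * t⁻¹ = (p⁻¹ * (t * p * t⁻¹))⁻¹ := by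
    rw [H50.inv_eq_self ht.1]
    calc t * (p⁻¹ * (t * p * t)) * t = (t * p⁻¹ * t) * p * (t * t) := by group
      _ = (t * p⁻¹ * t) * p := by rw [H50.inv_mul_self ht.1, mul_one]
      _ = (p⁻¹ * (t⁻¹ * p * t⁻¹))⁻¹ := by group
      _ = (p⁻¹ * (t * p * t))⁻¹ := by rw [H50.inv_eq_self ht.1]
  have h := hJ t x y ht hxy _ ⟨(hPx _ he).1, (hPx _ he).2, hinv⟩
  have h' : p = t * p * t⁻¹ := inv_mul_eq_one.1 h
  exact (mul_inv_eq_iff_eq_mul.1 h'.symm)

/-- Two commuting involutions normalising a subgroup of odd order: it fixes their common apex. -/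
theorem apex_of_commuting_pair (hS : Setting G Ω) {s t : G} (hs : orderOf s = 2)
    (ht : orderOf t = 2) (hst : s ≠ t) (hc : Commute s t) {P : Subgroup G}
    (hodd : Odd (Nat.card P)) (hsn : ∀ p ∈ P, s * p * s⁻¹ ∈ P)
    (htn : ∀ p ∈ P, t * p * t⁻¹ ∈ P) :
    ∃ d : Ω, InvAt s d ∧ InvAt t d ∧ ∀ p ∈ P, p • d = d := by
  obtain ⟨d, hd⟩ := hS.exists_fix s hs
  have htd : t • d = d := smul_apex_of_commute hS ⟨hs, hd⟩ hc.symm
  have hst1 : s * t ≠ 1 := fun h => hst (by
    rw [eq_inv_of_mul_eq_one_left h, H50.inv_eq_self ht])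
  have hst2 : orderOf (s * t) = 2 := H50.orderOf_eq_two (by
    rw [show s * t * (s * t) = s * (t * s) * t by group, ← hc.eq,
      show s * (s * t) * t = (s * s) * (t * t) by group, H50.inv_mul_self hs, H50.inv_mul_self ht,
      one_mul]) hst1
  have hstd : InvAt (s * t) d := ⟨hst2, by rw [mul_smul, htd, hd]⟩
  refine ⟨d, ⟨hs, hd⟩, ⟨ht, htd⟩, fun p hp => ?_⟩
  have hle : P ≤ MulAction.stabilizer G d := by
    refine le_trans (H48.four_group_generation (H50.inv_mul_self hs) hsn (H50.inv_mul_self ht)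
      hc.eq htn hodd) (sup_le (sup_le ?_ ?_) ?_)
    · exact fun g hg => smul_apex_of_commute hS ⟨hs, hd⟩
        (Subgroup.mem_centralizer_singleton_iff.1 hg.2)
    · exact fun g hg => smul_apex_of_commute hS ⟨ht, htd⟩
        (Subgroup.mem_centralizer_singleton_iff.1 hg.2)
    · exact fun g hg => smul_apex_of_commute hS hstd
        (Subgroup.mem_centralizer_singleton_iff.1 hg.2)
  exact hle hp

/-- The odd core of a subgroup, as a subgroup of the whole group. -/
def oddCore (M : Subgroup G) : Subgroup G := (Cfsg.pPrimeCore 2 ↥M).map M.subtype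

theorem oddCore_le (M : Subgroup G) : oddCore M ≤ M := Subgroup.map_subtype_le _

theorem odd_card_oddCore [Finite G] (M : Subgroup G) : Odd (Nat.card ↥(oddCore M)) := by
  rw [oddCore, Subgroup.card_map_of_injective M.subtype_injective]
  exact Nat.coprime_two_right.1 (H19.pPrimeCore_coprime 2)

theorem conj_mem_oddCore {M : Subgroup G} {g o : G} (hg : g ∈ M) (ho : o ∈ oddCore M) :
    g * o * g⁻¹ ∈ oddCore M := by
  obtain ⟨a, ha, rfl⟩ := ho
  exact ⟨⟨g, hg⟩ * a * ⟨g, hg⟩⁻¹, (H19.pPrimeCore_normal 2 ↥M).conj_mem a ha ⟨g, hg⟩, rfl⟩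

/-- No two distinct commuting involutions. -/
def NoPair (M : Subgroup G) : Prop :=
  ∀ s ∈ M, ∀ t ∈ M, orderOf s = 2 → orderOf t = 2 → Commute s t → s = t

/-- Glauberman's theorem for a subgroup without commuting pairs of involutions. -/
theorem commutator_mem_oddCore [Finite G] {M : Subgroup G} (hM : NoPair M) {t g : G} (ht : t ∈ M)
    (ht2 : orderOf t = 2) (hg : g ∈ M) : t * g * t⁻¹ * g⁻¹ ∈ oddCore M := by
  have hiso : H28.IsIsolatedInvolution (⟨t, ht⟩ : ↥M) := by
    refine ⟨by rw [Subgroup.orderOf_mk]; exact ht2, fun a ha => ?_⟩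
    have hc : Commute t ((a * (⟨t, ht⟩ : ↥M) * a⁻¹ : ↥M) : G) := congrArg Subtype.val ha.eq
    refine Subtype.ext (hM t ht _ (a * (⟨t, ht⟩ : ↥M) * a⁻¹).2 ht2 ?_ hc).symm
    rw [Subgroup.coe_mul, Subgroup.coe_mul, Subgroup.coe_inv, H50.orderOf_conj, ht2]
  exact ⟨_, H28.zStar hiso ⟨g, hg⟩, rfl⟩

theorem orbit_ncard_dvd [Finite G] (H : Subgroup G) (p : Ω) :
    (MulAction.orbit ↥H p).ncard ∣ Nat.card H := by
  rw [← MulAction.index_stabilizer]
  exact Subgroup.index_dvd_card _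

/-- A finite set permuted without fixed points by an involution has an even number of elements. -/
theorem even_ncard_of_involution {α : Type*} {F : Set α} (hF : F.Finite) (f : α → α)
    (hf : ∀ x ∈ F, f x ∈ F) (hff : ∀ x ∈ F, f (f x) = x) (hfx : ∀ x ∈ F, f x ≠ x) :
    Even F.ncard := by
  classical
  rw [Set.ncard_eq_toFinset_card F hF]
  have h : ∑ _x ∈ hF.toFinset, (1 : ZMod 2) = 0 := by
    refine Finset.sum_involution (fun x _ => f x) (fun _ _ => by decide)
      (fun x hx _ => hfx x (hF.mem_toFinset.1 hx))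
      (fun x hx => hF.mem_toFinset.2 (hf x (hF.mem_toFinset.1 hx)))
      (fun x hx => hff x (hF.mem_toFinset.1 hx))
  rw [Finset.sum_const, nsmul_eq_mul, mul_one] at h
  exact ZMod.natCast_eq_zero_iff_even.1 h

/-- A subgroup doubly transitive on an invariant set of at least three points, whose commuting
pairs of involutions have their apexes in that set, has an involution with apex in it. -/
theorem exists_invAt_of_twoTrans [Finite G] [Finite Ω] (hS : Setting G Ω) {M : Subgroup G}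
    {F : Set Ω} (hF : 2 < F.ncard) (hinv : ∀ g ∈ M, ∀ x ∈ F, g • x ∈ F) (h2 : TwoTrans M F)
    (hpair : ∀ s ∈ M, ∀ t ∈ M, orderOf s = 2 → orderOf t = 2 → s ≠ t → Commute s t →
      ∃ d ∈ F, InvAt s d) :
    ∃ x ∈ F, ∃ t ∈ M, InvAt t x := by
  by_contra hcon
  have hno : ∀ x ∈ F, ∀ t ∈ M, ¬ InvAt t x := fun x hx t ht h => hcon ⟨x, hx, t, ht, h⟩
  have hM : NoPair M := fun s hs t ht hs2 ht2 hc => by
    by_contra hne
    obtain ⟨d, hd, hsd⟩ := hpair s hs t ht hs2 ht2 hne hc
    exact hno d hd s hs hsd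
  obtain ⟨a, ha, b, hb, c, hc, hab, hac, hbc⟩ := (Set.two_lt_ncard F.toFinite).1 hF
  obtain ⟨g₀, hg₀, hga, hgb⟩ := h2 a ha b hb b hb a ha hab hab.symm
  obtain ⟨k, hw2, hwa, hwb⟩ := exists_swap_pow hS hab hga hgb
  set w := g₀ ^ k with hwdef
  have hwM : w ∈ M := pow_mem hg₀ k
  by_cases hfix : ∀ o ∈ oddCore M, ∀ x ∈ F, o • x = x
  · obtain ⟨g, hg, hgaa, hgbc⟩ := h2 a ha b hb a ha c hc hab hac
    have hmem := commutator_mem_oddCore hM hwM hw2 hg
    have h1 := hfix _ hmem a ha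
    have h2' : g⁻¹ • a = a := by rw [inv_smul_eq_iff, hgaa]
    rw [mul_smul, mul_smul, mul_smul, h2', H50.inv_eq_self hw2, hwa, hgbc] at h1
    apply hbc
    calc b = w • a := hwa.symm
      _ = c := by rw [← h1, smul_smul_of_inv hw2]
  · push Not at hfix
    obtain ⟨o, ho, p, hp, hop⟩ := hfix
    have hq : o • p ∈ F := hinv o (oddCore_le M ho) p hp
    have horb : F = MulAction.orbit ↥(oddCore M) p := by
      ext y
      constructor
      · intro hy
        by_cases hyp : y = p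
        · exact ⟨1, by rw [hyp]; exact one_smul _ p⟩
        obtain ⟨g, hg, hgp, hgq⟩ := h2 p hp (o • p) hq p hp y hy (Ne.symm hop) (Ne.symm hyp)
        refine ⟨⟨g * o * g⁻¹, conj_mem_oddCore hg ho⟩, ?_⟩
        change (g * o * g⁻¹) • p = y
        have h' : g⁻¹ • p = p := by rw [inv_smul_eq_iff, hgp]
        rw [mul_smul, mul_smul, h', hgq]
      · rintro ⟨q, rfl⟩
        exact hinv _ (oddCore_le M q.2) p hp
    have hodd : Odd F.ncard := (odd_card_oddCore M).of_dvd_nat (horb ▸ orbit_ncard_dvd _ _)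
    exact (Nat.not_even_iff_odd.2 hodd) (even_ncard_of_involution F.toFinite (fun x => w • x)
      (fun x hx => hinv w hwM x hx) (fun x _ => smul_smul_of_inv hw2 x)
      (fun x hx h => hno x hx w hwM ⟨hw2, h⟩))

/-- A Sylow `r`-subgroup of `X`, given by its order. -/
def IsSyl (r : ℕ) (P X : Subgroup G) : Prop :=
  P ≤ X ∧ Nat.card P = r ^ (Nat.card X).factorization r

variable [Finite G] {r : ℕ} [Fact r.Prime]

theorem IsSyl.isPGroup {P X : Subgroup G} (h : IsSyl r P X) : IsPGroup r P :=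
  IsPGroup.of_card h.2

/-- The Sylow subgroup of `↥X` attached to `P`. -/
noncomputable def IsSyl.sylow {P X : Subgroup G} (h : IsSyl r P X) : Sylow r ↥X :=
  Sylow.ofCard (P.subgroupOf X)
    (by rw [Nat.card_congr (Subgroup.subgroupOfEquivOfLe h.1).toEquiv]; exact h.2)

theorem IsSyl.sylow_coe {P X : Subgroup G} (h : IsSyl r P X) :
    (h.sylow : Subgroup ↥X) = P.subgroupOf X := rfl

theorem exists_syl {X Q : Subgroup G} (hQ : Q ≤ X) (hQr : IsPGroup r Q) :
    ∃ P, Q ≤ P ∧ IsSyl r P X := by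
  obtain ⟨S, hS⟩ := (hQr.comap_subtype (K := X)).exists_le_sylow
  refine ⟨(S : Subgroup ↥X).map X.subtype, fun q hq => ?_, Subgroup.map_subtype_le _, ?_⟩
  · exact ⟨⟨q, hQ hq⟩, hS hq, rfl⟩
  · rw [Subgroup.card_map_of_injective X.subtype_injective]
    exact S.card_eq_multiplicity

theorem exists_conj_of_syl {X P Q : Subgroup G} (hP : IsSyl r P X) (hQ : IsSyl r Q X) :
    ∃ h ∈ X, ∀ g, g ∈ Q ↔ h⁻¹ * g * h ∈ P := by
  obtain ⟨h, hh⟩ := MulAction.exists_smul_eq ↥X hP.sylow hQ.sylow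
  refine ⟨h, h.2, fun g => ?_⟩
  have key : ∀ y : ↥X, y ∈ Q.subgroupOf X ↔ h⁻¹ * y * h ∈ P.subgroupOf X := by
    intro y
    rw [← hQ.sylow_coe, ← hh, ← hP.sylow_coe, Sylow.coe_subgroup_smul,
      Subgroup.mem_pointwise_smul_iff_inv_smul_mem]
    simp [MulAut.smul_def]
  constructor
  · intro hg
    exact (key ⟨g, hQ.1 hg⟩).1 hg
  · intro hg
    have hgX : g ∈ X := by
      have h1 := mul_mem (mul_mem h.2 (hP.1 hg)) (inv_mem h.2)
      simpa [mul_assoc] using h1
    exact (key ⟨g, hgX⟩).2 hg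

/-- A normal `r`-subgroup lies in every Sylow `r`-subgroup. -/
theorem IsSyl.normal_le {X P W : Subgroup G} (hP : IsSyl r P X) (hW : W ≤ X)
    (hWr : IsPGroup r W) (hWn : ∀ g ∈ X, ∀ w ∈ W, g * w * g⁻¹ ∈ W) : W ≤ P := by
  have hn : (W.subgroupOf X).Normal := ⟨fun w hw g => hWn g g.2 w hw⟩
  have hsup : IsPGroup r ↥((hP.sylow : Subgroup ↥X) ⊔ W.subgroupOf X) :=
    hP.sylow.2.to_sup_of_normal_right (hWr.comap_subtype)
  have heq := hP.sylow.3 hsup le_sup_left
  intro w hw
  have hmem : (⟨w, hW hw⟩ : ↥X) ∈ (hP.sylow : Subgroup ↥X) := heq ▸ Subgroup.mem_sup_right hw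
  exact hmem

end Cfsg.Agent.H14.Bender.TameAux
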